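import Mathlib
import Cfsg.Agent.H58.BG10Defs2
import Cfsg.Agent.S1242

/-!
# helper27: BG10 piece J (`bg107b : StFusion G → St1411 G`, B&G 10.7(b)) for helper58
-/

set_option autoImplicit false

namespace Cfsg.Agent.H27.BG10

open Cfsg Subgroup Cfsg.Agent.H58.BG10
open scoped commutatorElement

universe u

section general

variable {H : Type u} [Group H]

/-- a homomorphism to an abelian group killing the `p'`-elements is trivial when
`O^p(H) H' = H` -/
theorem resid_kill {p : ℕ} (hres : pResidual p H ⊔ commutator H = ⊤) {A : Type*} [CommGroup A]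
    (f : H →* A) (hf : ∀ g : H, Nat.Coprime (orderOf g) p → f g = 1) : ∀ h : H, f h = 1 := by
  intro h
  have h1 : pResidual p H ≤ f.ker := by
    unfold pResidual
    rw [Subgroup.closure_le]
    intro g hg
    exact MonoidHom.mem_ker.2 (hf g hg)
  have h2 : commutator H ≤ f.ker := Abelianization.commutator_subset_ker f
  have h3 : h ∈ f.ker := by
    have h4 : h ∈ pResidual p H ⊔ commutator H := by rw [hres]; trivial
    exact (sup_le h1 h2) h4
  exact MonoidHom.mem_ker.1 h3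

/-- a normal subgroup with `p`-group quotient is everything when `O^p(H) H' = H` -/
theorem mem_of_quot_pgroup [Finite H] {p : ℕ} [Fact p.Prime]
    (hres : pResidual p H ⊔ commutator H = ⊤) (L : Subgroup H) [L.Normal]
    (hp : IsPGroup p (H ⧸ L)) : ∀ h : H, h ∈ L := by
  have hq : ∀ g : H, Nat.Coprime (orderOf g) p → (QuotientGroup.mk' L) g = 1 := by
    intro g hg
    obtain ⟨k, hk⟩ := hp ((QuotientGroup.mk' L) g)
    have h1 : orderOf ((QuotientGroup.mk' L) g) ∣ p ^ k := orderOf_dvd_of_pow_eq_one hk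
    have h2 : orderOf ((QuotientGroup.mk' L) g) ∣ orderOf g := orderOf_map_dvd _ g
    have h3 : Nat.Coprime (orderOf g) (p ^ k) := Nat.Coprime.pow_right k hg
    have h4 : orderOf ((QuotientGroup.mk' L) g) = 1 :=
      Nat.eq_one_of_dvd_coprimes h3 h2 h1
    exact orderOf_eq_one_iff.1 h4
  have hall : ∀ h : H, (QuotientGroup.mk' L) h ∈ commutator (H ⧸ L) := by
    intro h
    have h1 := resid_kill hres (Abelianization.of.comp (QuotientGroup.mk' L))
      (fun g hg => by rw [MonoidHom.comp_apply, hq g hg, map_one]) h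
    rw [MonoidHom.comp_apply] at h1
    rw [← Abelianization.ker_of]
    exact MonoidHom.mem_ker.2 h1
  have htop : commutator (H ⧸ L) = ⊤ := by
    rw [eq_top_iff]
    intro q _
    obtain ⟨h, rfl⟩ := QuotientGroup.mk'_surjective L q
    exact hall h
  have : Group.IsNilpotent (H ⧸ L) := hp.isNilpotent
  intro h
  by_cases hS : Subsingleton (H ⧸ L)
  · have h1 : (QuotientGroup.mk' L) h = 1 := Subsingleton.elim _ _
    exact (QuotientGroup.eq_one_iff h).1 h1
  · exfalso
    have : Nontrivial (H ⧸ L) := not_subsingleton_iff_nontrivial.1 hS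
    exact (Group.IsSolvable.commutator_lt_top_of_nontrivial (H ⧸ L)).ne htop

end general

variable {G : Type u} [Group G]

/-- `O^p(N) N' = N` for `N = N_G(P)`, `P` a Sylow `p`-subgroup, when `G` is perfect and `N`
controls fusion in `P` -/
theorem resid_top_of_fusion [Finite G] (hcomm : commutator G = ⊤) (hF : StFusion G) (p : ℕ)
    [Fact p.Prime] (P : Sylow p G) :
    pResidual p ↥(normalizer ((P : Subgroup G) : Set G)) ⊔
      commutator ↥(normalizer ((P : Subgroup G) : Set G)) = ⊤ := by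
  have hp : p.Prime := Fact.out
  obtain ⟨N, hN⟩ : ∃ N : Subgroup G, N = normalizer ((P : Subgroup G) : Set G) := ⟨_, rfl⟩
  rw [← hN]
  have hPN : (P : Subgroup G) ≤ N := by rw [hN]; exact le_normalizer
  have hidx : Nat.Coprime p N.index := by
    rw [Nat.Prime.coprime_iff_not_dvd hp]
    intro hdvd
    exact P.not_dvd_index (dvd_trans hdvd (Subgroup.index_dvd_of_le hPN))
  have hpel : ∀ g ∈ N, (∃ k : ℕ, orderOf g = p ^ k) → g ∈ (P : Subgroup G) := by
    intro g hg ⟨k, hk⟩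
    have h1 : IsPGroup p (zpowers g) := by
      apply IsPGroup.of_card (n := k)
      rw [Nat.card_zpowers, hk]
    have h2 := h1.inf_normalizer_sylow P
    have h3 : g ∈ zpowers g ⊓ normalizer ((P : Subgroup G) : Set G) :=
      ⟨mem_zpowers g, hN ▸ hg⟩
    have h4 : g ∈ zpowers g ⊓ (P : Subgroup G) := by
      rw [← h2]; exact h3
    exact h4.2
  have hfus : ∀ g ∈ N, (∃ k : ℕ, orderOf g = p ^ k) → ∀ a : G, a * g * a⁻¹ ∈ N →
      ∃ h ∈ N, h * g * h⁻¹ = a * g * a⁻¹ := by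
    intro g hg hk a ha
    have hgP := hpel g hg hk
    have haP : a * g * a⁻¹ ∈ (P : Subgroup G) := by
      apply hpel _ ha
      obtain ⟨k, hk⟩ := hk
      refine ⟨k, ?_⟩
      rw [← hk]
      exact orderOf_injective (MulAut.conj a).toMonoidHom (MulEquiv.injective _) g
    obtain ⟨y, hy, hy2⟩ := hF p P {g} a (by
      intro b hb; rw [Set.mem_singleton_iff] at hb; rw [hb]; exact hgP) (by
      intro b hb; rw [Set.mem_singleton_iff] at hb; rw [hb]; exact haP)
    exact ⟨y, hN ▸ hy, hy2 g rfl⟩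
  have key := Cfsg.Agent.S1242.result N hidx hfus
  rw [hcomm, sup_top_eq, top_inf_eq] at key
  rw [eq_top_iff]
  intro x _
  have h1 : (x : G) ∈ (pResidual p ↥N ⊔ commutator ↥N).map N.subtype := by
    rw [← key]; exact x.2
  obtain ⟨y, hy, hyx⟩ := h1
  have h2 : y = x := Subtype.ext hyx
  rw [← h2]; exact hy

/-- **BG10 piece J** (B&G 10.7(b)) -/
theorem bg107b [Finite G] (hG : IsMinSimpleOddOrder G) (hF : StFusion G) : St1411 G := by
  intro p _ P V hcompl
  have hp : p.Prime := Fact.out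
  obtain ⟨hPN, hVN, hPV, hdec⟩ := hcompl
  -- `G` is perfect
  have hcomm : commutator G = ⊤ := by
    obtain ⟨_, hsimple, hnc, _⟩ := hG
    have := hsimple
    rcases (commutator_normal (⊤ : Subgroup G) ⊤).eq_bot_or_eq_top with h | h
    · exfalso
      apply hnc
      refine ⟨⟨fun a b => ?_⟩⟩
      have h1 : ⁅a, b⁆ ∈ commutator G := Subgroup.commutator_mem_commutator
        (Subgroup.mem_top a) (Subgroup.mem_top b)
      have h2 : commutator G = ⊥ := h
      rw [h2, Subgroup.mem_bot, commutatorElement_eq_one_iff_mul_comm] at h1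
      exact h1
    · exact h
  have hres := resid_top_of_fusion hcomm hF p P
  obtain ⟨N, hN⟩ : ∃ N : Subgroup G, N = normalizer ((P : Subgroup G) : Set G) := ⟨_, rfl⟩
  rw [← hN] at hres hPN hVN hdec ⊢
  have hnorm : ∀ n ∈ N, ∀ a ∈ (P : Subgroup G), n * a * n⁻¹ ∈ (P : Subgroup G) := by
    intro n hn a ha
    rw [hN] at hn
    exact (Subgroup.mem_normalizer_iff.1 hn a).1 ha
  -- first the second conclusion
  have hPcomm : (P : Subgroup G) ≤ ⁅N, N⁆ := by
    intro x hx
    obtain ⟨a, e, he, hcard⟩ := Nat.exists_eq_pow_mul_and_not_dvd (Nat.card_pos (α := ↥N)).ne' p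
      hp.ne_one
    have hf : ∀ g : ↥N, Nat.Coprime (orderOf g) p →
        ((powMonoidHom e).comp (Abelianization.of : ↥N →* Abelianization ↥N)) g = 1 := by
      intro g hg
      have h1 : orderOf g ∣ p ^ a * e := hcard ▸ orderOf_dvd_natCard g
      have h2 : orderOf g ∣ e := (Nat.Coprime.pow_right a hg).dvd_of_dvd_mul_left h1
      rw [MonoidHom.comp_apply, powMonoidHom_apply, ← map_pow,
        orderOf_dvd_iff_pow_eq_one.1 h2, map_one]
    have h3 := resid_kill hres _ hf ⟨x, hPN hx⟩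
    rw [MonoidHom.comp_apply, powMonoidHom_apply] at h3
    obtain ⟨k, hk⟩ := P.isPGroup' ⟨x, hx⟩
    have h4 : (Abelianization.of (⟨x, hPN hx⟩ : ↥N)) ^ p ^ k = 1 := by
      rw [← map_pow]
      have h5 : (⟨x, hPN hx⟩ : ↥N) ^ p ^ k = 1 := by
        apply Subtype.ext
        have h6 := congrArg Subtype.val hk
        simpa using h6
      rw [h5, map_one]
    have h7 : Nat.Coprime e (p ^ k) :=
      Nat.Coprime.pow_right k ((Nat.Prime.coprime_iff_not_dvd hp).2 he).symm
    have h8 : Abelianization.of (⟨x, hPN hx⟩ : ↥N) = 1 := by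
      have h9 := pow_gcd_eq_one.2 ⟨h3, h4⟩
      rw [show Nat.gcd e (p ^ k) = 1 from h7, pow_one] at h9
      exact h9
    have h10 : (⟨x, hPN hx⟩ : ↥N) ∈ commutator ↥N := by
      rw [← Abelianization.ker_of]; exact MonoidHom.mem_ker.2 h8
    have h11 : (commutator ↥N).map N.subtype = ⁅N, N⁆ := by
      rw [_root_.commutator_def, Subgroup.map_commutator, ← MonoidHom.range_eq_map,
        Subgroup.range_subtype]
    rw [← h11]
    exact ⟨_, h10, rfl⟩
  refine ⟨?_, hPcomm⟩
  -- now `P = ⁅P, V⁆`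
  obtain ⟨D, hD⟩ : ∃ D : Subgroup G, D = ⁅(P : Subgroup G), V⁆ := ⟨_, rfl⟩
  rw [← hD]
  have hDP : D ≤ (P : Subgroup G) := by
    rw [hD, Subgroup.commutator_le]
    intro a ha v hv
    rw [commutatorElement_def, mul_assoc, mul_assoc]
    apply Subgroup.mul_mem _ ha
    have h1 := hnorm v (hVN hv) a⁻¹ (Subgroup.inv_mem _ ha)
    rw [mul_assoc] at h1
    exact h1
  have hVD : ∀ v ∈ V, ∀ d ∈ D, v * d * v⁻¹ ∈ D := by
    intro v hv
    have h1 : D ≤ D.comap (MulAut.conj v).toMonoidHom := by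
      nth_rewrite 1 [hD]
      rw [Subgroup.commutator_le]
      intro b hb w hw
      rw [Subgroup.mem_comap]
      have h2 : (MulAut.conj v).toMonoidHom ⁅b, w⁆ = ⁅v * b * v⁻¹, v * w * v⁻¹⁆ := by
        show v * ⁅b, w⁆ * v⁻¹ = _
        rw [commutatorElement_def, commutatorElement_def]; group
      rw [h2, hD]
      exact Subgroup.commutator_mem_commutator (hnorm v (hVN hv) b hb)
        (Subgroup.mul_mem _ (Subgroup.mul_mem _ hv hw) (Subgroup.inv_mem _ hv))
    intro d hd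
    exact h1 hd
  have hPD : ∀ a ∈ (P : Subgroup G), ∀ d ∈ D, a * d * a⁻¹ ∈ D := by
    intro a ha
    have h1 : D ≤ D.comap (MulAut.conj a).toMonoidHom := by
      nth_rewrite 1 [hD]
      rw [Subgroup.commutator_le]
      intro b hb w hw
      rw [Subgroup.mem_comap]
      have h2 : (MulAut.conj a).toMonoidHom ⁅b, w⁆ = ⁅a * b, w⁆ * ⁅a, w⁆⁻¹ := by
        show a * ⁅b, w⁆ * a⁻¹ = _
        rw [commutatorElement_def, commutatorElement_def, commutatorElement_def]; group
      rw [h2, hD]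
      exact Subgroup.mul_mem _ (Subgroup.commutator_mem_commutator (Subgroup.mul_mem _ ha hb) hw)
        (Subgroup.inv_mem _ (Subgroup.commutator_mem_commutator ha hw))
    intro d hd
    exact h1 hd
  -- the subgroup `D V`
  let L₀ : Subgroup G :=
    { carrier := {x | ∃ d ∈ D, ∃ v ∈ V, x = d * v}
      one_mem' := ⟨1, D.one_mem, 1, V.one_mem, by simp⟩
      mul_mem' := by
        rintro _ _ ⟨d, hd, v, hv, rfl⟩ ⟨d', hd', v', hv', rfl⟩
        exact ⟨d * (v * d' * v⁻¹), D.mul_mem hd (hVD v hv d' hd'), v * v', V.mul_mem hv hv',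
          by group⟩
      inv_mem' := by
        rintro _ ⟨d, hd, v, hv, rfl⟩
        exact ⟨v⁻¹ * d⁻¹ * v⁻¹⁻¹, hVD v⁻¹ (V.inv_mem hv) d⁻¹ (D.inv_mem hd), v⁻¹, V.inv_mem hv,
          by group⟩ }
  have hL₀mem : ∀ x, x ∈ L₀ ↔ ∃ d ∈ D, ∃ v ∈ V, x = d * v := fun x => Iff.rfl
  have hL₀V : ∀ w ∈ V, ∀ x ∈ L₀, w * x * w⁻¹ ∈ L₀ := by
    intro w hw x hx
    obtain ⟨d, hd, v, hv, rfl⟩ := (hL₀mem x).1 hx
    exact (hL₀mem _).2 ⟨w * d * w⁻¹, hVD w hw d hd, w * v * w⁻¹,
      V.mul_mem (V.mul_mem hw hv) (V.inv_mem hw), by group⟩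
  have hL₀P : ∀ a ∈ (P : Subgroup G), ∀ x ∈ L₀, a * x * a⁻¹ ∈ L₀ := by
    intro a ha x hx
    obtain ⟨d, hd, v, hv, rfl⟩ := (hL₀mem x).1 hx
    refine (hL₀mem _).2 ⟨a * d * a⁻¹ * ⁅a, v⁆, D.mul_mem (hPD a ha d hd) ?_, v, hv, ?_⟩
    · rw [hD]; exact Subgroup.commutator_mem_commutator ha hv
    · rw [commutatorElement_def]; group
  have hL₀N : ∀ n ∈ N, ∀ x ∈ L₀, n * x * n⁻¹ ∈ L₀ := by
    intro n hn x hx
    obtain ⟨a, ha, v, hv, rfl⟩ := hdec n hn
    have h1 := hL₀P a ha _ (hL₀V v hv x hx)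
    have h2 : a * v * x * (a * v)⁻¹ = a * (v * x * v⁻¹) * a⁻¹ := by group
    rw [h2]; exact h1
  have hLn : (L₀.subgroupOf N).Normal := by
    refine ⟨fun x hx n => ?_⟩
    rw [Subgroup.mem_subgroupOf] at hx ⊢
    exact hL₀N n n.2 x hx
  have hpq : IsPGroup p (↥N ⧸ L₀.subgroupOf N) := by
    intro q
    obtain ⟨n, rfl⟩ := QuotientGroup.mk'_surjective (L₀.subgroupOf N) q
    obtain ⟨a, ha, v, hv, hn⟩ := hdec n n.2
    obtain ⟨k, hk⟩ := P.isPGroup' ⟨a, ha⟩
    refine ⟨k, ?_⟩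
    have h1 : (QuotientGroup.mk' (L₀.subgroupOf N)) n =
        (QuotientGroup.mk' (L₀.subgroupOf N)) ⟨a, hPN ha⟩ := by
      rw [QuotientGroup.mk'_eq_mk']
      refine ⟨⟨v⁻¹, N.inv_mem (hVN hv)⟩, ?_, ?_⟩
      · rw [Subgroup.mem_subgroupOf]
        exact (hL₀mem _).2 ⟨1, D.one_mem, v⁻¹, V.inv_mem hv, by simp⟩
      · apply Subtype.ext
        show (n : G) * v⁻¹ = a
        rw [hn]; group
    rw [h1, ← map_pow]
    have h5 : (⟨a, hPN ha⟩ : ↥N) ^ p ^ k = 1 := by
      apply Subtype.ext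
      have h6 := congrArg Subtype.val hk
      simpa using h6
    rw [h5, map_one]
  have hall := mem_of_quot_pgroup hres (L₀.subgroupOf N) hpq
  apply le_antisymm _ hDP
  intro x hx
  have h1 := hall ⟨x, hPN hx⟩
  rw [Subgroup.mem_subgroupOf] at h1
  obtain ⟨d, hd, v, hv, hxdv⟩ := (hL₀mem _).1 h1
  have hxdv' : x = d * v := hxdv
  have h2 : v ∈ (P : Subgroup G) ⊓ V := by
    refine ⟨?_, hv⟩
    have h3 : v = d⁻¹ * x := by rw [hxdv']; group
    rw [h3]
    exact Subgroup.mul_mem _ (Subgroup.inv_mem _ (hDP hd)) hx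
  rw [hPV, Subgroup.mem_bot] at h2
  rw [hxdv', h2, mul_one]
  exact hd

end Cfsg.Agent.H27.BG10
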