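import Mathlib

/-!
# helper27: S5634-NM (`nm_bound`) for helper17
-/

set_option autoImplicit false

namespace Cfsg.Agent.H27.Mn

open scoped Matrix

variable {ι : Type} [Fintype ι] [DecidableEq ι] {F : Type*} [Field F]

/-- nonzero vectors `w l` (`l ∈ L`) in a subspace `U`, each supported on `{l, π l}`:
then `#L ≤ 2 dim U` -/
theorem supp_bound (π : Equiv.Perm ι) (w : ι → ι → F) :
    ∀ (n : ℕ) (U : Submodule F (ι → F)) (L : Finset ι), Module.finrank F U ≤ n →
      (∀ l ∈ L, w l ∈ U ∧ w l ≠ 0 ∧ ∀ i, i ≠ l → i ≠ π l → w l i = 0) → L.card ≤ 2 * n := by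
  classical
  intro n
  induction n with
  | zero =>
    intro U L hU hL
    have hU0 : U = ⊥ := Submodule.finrank_eq_zero.1 (by omega)
    rcases Finset.eq_empty_or_nonempty L with h | ⟨l, hl⟩
    · simp [h]
    · obtain ⟨h1, h2, _⟩ := hL l hl
      rw [hU0, Submodule.mem_bot] at h1
      exact absurd h1 h2
  | succ n ih =>
    intro U L hU hL
    rcases Finset.eq_empty_or_nonempty L with h | ⟨l₀, hl₀⟩
    · simp [h]
    · obtain ⟨h1, h2, h3⟩ := hL l₀ hl₀
      obtain ⟨i₀, hi₀⟩ : ∃ i₀, w l₀ i₀ ≠ 0 := by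
        by_contra hcon
        push Not at hcon
        exact h2 (funext hcon)
      obtain ⟨U', hU'⟩ : ∃ U' : Submodule F (ι → F),
          U' = U ⊓ LinearMap.ker (LinearMap.proj i₀ : (ι → F) →ₗ[F] F) := ⟨_, rfl⟩
      have hmem : ∀ v : ι → F, v ∈ U' ↔ v ∈ U ∧ v i₀ = 0 := by
        intro v
        rw [hU', Submodule.mem_inf, LinearMap.mem_ker, LinearMap.proj_apply]
      have hlt : U' < U := by
        refine lt_of_le_of_ne (fun v hv => ((hmem v).1 hv).1) ?_
        intro heq
        have h4 : w l₀ ∈ U' := heq ▸ h1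
        exact hi₀ ((hmem _).1 h4).2
      have hfr : Module.finrank F U' ≤ n := by
        have h5 := Submodule.finrank_lt_finrank_of_lt hlt
        omega
      have hL' : ∀ l ∈ L.filter (fun l => w l i₀ = 0),
          w l ∈ U' ∧ w l ≠ 0 ∧ ∀ i, i ≠ l → i ≠ π l → w l i = 0 := by
        intro l hl
        rw [Finset.mem_filter] at hl
        obtain ⟨a1, a2, a3⟩ := hL l hl.1
        exact ⟨(hmem _).2 ⟨a1, hl.2⟩, a2, a3⟩
      have hcard := ih U' (L.filter (fun l => w l i₀ = 0)) hfr hL'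
      have hsub : L ⊆ L.filter (fun l => w l i₀ = 0) ∪ {i₀, π.symm i₀} := by
        intro l hl
        by_cases hz : w l i₀ = 0
        · exact Finset.mem_union_left _ (Finset.mem_filter.2 ⟨hl, hz⟩)
        · apply Finset.mem_union_right
          obtain ⟨_, _, a3⟩ := hL l hl
          by_cases h6 : i₀ = l
          · simp [h6]
          · have h7 : i₀ = π l := by
              by_contra h7
              exact hz (a3 i₀ h6 h7)
            have h8 : l = π.symm i₀ := by rw [h7]; simp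
            simp [h8]
      have h9 := Finset.card_le_card hsub
      have h10 := Finset.card_union_le (L.filter (fun l => w l i₀ = 0)) {i₀, π.symm i₀}
      have h11 : ({i₀, π.symm i₀} : Finset ι).card ≤ 2 := Finset.card_le_two
      omega

/-- **S5634-NM** -/
theorem nm_bound (g γ : Matrix ι ι F) (hgγ : g * γ = 1) (d : ι → F) (π : Equiv.Perm ι)
    (hπ : ∀ i l, i ≠ π l → (g * Matrix.diagonal d * γ) i l = 0) :
    Nat.card {l : ι // ∃ k, d k ≠ 1 ∧ γ k l ≠ 0} ≤ 2 * Nat.card {k : ι // d k ≠ 1} := by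
  classical
  have hγg : γ * g = 1 := mul_eq_one_comm.mp hgγ
  obtain ⟨x, hx⟩ : ∃ x, x = g * Matrix.diagonal d * γ := ⟨_, rfl⟩
  rw [← hx] at hπ
  have hx1 : x - 1 = g * (Matrix.diagonal d - 1) * γ := by
    rw [hx, Matrix.mul_sub, Matrix.sub_mul, mul_one, hgγ]
  have hγx : γ * (x - 1) = (Matrix.diagonal d - 1) * γ := by
    rw [hx1, ← mul_assoc, ← mul_assoc, hγg, one_mul]
  obtain ⟨w, hw0⟩ : ∃ w : ι → ι → F, ∀ l i, w l i = (x - 1) i l := ⟨fun l i => (x - 1) i l, fun _ _ => rfl⟩
  obtain ⟨U, hUdef⟩ : ∃ U : Submodule F (ι → F), U = Submodule.span F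
      (Set.range (fun k : {k : ι // d k ≠ 1} => fun i => g i k)) := ⟨_, rfl⟩
  have hU : Module.finrank F U ≤ Fintype.card {k : ι // d k ≠ 1} := by
    rw [hUdef]; exact finrank_range_le_card _
  have hw : ∀ l ∈ Finset.univ.filter (fun l => ∃ k, d k ≠ 1 ∧ γ k l ≠ 0),
      w l ∈ U ∧ w l ≠ 0 ∧ ∀ i, i ≠ l → i ≠ π l → w l i = 0 := by
    intro l hl
    rw [Finset.mem_filter] at hl
    obtain ⟨k₀, hk₀, hγk₀⟩ := hl.2
    refine ⟨?_, ?_, ?_⟩
    · have e : w l = ∑ k, ((d k - 1) * γ k l) • (fun i => g i k) := by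
        funext i
        rw [hw0, hx1, Matrix.mul_apply, Finset.sum_apply]
        refine Finset.sum_congr rfl fun k _ => ?_
        simp only [Pi.smul_apply, smul_eq_mul, Matrix.mul_sub, Matrix.sub_apply,
          Matrix.mul_diagonal, mul_one]
        ring
      rw [e]
      refine Submodule.sum_mem _ fun k _ => ?_
      by_cases hk : d k = 1
      · rw [hk, sub_self, zero_mul, zero_smul]; exact Submodule.zero_mem _
      · rw [hUdef]
        exact Submodule.smul_mem _ _ (Submodule.subset_span ⟨⟨k, hk⟩, rfl⟩)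
    · intro h0
      have e2 : ((Matrix.diagonal d - 1) * γ) k₀ l = 0 := by
        rw [← hγx, Matrix.mul_apply]
        refine Finset.sum_eq_zero fun i _ => ?_
        have h1 : (x - 1) i l = 0 := by rw [← hw0, h0]; rfl
        rw [h1, mul_zero]
      rw [Matrix.sub_mul, one_mul, Matrix.sub_apply, Matrix.diagonal_mul] at e2
      have h2 : (d k₀ - 1) * γ k₀ l = 0 := by rw [sub_mul, one_mul]; exact e2
      rcases mul_eq_zero.1 h2 with h | h
      · exact hk₀ (sub_eq_zero.1 h)
      · exact hγk₀ h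
    · intro i hil hiπ
      rw [hw0, Matrix.sub_apply, hπ i l hiπ, Matrix.one_apply_ne hil, sub_zero]
  have key := supp_bound π w _ U _ hU hw
  rw [Nat.card_eq_fintype_card, Nat.card_eq_fintype_card, Fintype.card_subtype]
  exact key

end Cfsg.Agent.H27.Mn
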