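import Mathlib
import Cfsg.Agent.H17.MnDefs
import Cfsg.Agent.H77.MnBas1
import Cfsg.Agent.H95.SpDecomp

/-!
# helper27: S5634-RED (`red_one`) for helper17
-/

set_option autoImplicit false

namespace Cfsg.Agent.H27.Mn

open Cfsg Cfsg.Geo Cfsg.Agent.H17.Mn
open scoped MatrixGroups Matrix

variable {F : Type*} [Field F]

/-- **S5634-RED** -/
theorem red_one {n t : ℕ} (D : Fin t → Submodule F (Fin n → F)) (hD : IsMDecomposition 1 D) :
    ∃ P : GL (Fin n) F, ∀ g : GL (Fin n) F,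
      g ∈ decompositionStabilizer D ↔ P⁻¹ * g * P ∈ mono (Fin n) F := by
  classical
  have hI : DirectSum.IsInternal D :=
    DirectSum.isInternal_submodule_of_iSupIndep_of_iSup_eq_top hD.indep hD.iSup_eq_top
  let bD : ∀ i, Module.Basis (Fin 1) F (D i) := fun i =>
    Module.finBasisOfFinrankEq F (D i) (hD.finrank_eq i)
  let B : Module.Basis (Σ _ : Fin t, Fin 1) F (Fin n → F) := hI.collectedBasis bD
  have hcard : Fintype.card (Σ _ : Fin t, Fin 1) = n := by
    have h1 := Module.finrank_eq_card_basis B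
    simpa using h1.symm
  let e : Fin n ≃ (Σ _ : Fin t, Fin 1) := (Fintype.equivFinOfCardEq hcard).symm
  let E : (Fin n → F) ≃ₗ[F] (Fin n → F) :=
    (Pi.basisFun F (Fin n)).equiv (B.reindex e.symm) (Equiv.refl _)
  obtain ⟨P, hP⟩ : ∃ P : GL (Fin n) F, P = Cfsg.Agent.H95.glOf E := ⟨_, rfl⟩
  obtain ⟨b, hb⟩ : ∃ b : Fin n → Fin n → F,
      ∀ j, b j = (P : Matrix (Fin n) (Fin n) F) *ᵥ Pi.single j 1 := ⟨_, fun _ => rfl⟩
  obtain ⟨τ, hτ⟩ : ∃ τ : Fin n ≃ Fin t, ∀ j, τ j = (e j).1 :=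
    ⟨e.trans (Equiv.sigmaUnique (Fin t) (fun _ => Fin 1)), fun _ => rfl⟩
  have hbB : ∀ j, b j = ((bD (e j).1 (e j).2 : D (e j).1) : Fin n → F) := by
    intro j
    rw [hb, hP, Cfsg.Agent.H95.glOf_mulVec]
    have h1 : E (Pi.single j 1) = (B.reindex e.symm) j := by
      have h2 := Module.Basis.equiv_apply (Pi.basisFun F (Fin n)) j (B.reindex e.symm)
        (Equiv.refl _)
      rw [Pi.basisFun_apply] at h2
      exact h2
    rw [h1, Module.Basis.reindex_apply, Equiv.symm_symm]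
    show (hI.collectedBasis bD) (e j) = _
    rw [DirectSum.IsInternal.collectedBasis_coe]
  have hA1 : ∀ j, b j ∈ D (τ j) := by
    intro j
    rw [hbB, hτ]
    exact Submodule.coe_mem _
  have hA2 : ∀ j, ∀ x ∈ D (τ j), ∃ c : F, x = c • b j := by
    intro j x hx
    rw [hτ] at hx
    have h1 := (bD (e j).1).sum_repr ⟨x, hx⟩
    rw [Fin.sum_univ_one] at h1
    refine ⟨(bD (e j).1).repr ⟨x, hx⟩ 0, ?_⟩
    rw [hbB, Subsingleton.elim (e j).2 0]
    have h2 := congrArg (Subtype.val) h1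
    exact h2.symm
  have hA4 : ∀ j (v : Fin n → F), (P : Matrix (Fin n) (Fin n) F) *ᵥ v ∈ D (τ j) →
      ∀ i, i ≠ j → v i = 0 := by
    intro j v hv i hij
    obtain ⟨c, hc⟩ := hA2 j _ hv
    rw [hb, ← Matrix.mulVec_smul] at hc
    have h1 : v = c • Pi.single j 1 := Cfsg.Agent.H95.mulVec_injective P hc
    rw [h1, Pi.smul_apply, Pi.single_eq_of_ne hij, smul_zero]
  refine ⟨P, fun g => ?_⟩
  obtain ⟨h, hh⟩ : ∃ h : GL (Fin n) F, h = P⁻¹ * g * P := ⟨_, rfl⟩
  rw [← hh]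
  have hPh : (P : Matrix (Fin n) (Fin n) F) * (h : Matrix (Fin n) (Fin n) F) =
      (g : Matrix (Fin n) (Fin n) F) * (P : Matrix (Fin n) (Fin n) F) := by
    rw [← Units.val_mul, ← Units.val_mul, hh]
    congr 1
    group
  have hcolumn : ∀ j, (g : Matrix (Fin n) (Fin n) F) *ᵥ b j =
      (P : Matrix (Fin n) (Fin n) F) *ᵥ ((h : Matrix (Fin n) (Fin n) F) *ᵥ Pi.single j 1) := by
    intro j
    rw [hb, Matrix.mulVec_mulVec, Matrix.mulVec_mulVec, hPh]
  constructor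
  · intro hg
    have hg' : ∃ σ : Equiv.Perm (Fin t), ∀ i,
        (D i).map (Matrix.toLin' (g : Matrix (Fin n) (Fin n) F)) = D (σ i) := hg
    obtain ⟨σ, hσ⟩ := hg'
    apply Cfsg.Agent.H77.Mn.mem_mono_of_isMon
    have hcol : ∀ j i, i ≠ τ.symm (σ (τ j)) → (h : Matrix (Fin n) (Fin n) F) i j = 0 := by
      intro j i hi
      have h1 : (P : Matrix (Fin n) (Fin n) F) *ᵥ
          ((h : Matrix (Fin n) (Fin n) F) *ᵥ Pi.single j 1) ∈ D (τ (τ.symm (σ (τ j)))) := by
        rw [← hcolumn, Equiv.apply_symm_apply, ← hσ]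
        exact ⟨b j, hA1 j, by rw [Matrix.toLin'_apply]⟩
      have h2 := hA4 _ _ h1 i hi
      rw [Matrix.mulVec_single_one] at h2
      exact h2
    intro j i i' hi hi'
    have h1 : i = τ.symm (σ (τ j)) := by
      by_contra hne; exact hi (hcol j i hne)
    have h2 : i' = τ.symm (σ (τ j)) := by
      by_contra hne; exact hi' (hcol j i' hne)
    rw [h1, h2]
  · intro hmono
    have hmon : IsMon (h : Matrix (Fin n) (Fin n) F) := hmono.1
    have hK : ∀ j₀ i₁ : Fin n, (∀ i, i ≠ i₁ → (h : Matrix (Fin n) (Fin n) F) i j₀ = 0) →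
        ∀ x ∈ D (τ j₀), (g : Matrix (Fin n) (Fin n) F) *ᵥ x ∈ D (τ i₁) := by
      intro j₀ i₁ hz x hx
      obtain ⟨c, rfl⟩ := hA2 j₀ x hx
      rw [Matrix.mulVec_smul, hcolumn]
      have h1 : (h : Matrix (Fin n) (Fin n) F) *ᵥ Pi.single j₀ 1 =
          ((h : Matrix (Fin n) (Fin n) F) i₁ j₀) • Pi.single i₁ 1 := by
        rw [Matrix.mulVec_single_one]
        funext i
        rw [Matrix.col_apply, Pi.smul_apply, smul_eq_mul]
        by_cases hi : i = i₁
        · rw [hi, Pi.single_eq_same, mul_one]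
        · rw [hz i hi, Pi.single_eq_of_ne hi, mul_zero]
      rw [h1, Matrix.mulVec_smul, ← hb]
      exact Submodule.smul_mem _ _ (Submodule.smul_mem _ _ (hA1 i₁))
    apply Cfsg.Agent.H95.mem_decompositionStabilizer_of_forall hD g
    intro i
    by_cases hex : ∃ i₁, (h : Matrix (Fin n) (Fin n) F) i₁ (τ.symm i) ≠ 0
    · obtain ⟨i₁, hi₁⟩ := hex
      refine ⟨τ i₁, fun x hx => ?_⟩
      apply hK (τ.symm i) i₁
      · intro i' hi'
        by_contra hne
        exact hi' (hmon (τ.symm i) i' i₁ hne hi₁)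
      · rw [Equiv.apply_symm_apply]; exact hx
    · push Not at hex
      refine ⟨τ (τ.symm i), fun x hx => ?_⟩
      apply hK (τ.symm i) (τ.symm i)
      · intro i' _; exact hex i'
      · rw [Equiv.apply_symm_apply]; exact hx

end Cfsg.Agent.H27.Mn
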