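import Mathlib
import Cfsg.Agent.H17.MnDefs
import Cfsg.Agent.H17.MnBTV
import Cfsg.Agent.H17.MnTv
import Cfsg.Agent.H95.SLMax

/-!
# helper27: S5634-RT3 (`sl_le_of_hasRoot`) for helper17
-/

set_option autoImplicit false

namespace Cfsg.Agent.H27.Mn

open Cfsg Cfsg.Geo Cfsg.Agent.H17.Mn
open scoped MatrixGroups Matrix

variable {ι : Type} [Fintype ι] [DecidableEq ι] {F : Type*} [Field F]
variable {t m : ℕ} (D : Fin t → Submodule F (ι → F))

/-- **S5634-RT3** -/
theorem sl_le_of_hasRoot (hD : IsMDecomposition m D) (M : Subgroup (GL ι F))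
    (hM : decompositionStabilizer D ⊓ specialLinear ι F ≤ M)
    (hr : ∀ i j : Fin t, i ≠ j → HasRoot D M i j) : specialLinear ι F ≤ M := by
  classical
  have hI : DirectSum.IsInternal D :=
    DirectSum.isInternal_submodule_of_iSupIndep_of_iSup_eq_top hD.indep hD.iSup_eq_top
  let bD : ∀ i, Module.Basis (Fin m) F (D i) := fun i =>
    Module.finBasisOfFinrankEq F (D i) (hD.finrank_eq i)
  let B : Module.Basis (Σ _ : Fin t, Fin m) F (ι → F) := hI.collectedBasis bD
  have hB : ∀ a : (Σ _ : Fin t, Fin m), B a = ((bD a.1 a.2 : D a.1) : ι → F) := by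
    intro a
    show (hI.collectedBasis bD) a = _
    rw [DirectSum.IsInternal.collectedBasis_coe]
  have hcard : Fintype.card ι = Fintype.card (Σ _ : Fin t, Fin m) := by
    have h1 := Module.finrank_eq_card_basis B
    rw [Module.finrank_fintype_fun_eq_card] at h1
    exact h1
  let e : ι ≃ (Σ _ : Fin t, Fin m) := Fintype.equivOfCardEq hcard
  let E : (ι → F) ≃ₗ[F] (ι → F) :=
    (Pi.basisFun F ι).equiv (B.reindex e.symm) (Equiv.refl _)
  obtain ⟨P, hP⟩ : ∃ P : GL ι F, P = Cfsg.Agent.H95.glOf E := ⟨_, rfl⟩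
  have hPb : ∀ j, (P : Matrix ι ι F) *ᵥ Pi.single j 1 = B (e j) := by
    intro j
    rw [hP, Cfsg.Agent.H95.glOf_mulVec]
    have h2 := Module.Basis.equiv_apply (Pi.basisFun F ι) j (B.reindex e.symm) (Equiv.refl _)
    rw [Pi.basisFun_apply] at h2
    rw [show E (Pi.single j 1) = (B.reindex e.symm) j from h2, Module.Basis.reindex_apply,
      Equiv.symm_symm]
  have hkey : ∀ i j : ι, i ≠ j → ∀ c : F,
      ∀ h0 : (c • (LinearMap.proj j : (ι → F) →ₗ[F] F)) (Pi.single i 1) = 0,
      P * Cfsg.Agent.H95.tvGL (Pi.single i 1) (c • LinearMap.proj j) h0 * P⁻¹ ∈ M := by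
    intro i j hij c h0
    rw [conj_tvGL P _ _ h0 (conj_tvGL_aux P _ _ h0)]
    have hx : (P : Matrix ι ι F) *ᵥ Pi.single i 1 ∈ D (e i).1 := by
      rw [hPb, hB]; exact Submodule.coe_mem _
    have hχ : SuppOn D (e j).1 ((c • (LinearMap.proj j : (ι → F) →ₗ[F] F)) ∘ₗ
        Matrix.toLin' ((P⁻¹ : GL ι F) : Matrix ι ι F)) := by
      intro l hl v hv
      have h1 := (bD l).sum_repr ⟨v, hv⟩
      have h2 : v = ∑ c' : Fin m, (bD l).repr ⟨v, hv⟩ c' • ((bD l c' : D l) : ι → F) := by
        have h4 : ((∑ i, (bD l).repr ⟨v, hv⟩ i • bD l i : D l) : ι → F) = v :=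
          congrArg Subtype.val h1
        refine h4.symm.trans ?_
        simp only [Submodule.coe_sum, Submodule.coe_smul]
      rw [h2, map_sum]
      refine Finset.sum_eq_zero fun c' _ => ?_
      rw [map_smul]
      have h3 : ((bD l c' : D l) : ι → F) =
          (P : Matrix ι ι F) *ᵥ Pi.single (e.symm ⟨l, c'⟩) 1 := by
        rw [hPb, Equiv.apply_symm_apply]
        exact (hB ⟨l, c'⟩).symm
      rw [h3, LinearMap.comp_apply, Matrix.toLin'_apply, inv_mulVec_mulVec,
        LinearMap.smul_apply, LinearMap.proj_apply, Pi.single_eq_of_ne, smul_zero, smul_zero]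
      intro hj
      apply hl
      rw [hj, Equiv.apply_symm_apply]
    by_cases hb : (e i).1 = (e j).1
    · apply hM
      exact blockTv_mem D hD (e j).1 _ (hb ▸ hx) _ hχ _
    · exact hr (e i).1 (e j).1 hb _ hx _ hχ _
  have hle : H45.elemSubgroup ι F ≤
      (M.comap (MulAut.conj P).toMonoidHom).comap Matrix.SpecialLinearGroup.toGL := by
    unfold H45.elemSubgroup
    rw [Subgroup.closure_le]
    rintro A ⟨i, j, hij, c, rfl⟩
    show P * Matrix.SpecialLinearGroup.toGL (Matrix.SpecialLinearGroup.transvection hij c) * P⁻¹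
      ∈ M
    have h5 : Matrix.SpecialLinearGroup.toGL (Matrix.SpecialLinearGroup.transvection hij c) =
        Cfsg.Agent.H95.tvGL (Pi.single i 1) (c • LinearMap.proj j) (by simp [hij.symm]) := by
      apply Cfsg.Agent.H95.gl_ext
      intro x
      rw [Cfsg.Agent.H95.tvGL_mulVec]
      show (Matrix.transvection i j c) *ᵥ x = _
      rw [Matrix.transvection, Matrix.add_mulVec, Matrix.one_mulVec]
      congr 1
      ext k
      simp [Matrix.mulVec, dotProduct, Matrix.single_apply, Pi.single_apply]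
      by_cases hk : k = i
      · subst hk
        simp
      · simp [hk, Ne.symm hk]
    rw [h5]
    exact hkey i j hij c _
  intro g hg
  have hg' : P⁻¹ * g * P ∈ specialLinear ι F := by
    rw [Cfsg.Agent.H95.mem_specialLinear_iff] at hg ⊢
    rw [Units.val_mul, Units.val_mul, Matrix.det_mul, Matrix.det_mul, hg, mul_one,
      ← Matrix.det_mul, ← Units.val_mul, inv_mul_cancel, Units.val_one, Matrix.det_one]
  have hdet := (Cfsg.Agent.H95.mem_specialLinear_iff _).mp hg'
  have hmem : (⟨((P⁻¹ * g * P : GL ι F) : Matrix ι ι F), hdet⟩ : Matrix.SpecialLinearGroup ι F) ∈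
      (M.comap (MulAut.conj P).toMonoidHom).comap Matrix.SpecialLinearGroup.toGL := by
    apply hle
    rw [H45.elemSubgroup_eq_top]
    trivial
  have h2 : Matrix.SpecialLinearGroup.toGL (⟨((P⁻¹ * g * P : GL ι F) : Matrix ι ι F), hdet⟩ :
      Matrix.SpecialLinearGroup ι F) = P⁻¹ * g * P := Units.ext rfl
  have h3 : P * (P⁻¹ * g * P) * P⁻¹ ∈ M := by
    have h6 : P * Matrix.SpecialLinearGroup.toGL (⟨((P⁻¹ * g * P : GL ι F) : Matrix ι ι F), hdet⟩ :
        Matrix.SpecialLinearGroup ι F) * P⁻¹ ∈ M := hmem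
    rw [h2] at h6
    exact h6
  have h4 : P * (P⁻¹ * g * P) * P⁻¹ = g := by group
  rw [h4] at h3
  exact h3

end Cfsg.Agent.H27.Mn
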