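import Mathlib

/-!
# helper27: S5634-TS (`two_support`) for helper17
-/

set_option autoImplicit false

namespace Cfsg.Agent.H27.Mn

open scoped Matrix

variable {ι : Type} [Fintype ι] [DecidableEq ι] {F : Type*} [Field F]

/-- **S5634-TS** -/
theorem two_support (g γ : Matrix ι ι F) (hgγ : g * γ = 1) (k k' : ι) (hkk' : k ≠ k') (a : F)
    (ha0 : a ≠ 0) (ha2 : a ^ 2 ≠ 1) (ha3 : a ^ 3 ≠ 1) (π : Equiv.Perm ι)
    (hπ : ∀ i l, i ≠ π l → (g * Matrix.diagonal (fun i => if i = k then a else if i = k' then a⁻¹ else 1) * γ) i l = 0)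
    (hγ : ∀ j i, ∃ i', i' ≠ i ∧ γ i' j ≠ 0)
    (hL : Nat.card {l : ι // γ k l ≠ 0 ∨ γ k' l ≠ 0} ≤ 4) :
    ∃ r s : ι, r ≠ s ∧ ∀ i, i ≠ r → i ≠ s → g i k = 0 ∧ g i k' = 0 := by
  classical
  have hγg : γ * g = 1 := mul_eq_one_comm.mp hgγ
  obtain ⟨dd, hdd⟩ : ∃ dd : ι → F,
      dd = fun i => if i = k then a else if i = k' then a⁻¹ else 1 := ⟨_, rfl⟩
  rw [← hdd] at hπ
  have hddk : dd k = a := by rw [hdd]; simp
  have hddk' : dd k' = a⁻¹ := by rw [hdd]; simp [hkk'.symm]
  have hddo : ∀ i, i ≠ k → i ≠ k' → dd i = 1 := by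
    intro i h1 h2; rw [hdd]; simp [h1, h2]
  have ha1 : a ≠ 1 := by rintro rfl; exact ha2 (one_pow 2)
  have hai1 : a⁻¹ ≠ 1 := by intro h; exact ha1 (inv_eq_one.1 h)
  have haa : a * a⁻¹ = 1 := mul_inv_cancel₀ ha0
  obtain ⟨x, hx⟩ : ∃ x, x = g * Matrix.diagonal dd * γ := ⟨_, rfl⟩
  rw [← hx] at hπ
  have hx1 : x - 1 = g * (Matrix.diagonal dd - 1) * γ := by
    rw [hx, Matrix.mul_sub, Matrix.sub_mul, mul_one, hgγ]
  have hγx : γ * (x - 1) = (Matrix.diagonal dd - 1) * γ := by
    rw [hx1, ← mul_assoc, ← mul_assoc, hγg, one_mul]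
  have hxg : (x - 1) * g = g * (Matrix.diagonal dd - 1) := by
    rw [hx1, mul_assoc, hγg, mul_one]
  have hDγ : ∀ j l, ((Matrix.diagonal dd - 1) * γ) j l = (dd j - 1) * γ j l := by
    intro j l
    rw [Matrix.sub_mul, one_mul, Matrix.sub_apply, Matrix.diagonal_mul]; ring
  have hgD : ∀ i j, (g * (Matrix.diagonal dd - 1)) i j = g i j * (dd j - 1) := by
    intro i j
    rw [Matrix.mul_sub, mul_one, Matrix.sub_apply, Matrix.mul_diagonal]; ring
  -- the set `L`
  obtain ⟨L, hLdef⟩ : ∃ L : Finset ι,
      L = Finset.univ.filter (fun l => γ k l ≠ 0 ∨ γ k' l ≠ 0) := ⟨_, rfl⟩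
  have hmemL : ∀ l, l ∈ L ↔ (γ k l ≠ 0 ∨ γ k' l ≠ 0) := by intro l; rw [hLdef]; simp
  have hnotL : ∀ l, l ∉ L → γ k l = 0 ∧ γ k' l = 0 := by
    intro l hl
    rw [hmemL] at hl
    push Not at hl
    exact hl
  have hcard : L.card ≤ 4 := by rw [← Nat.subtype_card L hmemL]; exact hL
  -- columns outside `L`
  have hA : ∀ l, l ∉ L → ∀ i, (x - 1) i l = 0 := by
    intro l hl i
    obtain ⟨h1, h2⟩ := hnotL l hl
    rw [hx1, mul_assoc, Matrix.mul_apply]
    refine Finset.sum_eq_zero fun j _ => ?_
    rw [hDγ]
    by_cases hj : j = k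
    · rw [hj, h1, mul_zero, mul_zero]
    · by_cases hj' : j = k'
      · rw [hj', h2, mul_zero, mul_zero]
      · rw [hddo j hj hj', sub_self, zero_mul, mul_zero]
  -- `π` moves the points of `L`
  have hB : ∀ l, l ∈ L → π l ≠ l := by
    intro l hl hπl
    have hcol : ∀ j, j ≠ l → (x - 1) j l = 0 := by
      intro j hj
      rw [Matrix.sub_apply, hπ j l (by rw [hπl]; exact hj), Matrix.one_apply_ne hj, sub_zero]
    have heq : ∀ i, γ i l * (x - 1) l l = (dd i - 1) * γ i l := by
      intro i
      rw [← hDγ, ← hγx, Matrix.mul_apply]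
      symm
      apply Finset.sum_eq_single l
      · intro j _ hj; rw [hcol j hj, mul_zero]
      · intro h; exact absurd (Finset.mem_univ l) h
    have hk := heq k
    have hk' := heq k'
    rw [hddk] at hk
    rw [hddk'] at hk'
    by_cases h1 : γ k l = 0
    · by_cases h2 : γ k' l = 0
      · exact ((hmemL l).1 hl).elim (fun h => h h1) (fun h => h h2)
      · have hc : (x - 1) l l = a⁻¹ - 1 := by
          have h3 := hk'
          rw [mul_comm] at h3
          exact mul_right_cancel₀ h2 h3
        obtain ⟨i', hi', hγi'⟩ := hγ l k'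
        apply hγi'
        by_cases hik : i' = k
        · rw [hik]; exact h1
        · have h3 := heq i'
          rw [hddo i' hik hi', sub_self, zero_mul, hc] at h3
          rcases mul_eq_zero.1 h3 with h | h
          · exact h
          · exact absurd (sub_eq_zero.1 h) hai1
    · by_cases h2 : γ k' l = 0
      · have hc : (x - 1) l l = a - 1 := by
          have h3 := hk
          rw [mul_comm] at h3
          exact mul_right_cancel₀ h1 h3
        obtain ⟨i', hi', hγi'⟩ := hγ l k
        apply hγi'
        by_cases hik : i' = k'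
        · rw [hik]; exact h2
        · have h3 := heq i'
          rw [hddo i' hi' hik, sub_self, zero_mul, hc] at h3
          rcases mul_eq_zero.1 h3 with h | h
          · exact h
          · exact absurd (sub_eq_zero.1 h) ha1
      · have hc : (x - 1) l l = a - 1 := by
          have h3 := hk
          rw [mul_comm] at h3
          exact mul_right_cancel₀ h1 h3
        have hc' : (x - 1) l l = a⁻¹ - 1 := by
          have h3 := hk'
          rw [mul_comm] at h3
          exact mul_right_cancel₀ h2 h3
        have h4 : a = a⁻¹ := by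
          have h5 := hc.symm.trans hc'
          linear_combination h5
        exact ha2 ((pow_two a).trans ((congrArg (fun t => a * t) h4).trans haa))
  -- the trace equation
  have htr : a + a⁻¹ + (L.card : F) = 2 := by
    have h1 : Matrix.trace x = Matrix.trace (Matrix.diagonal dd) := by
      rw [hx, Matrix.trace_mul_comm, ← mul_assoc, hγg, one_mul]
    have h2 : Matrix.trace x = (Fintype.card ι : F) - (L.card : F) := by
      have h3 : ∀ l, x l l = 1 - (if l ∈ L then (1 : F) else 0) := by
        intro l
        by_cases hl : l ∈ L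
        · rw [if_pos hl, sub_self]; exact hπ l l (Ne.symm (hB l hl))
        · rw [if_neg hl, sub_zero]
          have h4 := hA l hl l
          rw [Matrix.sub_apply, Matrix.one_apply_eq] at h4
          exact sub_eq_zero.1 h4
      simp only [Matrix.trace, Matrix.diag_apply]
      rw [Finset.sum_congr rfl (fun l _ => h3 l), Finset.sum_sub_distrib, Finset.sum_boole]
      simp
    have h3 : Matrix.trace (Matrix.diagonal dd) =
        (Fintype.card ι : F) + (a - 1) + (a⁻¹ - 1) := by
      rw [Matrix.trace_diagonal]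
      have h4 : ∀ i, dd i = 1 + (if i = k then a - 1 else 0) + (if i = k' then a⁻¹ - 1 else 0) := by
        intro i
        by_cases hik : i = k
        · subst hik; rw [hddk, if_pos rfl, if_neg hkk']; ring
        · by_cases hik' : i = k'
          · subst hik'; rw [hddk', if_neg hik, if_pos rfl]; ring
          · rw [hddo i hik hik', if_neg hik, if_neg hik']; ring
      rw [Finset.sum_congr rfl (fun i _ => h4 i), Finset.sum_add_distrib, Finset.sum_add_distrib,
        Finset.sum_ite_eq', Finset.sum_ite_eq']
      simp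
    rw [h2, h3] at h1
    linear_combination -h1
  have hmul : a ^ 2 + 1 + (L.card : F) * a = 2 * a := by linear_combination a * htr - haa
  -- rows `k`, `k'` of `γ` are not supported on a single column
  have hrow : ∀ l₀, (∀ j, j ≠ l₀ → γ k j = 0 ∧ γ k' j = 0) → False := by
    intro l₀ h
    have e1 : ∀ p q, (γ * g) p q = ∑ j, γ p j * g j q := fun p q => Matrix.mul_apply
    have h1 : γ k l₀ * g l₀ k = 1 := by
      have h6 := e1 k k
      rw [hγg, Matrix.one_apply_eq, Finset.sum_eq_single l₀
        (fun j _ hj => by rw [(h j hj).1, zero_mul])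
        (fun hh => absurd (Finset.mem_univ _) hh)] at h6
      exact h6.symm
    have h2 : γ k' l₀ * g l₀ k = 0 := by
      have h6 := e1 k' k
      rw [hγg, Matrix.one_apply_ne hkk'.symm, Finset.sum_eq_single l₀
        (fun j _ hj => by rw [(h j hj).2, zero_mul])
        (fun hh => absurd (Finset.mem_univ _) hh)] at h6
      exact h6.symm
    have h3 : γ k' l₀ * g l₀ k' = 1 := by
      have h6 := e1 k' k'
      rw [hγg, Matrix.one_apply_eq, Finset.sum_eq_single l₀
        (fun j _ hj => by rw [(h j hj).2, zero_mul])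
        (fun hh => absurd (Finset.mem_univ _) hh)] at h6
      exact h6.symm
    have h4 : g l₀ k ≠ 0 := by
      intro h0; rw [h0, mul_zero] at h1; exact zero_ne_one h1
    have h5 : γ k' l₀ = 0 := by
      rcases mul_eq_zero.1 h2 with h | h
      · exact h
      · exact absurd h h4
    rw [h5, zero_mul] at h3
    exact zero_ne_one h3
  obtain h | h | h | h | h :
      L.card = 0 ∨ L.card = 1 ∨ L.card = 2 ∨ L.card = 3 ∨ L.card = 4 := by omega
  · exfalso
    apply hrow k
    intro j _
    apply hnotL
    rw [Finset.card_eq_zero.1 h]; exact Finset.notMem_empty j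
  · exfalso
    obtain ⟨l₀, hl₀⟩ := Finset.card_eq_one.1 h
    apply hrow l₀
    intro j hj
    apply hnotL
    rw [hl₀, Finset.mem_singleton]; exact hj
  · obtain ⟨r, s, hrs, hLrs⟩ := Finset.card_eq_two.1 h
    refine ⟨r, s, hrs, ?_⟩
    intro i hir his
    have hiL : i ∉ L := by rw [hLrs]; simp [hir, his]
    have hrowi : ∀ l, (x - 1) i l = 0 := by
      intro l
      by_cases hl : l ∈ L
      · have hil : i ≠ l := by rintro rfl; exact hiL hl
        rw [Matrix.sub_apply, Matrix.one_apply_ne hil, sub_zero]
        by_cases hiπ : i = π l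
        · exfalso
          have h1 : x i i = 1 := by
            have h4 := hA i hiL i
            rw [Matrix.sub_apply, Matrix.one_apply_eq] at h4
            exact sub_eq_zero.1 h4
          have h2 : i = π i := by
            by_contra hne
            rw [hπ i i hne] at h1
            exact zero_ne_one h1
          exact hil (π.injective (h2.symm.trans hiπ))
        · exact hπ i l hiπ
      · exact hA l hl i
    have hz : ∀ q, ((x - 1) * g) i q = 0 := by
      intro q
      rw [Matrix.mul_apply]
      exact Finset.sum_eq_zero fun j _ => by rw [hrowi j, zero_mul]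
    refine ⟨?_, ?_⟩
    · have h4 := hz k
      rw [hxg, hgD, hddk] at h4
      rcases mul_eq_zero.1 h4 with h | h
      · exact h
      · exact absurd (sub_eq_zero.1 h) ha1
    · have h4 := hz k'
      rw [hxg, hgD, hddk'] at h4
      rcases mul_eq_zero.1 h4 with h | h
      · exact h
      · exact absurd (sub_eq_zero.1 h) hai1
  · exfalso
    rw [h] at hmul
    push_cast at hmul
    apply ha3
    linear_combination (a - 1) * hmul
  · exfalso
    rw [h] at hmul
    push_cast at hmul
    have h5 : (a + 1) ^ 2 = 0 := by linear_combination hmul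
    have h6 : a + 1 = 0 := by simpa using h5
    have h7 : a = -1 := by linear_combination h6
    apply ha2
    rw [h7]; ring

end Cfsg.Agent.H27.Mn
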