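import Mathlib

/-!
# helper27: S2946 piece FIXPT (`exists_fixed`) for helper52
-/

set_option autoImplicit false

namespace Cfsg.Agent.H27.Jc

open scoped commutatorElement

variable {G : Type*} [Group G] [Finite G]

/-- **S2946-FIXPT**: a 2-group acting by conjugation on a four-group has a nontrivial
fixed point. -/
theorem exists_fixed {W J : Subgroup G} (hJ2 : IsPGroup 2 ↥J) (hW : Nat.card ↥W = 4)
    (hn : ∀ j ∈ J, ∀ w ∈ W, j * w * j⁻¹ ∈ W) : ∃ u ∈ W, u ≠ 1 ∧ ∀ j ∈ J, j * u = u * j := by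
  let _ : MulAction ↥J ↥W :=
    { smul := fun j w => ⟨(j : G) * (w : G) * (j : G)⁻¹, hn j j.2 w w.2⟩
      one_smul := fun w => Subtype.ext (by
        show ((1 : ↥J) : G) * (w : G) * ((1 : ↥J) : G)⁻¹ = (w : G)
        simp)
      mul_smul := fun a b w => Subtype.ext (by
        show ((a * b : ↥J) : G) * (w : G) * ((a * b : ↥J) : G)⁻¹
          = (a : G) * ((b : G) * (w : G) * (b : G)⁻¹) * (a : G)⁻¹
        simp [mul_assoc]) }
  have : Fact (Nat.Prime 2) := ⟨Nat.prime_two⟩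
  have h1 : (1 : ↥W) ∈ MulAction.fixedPoints ↥J ↥W := fun j => Subtype.ext (by
    show (j : G) * ((1 : ↥W) : G) * (j : G)⁻¹ = ((1 : ↥W) : G)
    simp)
  have hdvd : 2 ∣ Nat.card ↥W := by rw [hW]; norm_num
  obtain ⟨b, hb, hne⟩ := hJ2.exists_fixed_point_of_prime_dvd_card_of_fixed_point ↥W hdvd h1
  refine ⟨b, b.2, fun h => hne (Subtype.ext h.symm), fun j hj => ?_⟩
  have h2 := congrArg Subtype.val (hb ⟨j, hj⟩)
  have h3 : j * (b : G) * j⁻¹ = b := h2
  calc j * (b : G) = j * b * j⁻¹ * j := by group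
    _ = b * j := by rw [h3]

end Cfsg.Agent.H27.Jc
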