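import Mathlib

/-!
# helper27: S2946 piece INDEX (`relIndex_cent`) for helper52
-/

set_option autoImplicit false

namespace Cfsg.Agent.H27.Jc

open scoped commutatorElement

variable {G : Type*} [Group G] [Finite G]

/-- **S2946-INDEX** -/
theorem relIndex_cent {K J Q : Subgroup G} (hQK : Q ≤ K)
    (hnK : J ≤ Subgroup.normalizer (K : Set G))
    (hidx : Q.relIndex K = 3) {u : G} (hQu : ∀ q ∈ Q, q * u = u * q)
    (hu : ∀ k ∈ K, k * u = u * k → k ∈ Q) (hJu : ∀ j ∈ J, j * u = u * j) :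
    ((K ⊔ J) ⊓ Subgroup.centralizer ({u} : Set G)).relIndex (K ⊔ J) = 3 := by
  obtain ⟨S, hS⟩ : ∃ S : Subgroup G, S = (K ⊔ J) ⊓ Subgroup.centralizer ({u} : Set G) :=
    ⟨_, rfl⟩
  rw [← hS]
  have hJS : J ≤ S := fun j hj => by
    rw [hS]
    exact ⟨(le_sup_right : J ≤ K ⊔ J) hj, Subgroup.mem_centralizer_singleton_iff.2 (hJu j hj)⟩
  have hQS : Q ≤ S := fun q hq => by
    rw [hS]
    exact ⟨(le_sup_left : K ≤ K ⊔ J) (hQK hq),
      Subgroup.mem_centralizer_singleton_iff.2 (hQu q hq)⟩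
  have hSL : S ≤ K ⊔ J := by rw [hS]; exact inf_le_left
  have hKS : K ⊓ S = Q := by
    apply le_antisymm
    · rintro x ⟨hxK, hxS⟩
      rw [hS] at hxS
      exact hu x hxK (Subgroup.mem_centralizer_singleton_iff.1 hxS.2)
    · exact le_inf hQK hQS
  have hsup : S ⊔ K = K ⊔ J := by
    apply le_antisymm
    · exact sup_le hSL le_sup_left
    · exact sup_le le_sup_right (hJS.trans le_sup_left)
  have hSN : S ≤ Subgroup.normalizer (K : Set G) :=
    hSL.trans (sup_le Subgroup.le_normalizer hnK)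
  have h2 : K.relIndex S = K.relIndex (S ⊔ K) := by
    have i1 := Subgroup.normal_subgroupOf_of_le_normalizer hSN
    have i2 := Subgroup.normal_subgroupOf_sup_of_le_normalizer hSN
    exact Nat.card_congr (QuotientGroup.quotientInfEquivProdNormalizerQuotient S K hSN).toEquiv
  have h3 : K.relIndex S = Q.relIndex S := by rw [← hKS, Subgroup.inf_relIndex_right]
  have h4 : Q.relIndex K * K.relIndex (K ⊔ J) = Q.relIndex (K ⊔ J) :=
    Subgroup.relIndex_mul_relIndex _ _ _ hQK le_sup_left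
  have h5 : Q.relIndex S * S.relIndex (K ⊔ J) = Q.relIndex (K ⊔ J) :=
    Subgroup.relIndex_mul_relIndex _ _ _ hQS hSL
  rw [hsup] at h2
  have h6 : Q.relIndex S ≠ 0 := by
    show (Q.subgroupOf S).index ≠ 0
    exact Subgroup.index_ne_zero_of_finite
  rw [hidx, ← h2, h3] at h4
  have h7 : Q.relIndex S * S.relIndex (K ⊔ J) = Q.relIndex S * 3 := by
    rw [h5, ← h4]; ring
  exact Nat.eq_of_mul_eq_mul_left (Nat.pos_of_ne_zero h6) h7

end Cfsg.Agent.H27.Jc
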