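import Mathlib

/-!
# helper27: S2946 piece NOFIX (`not_le_cent`) for helper52
-/

set_option autoImplicit false

namespace Cfsg.Agent.H27.Jc

open scoped commutatorElement

variable {G : Type*} [Group G] [Finite G]

/-- **S2946-NOFIX** -/
theorem not_le_cent {K Y : Subgroup G}
    (hgen : Subgroup.closure {g : G | g ∈ K ∧ Odd (orderOf g)} = K)
    (hne : ⁅Y, K⁆ ≠ ⊥) (hexp : ∀ w ∈ ⁅Y, K⁆, w * w = 1) :
    ¬ K ≤ Subgroup.centralizer ((⁅Y, K⁆ : Subgroup G) : Set G) := by
  intro hle
  apply hne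
  rw [Subgroup.commutator_comm, Subgroup.commutator_eq_bot_iff_le_centralizer]
  have hsub : {g : G | g ∈ K ∧ Odd (orderOf g)} ⊆ (Subgroup.centralizer (Y : Set G) : Set G) := by
    rintro g ⟨hgK, hodd⟩
    refine Subgroup.mem_centralizer_iff.2 (fun y hy => ?_)
    obtain ⟨c, hc⟩ : ∃ c : G, c = y⁻¹ * g * y * g⁻¹ := ⟨_, rfl⟩
    have hcm : c ∈ ⁅Y, K⁆ := by
      have h1 : c = ⁅y⁻¹, g⁆ := by rw [commutatorElement_def, hc, inv_inv]
      rw [h1]
      exact Subgroup.commutator_mem_commutator (inv_mem hy) hgK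
    have hgc : g * c = c * g := ((Subgroup.mem_centralizer_iff.1 (hle hgK)) c hcm).symm
    have h3 : g * y = y * c * g := by rw [hc]; group
    have hconj : ∀ k : ℕ, g ^ k * y * (g ^ k)⁻¹ = y * c ^ k := by
      intro k
      induction k with
      | zero => simp
      | succ k ih =>
        have h1 : g ^ (k + 1) * y * (g ^ (k + 1))⁻¹ = g * (g ^ k * y * (g ^ k)⁻¹) * g⁻¹ := by
          rw [pow_succ']; group
        rw [h1, ih]
        have h2 : g * c ^ k = c ^ k * g := (Commute.pow_right (show Commute g c from hgc) k).eq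
        calc g * (y * c ^ k) * g⁻¹ = (g * y) * c ^ k * g⁻¹ := by group
          _ = y * c * g * c ^ k * g⁻¹ := by rw [h3]
          _ = y * c * (g * c ^ k) * g⁻¹ := by group
          _ = y * c * (c ^ k * g) * g⁻¹ := by rw [h2]
          _ = y * c ^ (k + 1) := by rw [pow_succ']; group
    have hn := hconj (orderOf g)
    rw [pow_orderOf_eq_one, inv_one, one_mul, mul_one] at hn
    have hn' : c ^ orderOf g = 1 := by
      have h4 : y * 1 = y * c ^ orderOf g := by rw [mul_one]; exact hn
      exact (mul_left_cancel h4).symm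
    obtain ⟨m, hm⟩ := hodd
    rw [hm, pow_succ, pow_mul, pow_two, hexp c hcm, one_pow, one_mul] at hn'
    rw [h3, hn', mul_one]
  have h5 := (Subgroup.closure_le _).2 hsub
  rw [hgen] at h5
  exact h5

end Cfsg.Agent.H27.Jc
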