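import Mathlib

/-!
# helper27: S2946 piece TWO (`cent_isPGroup`) for helper52
-/

set_option autoImplicit false

namespace Cfsg.Agent.H27.Jc

open scoped commutatorElement Pointwise

variable {G : Type*} [Group G] [Finite G]

/-- **S2946-TWO** -/
theorem cent_isPGroup {K J Q : Subgroup G} (hJ2 : IsPGroup 2 ↥J) (hQ2 : IsPGroup 2 ↥Q)
    (hnK : J ≤ Subgroup.normalizer (K : Set G)) {u : G} (hu : ∀ k ∈ K, k * u = u * k → k ∈ Q) :
    IsPGroup 2 ↥((K ⊔ J) ⊓ Subgroup.centralizer ({u} : Set G)) := by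
  rintro ⟨g, hgL, hgC⟩
  have hset : ((K ⊔ J : Subgroup G) : Set G) = (K : Set G) * (J : Set G) :=
    Subgroup.coe_mul_of_right_le_normalizer_left K J hnK
  have hg' : g ∈ ((K ⊔ J : Subgroup G) : Set G) := hgL
  rw [hset] at hg'
  obtain ⟨k, hk, j, hj, rfl⟩ := hg'
  have hpow : ∀ m : ℕ, ∃ k' ∈ K, (k * j) ^ m = k' * j ^ m := by
    intro m
    induction m with
    | zero => exact ⟨1, one_mem _, by simp⟩
    | succ m ih =>
      obtain ⟨k', hk', h⟩ := ih
      refine ⟨k' * (j ^ m * k * (j ^ m)⁻¹), mul_mem hk' ?_, ?_⟩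
      · exact (Subgroup.mem_normalizer_iff.1 (hnK (pow_mem hj m)) k).1 hk
      · rw [pow_succ, h, pow_succ]; group
  obtain ⟨n, hn⟩ := hJ2 ⟨j, hj⟩
  have hjn : j ^ 2 ^ n = 1 := by
    have := congrArg Subtype.val hn
    simpa using this
  obtain ⟨k', hk', h⟩ := hpow (2 ^ n)
  rw [hjn, mul_one] at h
  have hcomm : (k * j) * u = u * (k * j) := Subgroup.mem_centralizer_singleton_iff.1 hgC
  have hcomm' : k' * u = u * k' := by
    rw [← h]
    exact (Commute.pow_left (show Commute (k * j) u from hcomm) (2 ^ n)).eq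
  have hQ := hu k' hk' hcomm'
  obtain ⟨m, hm⟩ := hQ2 ⟨k', hQ⟩
  have hkm : k' ^ 2 ^ m = 1 := by
    have := congrArg Subtype.val hm
    simpa using this
  refine ⟨n + m, Subtype.ext ?_⟩
  show (k * j) ^ 2 ^ (n + m) = 1
  rw [pow_add, pow_mul, h, hkm]

end Cfsg.Agent.H27.Jc
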