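import Mathlib
import Cfsg.Agent.H42.UnDefs

/-!
# UN-ORD (helper42's team project S5954): `r ∣ q ^ k - (-1) ^ k` implies `cu q r ∣ k`
-/

set_option autoImplicit false

namespace Cfsg.Agent.H27.Un

open Cfsg.Agent.H42.Un

/-- **UN-ORD**. -/
theorem uOrd : StUOrd := by
  intro q r k hr hr2 hrq hk hdvd
  have hq0 : 0 < q := Nat.pos_of_ne_zero (by rintro rfl; exact hrq (dvd_zero r))
  obtain ⟨i, hi⟩ : ∃ i, i = orderOf (q : ZMod r) := ⟨_, rfl⟩
  have hcu : cu q r = if i % 4 = 0 then i else if i % 4 = 2 then i / 2 else 2 * i := by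
    rw [hi]; rfl
  rw [hcu]
  by_cases hke : Even k
  · rw [if_pos hke] at hdvd
    have h1 : (q : ZMod r) ^ k = 1 := by
      have h2 : ((q ^ k - 1 : ℕ) : ZMod r) = 0 := (ZMod.natCast_eq_zero_iff _ _).mpr hdvd
      rw [Nat.cast_sub (Nat.one_le_pow _ _ hq0), Nat.cast_pow, Nat.cast_one, sub_eq_zero] at h2
      exact h2
    have hik : i ∣ k := by rw [hi]; exact orderOf_dvd_of_pow_eq_one h1
    obtain ⟨t, rfl⟩ := hik
    split_ifs with h4 h42
    · exact Dvd.intro _ rfl
    · exact Dvd.dvd.mul_right (Nat.div_dvd_of_dvd (by omega)) t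
    · have hteven : Even t := by
        rcases Nat.even_mul.mp hke with h | h
        · exfalso; rcases h with ⟨s, hs⟩; omega
        · exact h
      obtain ⟨s, rfl⟩ := hteven
      exact ⟨s, by ring⟩
  · rw [if_neg hke] at hdvd
    have hkodd : Odd k := Nat.not_even_iff_odd.mp hke
    have h1 : (q : ZMod r) ^ k = -1 := by
      have h2 : ((q ^ k + 1 : ℕ) : ZMod r) = 0 := (ZMod.natCast_eq_zero_iff _ _).mpr hdvd
      rw [Nat.cast_add, Nat.cast_pow, Nat.cast_one] at h2
      exact eq_neg_of_add_eq_zero_left h2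
    have hi2k : i ∣ 2 * k := by
      rw [hi]; apply orderOf_dvd_of_pow_eq_one
      rw [mul_comm, pow_mul, h1, neg_one_sq]
    have hnik : ¬ i ∣ k := by
      intro h
      rw [hi] at h
      have h3 := orderOf_dvd_iff_pow_eq_one.mp h
      rw [h1] at h3
      have h4 : ((2 : ℕ) : ZMod r) = 0 := by
        have h5 : (1 : ZMod r) + 1 = 0 := by
          nth_rewrite 1 [← h3]; exact neg_add_cancel 1
        rw [Nat.cast_ofNat, ← one_add_one_eq_two]; exact h5
      have h6 := (ZMod.natCast_eq_zero_iff _ _).mp h4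
      exact hr2 ((Nat.prime_dvd_prime_iff_eq hr Nat.prime_two).mp h6)
    have hieven : Even i := by
      by_contra hodd
      have hodd' : Odd i := Nat.not_even_iff_odd.mp hodd
      exact hnik (Nat.Coprime.dvd_of_dvd_mul_left (Nat.coprime_two_right.mpr hodd') hi2k)
    obtain ⟨j, hj⟩ := hieven
    have hjk : j ∣ k := by
      have h7 : 2 * j ∣ 2 * k := by rw [two_mul j, ← hj]; exact hi2k
      exact Nat.dvd_of_mul_dvd_mul_left (by norm_num) h7
    have hjodd : Odd j := Odd.of_dvd_nat hkodd hjk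
    obtain ⟨s, hs⟩ := hjodd
    have h8 : i / 2 = j := by omega
    split_ifs with h4 h42
    · omega
    · rw [h8]; exact hjk
    · omega

example : Cfsg.Agent.H42.Un.StUOrd := uOrd

end Cfsg.Agent.H27.Un
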