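import Mathlib
import Cfsg.Agent.H42.UnDefs
import Cfsg.Agent.H27.UnCompl

/-!
# UN-SUM (helper42's team project S5954)

The orthogonal sum of two invariant nondegenerate subspaces, for `UIso B T`.
Port of helper75's `Cfsg.Agent.H75.Spn.isoSum` to hermitian forms.
-/

set_option autoImplicit false

namespace Cfsg.Agent.H27.Un

open Cfsg.Agent.H45 Cfsg.Agent.H42.Spd Cfsg.Agent.H42.Un Module

universe u v

/-- **UN-SUM**. -/
theorem uSum : StUSum.{u, v} := by
  intro F _ _ σ V _ _ _ B T hd U U' hU hU' hperp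
  obtain ⟨hUinv, hUnd⟩ := hU
  obtain ⟨hU'inv, hU'nd⟩ := hU'
  have hdisj : U ⊓ U' = ⊥ := by
    apply le_antisymm _ bot_le
    rw [← hUnd]
    exact inf_le_inf_left U hperp
  have hperp' : U ≤ perp B U' := by
    intro u hu u' hu'
    exact uiso_refl hd (hperp hu' u hu)
  refine ⟨⟨?_, ?_⟩, ?_⟩
  · rw [Module.End.mem_invtSubmodule] at hUinv hU'inv ⊢
    apply sup_le
    · exact hUinv.trans (Submodule.comap_mono le_sup_left)
    · exact hU'inv.trans (Submodule.comap_mono le_sup_right)
  · apply le_antisymm _ bot_le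
    rintro v ⟨hv, hvp⟩
    obtain ⟨u, hu, u', hu', rfl⟩ := Submodule.mem_sup.mp hv
    have h1 : u ∈ U ⊓ perp B U := by
      refine ⟨hu, fun w hw => ?_⟩
      have h2 := hvp w (Submodule.mem_sup_left hw)
      rw [map_add, hperp hu' w hw, add_zero] at h2
      exact h2
    have h2 : u' ∈ U' ⊓ perp B U' := by
      refine ⟨hu', fun w hw => ?_⟩
      have h3 := hvp w (Submodule.mem_sup_right hw)
      rw [map_add, hperp' hu w hw, zero_add] at h3
      exact h3
    rw [hUnd, Submodule.mem_bot] at h1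
    rw [hU'nd, Submodule.mem_bot] at h2
    rw [Submodule.mem_bot, h1, h2, add_zero]
  · have h := Submodule.finrank_sup_add_finrank_inf_eq U U'
    rw [hdisj, finrank_bot, add_zero] at h
    exact h

example : Cfsg.Agent.H42.Un.StUSum.{u, v} := uSum

end Cfsg.Agent.H27.Un
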