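import Mathlib
import Cfsg.Agent.H83.AbIdxDefs
import Cfsg.Agent.H82.IndDeg

/-!
# S4463-RES (helper83's team project S4463): `res : StmtRes`
-/

set_option autoImplicit false

namespace Cfsg.Agent.H27.AbIdx

open Cfsg Cfsg.Agent.H83.AbIdx
open scoped ComplexConjugate

universe u

/-- S4463-RES: every irreducible character of a subgroup lies under one of the group. -/
theorem res : StmtRes.{u} := by
  intro G _ _ H ψ
  classical
  haveI : Fintype G := Fintype.ofFinite G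
  haveI : Fintype H := Fintype.ofFinite H
  have hΦ : IsCharacter G (indFun H ψ.1) :=
    Cfsg.Agent.H4.isCharacter_indFun H ψ.1 (Cfsg.Agent.H4.isCharacter_of_isIrrCharacter ψ.2)
  have hΦ1 : indFun H ψ.1 1 ≠ 0 := by
    rw [Cfsg.Agent.H82.indFun_one]
    refine mul_ne_zero ?_ (Cfsg.Agent.H82.irr_one_ne_zero ψ)
    exact_mod_cast (Subgroup.index_ne_zero_of_finite (H := H))
  have hex : ∃ χ : IrrCharacter G, classInner (indFun H ψ.1) χ.1 ≠ 0 := by
    by_contra hne
    push Not at hne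
    have h0 := Cfsg.Agent.H4.eq_zero_of_inner_irr_eq_zero
      (Cfsg.Agent.H4.isClassFunction_of_isCharacter hΦ) hne
    exact hΦ1 (by rw [h0]; rfl)
  obtain ⟨χ, hχ⟩ := hex
  rw [Cfsg.Agent.H4.frobenius_reciprocity H ψ.1 χ.1 (Cfsg.Agent.H4.irr_isClassFunction χ)] at hχ
  have hχ' : classInner (fun h : H => χ.1 h) ψ.1 ≠ 0 := by
    rw [← Cfsg.Agent.H4.classInner_conj_symm]
    exact (map_ne_zero (starRingEnd ℂ)).mpr hχ
  obtain ⟨r, hr, -⟩ := Cfsg.Agent.H82.constituent_degree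
    (Cfsg.Agent.H4.isCharacter_restrict H (Cfsg.Agent.H4.isCharacter_of_isIrrCharacter χ.2)) ψ hχ'
  refine ⟨χ, ?_⟩
  have h1 : χ.1 1 = ψ.1 1 + r := hr
  rw [Cfsg.Agent.H82.irr_one_eq_charDegree χ, Cfsg.Agent.H82.irr_one_eq_charDegree ψ] at h1
  have h2 : charDegree χ.1 = charDegree ψ.1 + r := by exact_mod_cast h1
  omega

end Cfsg.Agent.H27.AbIdx
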