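import Mathlib
import Cfsg.Agent.H83.AbIdxDefs
import Cfsg.Agent.H82.Irr

/-!
# S4463-SOLV4 (helper83's team project S4463): `solv4`
-/

set_option autoImplicit false

namespace Cfsg.Agent.H27.AbIdx

open Cfsg Cfsg.Agent.H83.AbIdx

universe u

theorem solv4_aux (h : StmtSimple4.{u}) (hr : StmtRes.{u}) :
    ∀ (n : ℕ) (X : Type u) [Group X] [Finite X], Nat.card X = n →
      (∀ χ : IrrCharacter X, charDegree χ.1 ≤ 4) → Group.IsSolvable X := by
  intro n
  induction n using Nat.strong_induction_on with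
  | _ n ih =>
  intro X _ _ hn hX
  classical
  rcases subsingleton_or_nontrivial X with hsub | hnt
  · infer_instance
  by_cases hN : ∃ N : Subgroup X, N.Normal ∧ N ≠ ⊥ ∧ N ≠ ⊤
  · obtain ⟨N, hNn, hNbot, hNtop⟩ := hN
    have hNs : Group.IsSolvable ↥N := by
      refine ih (Nat.card ↥N) ?_ ↥N rfl ?_
      · rw [← hn, ← Subgroup.card_mul_index N]
        have h1 : N.index ≠ 1 := fun h => hNtop (Subgroup.index_eq_one.mp h)
        have h0 : N.index ≠ 0 := Subgroup.index_ne_zero_of_finite
        exact lt_mul_of_one_lt_right Nat.card_pos (by omega)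
      · intro ψ
        obtain ⟨χ, hχ⟩ := hr X N ψ
        exact hχ.trans (hX χ)
    have hQs : Group.IsSolvable (X ⧸ N) := by
      refine ih (Nat.card (X ⧸ N)) ?_ (X ⧸ N) rfl ?_
      · rw [← hn, ← Subgroup.card_mul_index N]
        have h1 : 1 < Nat.card ↥N := (Subgroup.one_lt_card_iff_ne_bot N).mpr hNbot
        have h0 : N.index ≠ 0 := Subgroup.index_ne_zero_of_finite
        exact lt_mul_of_one_lt_left (Nat.pos_of_ne_zero h0) h1
      · intro χ
        rw [← Cfsg.Agent.H82.charDegree_inflate N χ]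
        exact hX _
    exact Group.isSolvable_of_ker_le_range N.subtype (QuotientGroup.mk' N) (by simp)
  · have hsimple : IsSimpleGroup X :=
      { exists_pair_ne := hnt.exists_pair_ne
        eq_bot_or_eq_top_of_normal := fun N hNn => by
          by_contra hc
          push Not at hc
          exact hN ⟨N, hNn, hc.1, hc.2⟩ }
    exact Group.isSolvable_of_comm (h X hX)

/-- S4463-SOLV4. -/
theorem solv4 (h : StmtSimple4.{u}) (hr : StmtRes.{u}) : StmtSolv4.{u} :=
  fun X _ _ hX => solv4_aux h hr _ X rfl hX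

end Cfsg.Agent.H27.AbIdx
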