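import Mathlib
import Cfsg.Agent.H58.BG10Defs2
import Cfsg.Agent.S1448

/-!
# helper27: BG10 piece K (`bg107r : St1411 G → St1412 G`) for helper58
-/

set_option autoImplicit false

namespace Cfsg.Agent.H27.BG10

open Cfsg Subgroup Cfsg.Agent.H58.BG10
open scoped commutatorElement

universe u

/-- in a nonabelian group of order `p³` the commutator subgroup is the centre -/
theorem comm_eq_center_of_card_cube {T : Type*} [Group T] {p : ℕ} [Fact p.Prime]
    (hcard : Nat.card T = p ^ 3) (hnc : ¬ IsMulCommutative T) : commutator T = center T := by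
  have hp : p.Prime := Fact.out
  have hfin : Finite T := Nat.finite_of_card_ne_zero (hcard ▸ pow_ne_zero 3 hp.ne_zero)
  obtain ⟨k, hk0, hk⟩ := IsPGroup.card_center_eq_prime_pow hcard (by norm_num : 0 < 3)
  have hmul := Subgroup.card_eq_card_quotient_mul_card_subgroup (center T)
  rw [hcard, hk] at hmul
  have hk3 : k ≤ 3 := by
    have h1 : p ^ k ∣ p ^ 3 := Dvd.intro_left _ hmul.symm
    exact (Nat.pow_dvd_pow_iff_le_right hp.one_lt).1 h1
  have hcomm_ne : commutator T ≠ ⊥ := by
    intro h
    apply hnc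
    refine ⟨⟨fun a b => ?_⟩⟩
    have h1 : ⁅a, b⁆ ∈ commutator T := Subgroup.commutator_mem_commutator
      (Subgroup.mem_top a) (Subgroup.mem_top b)
    rw [h, Subgroup.mem_bot, commutatorElement_eq_one_iff_mul_comm] at h1
    exact h1
  have hk1 : k = 1 := by
    obtain h | h | h : k = 1 ∨ k = 2 ∨ k = 3 := by omega
    · exact h
    · exfalso
      rw [h] at hmul
      have h1 : Nat.card (T ⧸ center T) = p := by
        have h2 : p * p ^ 2 = Nat.card (T ⧸ center T) * p ^ 2 := by rw [← hmul]; ring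
        exact (Nat.eq_of_mul_eq_mul_right (pow_pos hp.pos 2) h2).symm
      have h3 : IsCyclic (T ⧸ center T) := isCyclic_of_prime_card h1
      exact hnc (isMulCommutative_of_isCyclic_quotient_center_self T)
    · exfalso
      rw [h] at hk
      have h1 : center T = ⊤ := (Subgroup.card_eq_iff_eq_top _).1 (hk.trans hcard.symm)
      apply hnc
      refine ⟨⟨fun a b => ?_⟩⟩
      have h2 : b ∈ center T := by rw [h1]; trivial
      exact Subgroup.mem_center_iff.1 h2 a
  rw [hk1, pow_one] at hk hmul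
  have hq : Nat.card (T ⧸ center T) = p ^ 2 := by
    have h2 : p ^ 2 * p = Nat.card (T ⧸ center T) * p := by rw [← hmul]; ring
    exact (Nat.eq_of_mul_eq_mul_right hp.pos h2).symm
  have hqc : IsMulCommutative (T ⧸ center T) := IsPGroup.isMulCommutative_of_card_eq_prime_sq hq
  have hle : commutator T ≤ center T := by
    rw [_root_.commutator_def, Subgroup.commutator_le]
    intro a _ b _
    have h1 : (QuotientGroup.mk' (center T)) ⁅a, b⁆ = 1 := by
      rw [map_commutatorElement, commutatorElement_eq_one_iff_mul_comm]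
      exact hqc.is_comm.comm _ _
    exact (QuotientGroup.eq_one_iff _).1 h1
  apply Subgroup.eq_of_le_of_card_ge hle
  rw [hk]
  have h1 : Nat.card (commutator T) ∣ p := hk ▸ Subgroup.card_dvd_of_le hle
  rcases (Nat.dvd_prime hp).1 h1 with h | h
  · exact absurd (Subgroup.card_eq_one.1 h) hcomm_ne
  · exact h.ge

variable {G : Type u} [Group G]

/-- for a nonabelian subgroup `R` of order `p³`: `⁅R, R⁆ = Z(R)` -/
theorem comm_eq_inf_centralizer {p : ℕ} [Fact p.Prime] (R : Subgroup G)
    (hnc : ¬ IsMulCommutative R) (hcard : Nat.card R = p ^ 3) :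
    ⁅R, R⁆ = R ⊓ centralizer (R : Set G) := by
  have hZ := comm_eq_center_of_card_cube hcard hnc
  have h1 : (commutator ↥R).map R.subtype = ⁅R, R⁆ := by
    rw [_root_.commutator_def, Subgroup.map_commutator, ← MonoidHom.range_eq_map,
      Subgroup.range_subtype]
  rw [← h1, hZ]
  apply le_antisymm
  · rintro _ ⟨y, hy, rfl⟩
    refine ⟨y.2, ?_⟩
    exact Subgroup.mem_centralizer_iff.2
      (fun r hr => congrArg Subtype.val (Subgroup.mem_center_iff.1 hy ⟨r, hr⟩))
  · rintro x ⟨hxR, hxC⟩
    have hxC' : x ∈ centralizer (R : Set G) := hxC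
    refine ⟨⟨x, hxR⟩, ?_, rfl⟩
    exact Subgroup.mem_center_iff.2
      (fun r => Subtype.ext ((Subgroup.mem_centralizer_iff.1 hxC') r r.2))

/-- **BG10 piece K** -/
theorem bg107r [Finite G] (hG : IsMinSimpleOddOrder G) (h107b : St1411 G) : St1412 G := by
  intro p _ P hr
  have hp : p.Prime := Fact.out
  by_cases hP1 : (P : Subgroup G) = ⊥
  · left
    have h1 : ∀ a : ↥(P : Subgroup G), a = 1 := fun a => Subtype.ext (by
      have h2 : (a : G) ∈ (P : Subgroup G) := a.2
      have h3 : (a : G) ∈ (⊥ : Subgroup G) := by rw [← hP1]; exact h2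
      exact Subgroup.mem_bot.1 h3)
    exact ⟨⟨fun a b => by rw [h1 a, h1 b]⟩⟩
  · obtain ⟨N, hN⟩ : ∃ N : Subgroup G, N = normalizer ((P : Subgroup G) : Set G) := ⟨_, rfl⟩
    have hPN : (P : Subgroup G) ≤ N := by rw [hN]; exact le_normalizer
    have hnormal : ((P : Subgroup G).subgroupOf N).Normal := by
      rw [hN]; infer_instance
    have hnd : ¬ p ∣ ((P : Subgroup G).subgroupOf N).index := by
      intro hdvd
      have h2 : (P : Subgroup G).relIndex N * N.index = (P : Subgroup G).index :=
        Subgroup.relIndex_mul_index hPN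
      have h3 : p ∣ (P : Subgroup G).relIndex N := hdvd
      exact P.not_dvd_index (dvd_trans h3 (Dvd.intro _ h2))
    obtain ⟨n, hn⟩ := P.isPGroup'.exists_card_eq
    have hcop : Nat.Coprime (Nat.card ((P : Subgroup G).subgroupOf N))
        ((P : Subgroup G).subgroupOf N).index := by
      have h1 : Nat.card ((P : Subgroup G).subgroupOf N) = Nat.card (P : Subgroup G) :=
        Nat.card_congr (Subgroup.subgroupOfEquivOfLe hPN).toEquiv
      rw [h1, hn]
      exact Nat.Coprime.pow_left n ((Nat.Prime.coprime_iff_not_dvd hp).2 hnd)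
    obtain ⟨H, hH⟩ := Subgroup.exists_right_complement'_of_coprime hcop
    obtain ⟨V, hV⟩ : ∃ V : Subgroup G, V = H.map N.subtype := ⟨_, rfl⟩
    have hVN : V ≤ N := by
      rw [hV]; rintro _ ⟨h, _, rfl⟩; exact h.2
    have hcompl : IsComplIn (P : Subgroup G) V (normalizer ((P : Subgroup G) : Set G)) := by
      rw [← hN]
      refine ⟨hPN, hVN, ?_, ?_⟩
      · rw [eq_bot_iff]
        rintro x ⟨hxP, hxV⟩
        rw [hV] at hxV
        obtain ⟨h, hhH, rfl⟩ := hxV
        have h1 : h ∈ (P : Subgroup G).subgroupOf N ⊓ H := ⟨Subgroup.mem_subgroupOf.2 hxP, hhH⟩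
        rw [hH.disjoint.eq_bot, Subgroup.mem_bot] at h1
        rw [Subgroup.mem_bot, h1]; rfl
      · intro m hm
        have hbij := Subgroup.isComplement'_def.1 hH
        obtain ⟨⟨a, b⟩, hab⟩ := hbij.2 ⟨m, hm⟩
        refine ⟨a.1.1, Subgroup.mem_subgroupOf.1 a.2, b.1.1, ?_, ?_⟩
        · rw [hV]; exact ⟨b.1, b.2, rfl⟩
        · have h1 := congrArg Subtype.val hab
          exact h1.symm
    have hVcard : Nat.card V = ((P : Subgroup G).subgroupOf N).index := by
      rw [hV, Subgroup.card_map_of_injective N.subtype_injective]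
      exact (hH.symm.index_eq_card).symm
    have hcopV : (Nat.card V).Coprime p := by
      rw [hVcard]; exact ((Nat.Prime.coprime_iff_not_dvd hp).2 hnd).symm
    have hodd : Odd (Nat.card V) := hG.1.of_dvd_nat (Subgroup.card_subgroup_dvd_card V)
    have hp2 : p ≠ 2 := by
      rintro rfl
      have hn0 : n ≠ 0 := by
        rintro rfl
        rw [pow_zero] at hn
        exact hP1 (Subgroup.card_eq_one.1 hn)
      have h1 : 2 ∣ Nat.card (P : Subgroup G) := hn ▸ dvd_pow_self 2 hn0
      have h2 : 2 ∣ Nat.card G := dvd_trans h1 (Subgroup.card_subgroup_dvd_card _)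
      exact (Nat.not_even_iff_odd.2 hG.1) (even_iff_two_dvd.2 h2)
    have hA : V ≤ normalizer ((P : Subgroup G) : Set G) := hN ▸ hVN
    have hRA : ⁅(P : Subgroup G), V⁆ = (P : Subgroup G) := ((h107b p P V hcompl).1).symm
    obtain ⟨_, h | ⟨R₁, R₂, h1, h2, h3, h4, h5, h6, h7⟩⟩ :=
      Cfsg.Agent.S1448.result p hp2 (P : Subgroup G) V P.isPGroup' hP1 hr hA hcopV hodd hRA
    · left; exact h
    · right
      refine ⟨R₁, R₂, h1, h2, h3, h4, h5, h6, ?_⟩
      rw [h7]
      exact comm_eq_inf_centralizer R₁ h3 h4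

end Cfsg.Agent.H27.BG10
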