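import Mathlib

/-!
# BRM-NP (helper21's team project S0996 + S4700): elements of `N(P) \ P`
-/

set_option autoImplicit false

namespace Cfsg.Agent.H27.BRM

/-- **BRM-NP**. -/
theorem normalizer_elt_facts {G : Type*} [Group G] [Finite G] (p : ℕ) [Fact p.Prime]
    (P : Sylow p G) (hP : Nat.card (P : Subgroup G) = p)
    (hC : Subgroup.centralizer ((P : Subgroup G) : Set G) = (P : Subgroup G))
    (g : G) (hgN : g ∈ Subgroup.normalizer ((P : Subgroup G) : Set G))
    (hgP : g ∉ (P : Subgroup G)) :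
    g ≠ 1 ∧ ¬ p ∣ orderOf g ∧ (∀ x ∈ (P : Subgroup G), g * x * g⁻¹ ∈ (P : Subgroup G)) ∧
      ∀ x ∈ (P : Subgroup G), x ≠ 1 → g * x * g⁻¹ ≠ x := by
  have hp : p.Prime := Fact.out
  have h1 : g ≠ 1 := by rintro rfl; exact hgP (one_mem _)
  have h3 : ∀ x ∈ (P : Subgroup G), g * x * g⁻¹ ∈ (P : Subgroup G) := fun x hx =>
    (Subgroup.mem_normalizer_iff.mp hgN x).mp hx
  have h4 : ∀ x ∈ (P : Subgroup G), x ≠ 1 → g * x * g⁻¹ ≠ x := by
    intro x hx hx1 hfix
    apply hgP
    rw [← hC, Subgroup.mem_centralizer_iff]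
    intro y hy
    have hgen : Subgroup.zpowers (⟨x, hx⟩ : (P : Subgroup G)) = ⊤ :=
      zpowers_eq_top_of_prime_card hP (by intro h; exact hx1 (congrArg Subtype.val h))
    have hy' : (⟨y, hy⟩ : (P : Subgroup G)) ∈ Subgroup.zpowers (⟨x, hx⟩ : (P : Subgroup G)) := by
      rw [hgen]; exact Subgroup.mem_top _
    obtain ⟨k, hk⟩ := Subgroup.mem_zpowers_iff.mp hy'
    have hk' : x ^ k = y := by
      have h5 := congrArg Subtype.val hk
      simpa using h5
    have hcomm : Commute g x := by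
      show g * x = x * g
      calc g * x = g * x * g⁻¹ * g := by group
        _ = x * g := by rw [hfix]
    rw [← hk']
    exact ((hcomm.zpow_right k).eq).symm
  refine ⟨h1, ?_, h3, h4⟩
  intro hdvd
  have hord0 : orderOf g ≠ 0 := (orderOf_pos g).ne'
  obtain ⟨z, hz⟩ : ∃ z : G, z = g ^ (orderOf g / p) := ⟨_, rfl⟩
  have hzord : orderOf z = p := by rw [hz]; exact orderOf_pow_orderOf_div hord0 hdvd
  have hzN : z ∈ Subgroup.normalizer ((P : Subgroup G) : Set G) := by
    rw [hz]; exact pow_mem hgN _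
  have hzP : z ∈ (P : Subgroup G) := by
    have hpg : IsPGroup p (Subgroup.zpowers z) := by
      apply IsPGroup.of_card (n := 1)
      rw [Nat.card_zpowers, hzord, pow_one]
    have h5 := hpg.inf_normalizer_sylow P
    have h6 : z ∈ Subgroup.zpowers z ⊓ Subgroup.normalizer ((P : Subgroup G) : Set G) :=
      ⟨Subgroup.mem_zpowers z, hzN⟩
    have h7 : z ∈ Subgroup.zpowers z ⊓ (P : Subgroup G) := by rw [← h5]; exact h6
    exact h7.2
  have hz1 : z ≠ 1 := by
    intro h
    rw [h, orderOf_one] at hzord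
    exact hp.one_lt.ne hzord
  have hcomm : g * z * g⁻¹ = z := by
    rw [hz, ← pow_succ', pow_succ, mul_inv_cancel_right]
  exact h4 z hzP hz1 hcomm

end Cfsg.Agent.H27.BRM
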