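import Mathlib
import Cfsg.Agent.H27.BRMNp

/-!
# BRM-NE (helper21's team project S0996 + S4700): the normalizer of a complement of `P` in `N(P)`
-/

set_option autoImplicit false
set_option linter.style.haveILetI false

namespace Cfsg.Agent.H27.BRM

/-- **BRM-NE**. -/
theorem card_normalizer_complement_dvd {G : Type*} [Group G] [Finite G] (p : ℕ) [Fact p.Prime]
    (P : Sylow p G) (hP : Nat.card (P : Subgroup G) = p)
    (hC : Subgroup.centralizer ((P : Subgroup G) : Set G) = (P : Subgroup G))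
    (e n : ℕ) (he2 : 2 ≤ e)
    (hN : Nat.card (Subgroup.normalizer ((P : Subgroup G) : Set G)) = p * e)
    (hfix : ∀ s ∈ Subgroup.normalizer ((P : Subgroup G) : Set G), s ∉ (P : Subgroup G) →
      Nat.card {Q : Sylow p G // s ∈ Subgroup.normalizer ((Q : Subgroup G) : Set G)} = n + 1) :
    (n + 1) * e ∣ Nat.card G := by
  classical
  have hp : p.Prime := Fact.out
  have hPN : (P : Subgroup G) ≤ Subgroup.normalizer ((P : Subgroup G) : Set G) :=
    Subgroup.le_normalizer
  have hsm : ∀ (x : G) (Q : Sylow p G),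
      x • Q = Q ↔ x ∈ Subgroup.normalizer ((Q : Subgroup G) : Set G) :=
    fun x Q => Sylow.smul_eq_iff_mem_normalizer
  -- Step 1: `MulAut P` is cyclic
  haveI : Fact (Nat.card ↥(P : Subgroup G)).Prime := ⟨by rw [hP]; exact hp⟩
  haveI : IsCyclic ↥(P : Subgroup G) := isCyclic_of_prime_card hP
  haveI : IsCyclic (MulAut ↥(P : Subgroup G)) :=
    isCyclic_of_injective (IsCyclic.mulAutMulEquiv ↥(P : Subgroup G)).toMonoidHom
      (IsCyclic.mulAutMulEquiv ↥(P : Subgroup G)).injective
  -- Step 2: a generator of `N(P)` modulo `P`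
  obtain ⟨⟨_, a, rfl⟩, ha⟩ := IsCyclic.exists_generator
    (α := ↥((P : Subgroup G).normalizerMonoidHom).range)
  obtain ⟨s, hs⟩ : ∃ s : G, s = (a : G) := ⟨_, rfl⟩
  have hsN : s ∈ Subgroup.normalizer ((P : Subgroup G) : Set G) := by rw [hs]; exact a.2
  have hstar : ∀ b ∈ Subgroup.normalizer ((P : Subgroup G) : Set G),
      ∃ k : ℤ, b * s ^ (-k) ∈ (P : Subgroup G) := by
    intro b hb
    have h1 := ha ⟨(P : Subgroup G).normalizerMonoidHom ⟨b, hb⟩, ⟨⟨b, hb⟩, rfl⟩⟩
    obtain ⟨k, hk⟩ := Subgroup.mem_zpowers_iff.mp h1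
    have hk' : ((P : Subgroup G).normalizerMonoidHom a) ^ k =
        (P : Subgroup G).normalizerMonoidHom ⟨b, hb⟩ := by
      have h2 := congrArg Subtype.val hk
      simpa using h2
    refine ⟨k, ?_⟩
    have hker : (⟨b, hb⟩ * a ^ (-k) : ↥(Subgroup.normalizer ((P : Subgroup G) : Set G))) ∈
        ((P : Subgroup G).normalizerMonoidHom).ker := by
      rw [MonoidHom.mem_ker, map_mul, map_zpow, ← hk', ← zpow_add, add_neg_cancel, zpow_zero]
    rw [Subgroup.normalizerMonoidHom_ker, Subgroup.mem_subgroupOf, hC] at hker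
    rw [hs]
    simpa using hker
  -- Step 3: `s ∉ P`
  have hsP : s ∉ (P : Subgroup G) := by
    intro hsP
    have hle : Subgroup.normalizer ((P : Subgroup G) : Set G) ≤ (P : Subgroup G) := by
      intro b hb
      obtain ⟨k, hk⟩ := hstar b hb
      have h1 : b = b * s ^ (-k) * s ^ k := by group
      rw [h1]
      exact mul_mem hk (zpow_mem hsP k)
    have h2 := Subgroup.card_le_of_le hle
    rw [hN, hP] at h2
    have h3 : p * e ≤ p * 1 := by rw [mul_one]; exact h2
    have h4 := Nat.le_of_mul_le_mul_left h3 hp.pos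
    omega
  obtain ⟨hs1, hsp, hsconj, hsfpf⟩ := normalizer_elt_facts p P hP hC s hsN hsP
  have hEN : Subgroup.zpowers s ≤ Subgroup.normalizer ((P : Subgroup G) : Set G) := by
    rw [Subgroup.zpowers_le]; exact hsN
  -- `P ∩ E = 1`
  have hPE : ∀ x ∈ (P : Subgroup G), x ∈ Subgroup.zpowers s → x = 1 := by
    intro x hxP hxE
    have h1 : orderOf x ∣ p := by
      have := (P : Subgroup G).orderOf_dvd_natCard hxP
      rwa [hP] at this
    have h2 : orderOf x ∣ orderOf s := orderOf_dvd_of_mem_zpowers hxE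
    have hcop : Nat.Coprime p (orderOf s) := (Nat.Prime.coprime_iff_not_dvd hp).mpr hsp
    have h3 : orderOf x ∣ Nat.gcd p (orderOf s) := Nat.dvd_gcd h1 h2
    rw [hcop] at h3
    exact orderOf_eq_one_iff.mp (Nat.dvd_one.mp h3)
  -- Step 4: `orderOf s = e`
  have hord : orderOf s = e := by
    have hbij : Function.Bijective
        (fun z : ↥(P : Subgroup G) × ↥(Subgroup.zpowers s) =>
          (⟨(z.1 : G) * (z.2 : G), mul_mem (hPN z.1.2) (hEN z.2.2)⟩ :
            ↥(Subgroup.normalizer ((P : Subgroup G) : Set G)))) := by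
      constructor
      · rintro ⟨y, c⟩ ⟨y', c'⟩ h
        have h1 : (y : G) * (c : G) = (y' : G) * (c' : G) := congrArg Subtype.val h
        have h2 : (y' : G)⁻¹ * (y : G) = (c' : G) * (c : G)⁻¹ := by
          calc (y' : G)⁻¹ * (y : G) = (y' : G)⁻¹ * ((y : G) * (c : G)) * (c : G)⁻¹ := by group
            _ = (c' : G) * (c : G)⁻¹ := by rw [h1]; group
        have h3 : (y' : G)⁻¹ * (y : G) = 1 := by
          apply hPE _ (mul_mem (inv_mem y'.2) y.2)
          rw [h2]; exact mul_mem c'.2 (inv_mem c.2)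
        have h4 : (y : G) = (y' : G) := by
          calc (y : G) = (y' : G) * ((y' : G)⁻¹ * (y : G)) := by group
            _ = (y' : G) := by rw [h3, mul_one]
        have h5 : (c : G) = (c' : G) := by
          rw [h4] at h1
          exact mul_left_cancel h1
        exact Prod.ext (Subtype.ext h4) (Subtype.ext h5)
      · rintro ⟨b, hb⟩
        obtain ⟨k, hk⟩ := hstar b hb
        refine ⟨(⟨b * s ^ (-k), hk⟩, ⟨s ^ k, zpow_mem (Subgroup.mem_zpowers s) k⟩), ?_⟩
        apply Subtype.ext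
        show b * s ^ (-k) * s ^ k = b
        group
    have h1 := Nat.card_congr (Equiv.ofBijective _ hbij)
    rw [Nat.card_prod, hP, Nat.card_zpowers, hN] at h1
    exact (Nat.eq_of_mul_eq_mul_left hp.pos h1)
  -- Step 5: `M = N(E)`
  obtain ⟨M, hM⟩ : ∃ M : Subgroup G, M = Subgroup.normalizer ((Subgroup.zpowers s : Subgroup G) : Set G) :=
    ⟨_, rfl⟩
  have hEM : Subgroup.zpowers s ≤ M := by rw [hM]; exact Subgroup.le_normalizer
  -- the stabilizer of `P` in `M` is `E`
  have hstab : ∀ m : ↥M, m ∈ MulAction.stabilizer ↥M P ↔ (m : G) ∈ Subgroup.zpowers s := by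
    intro m
    rw [MulAction.mem_stabilizer_iff, Subgroup.smul_def, hsm]
    constructor
    · intro hmN
      obtain ⟨k, hk⟩ := hstar (m : G) hmN
      obtain ⟨y, hy⟩ : ∃ y : G, y = (m : G) * s ^ (-k) := ⟨_, rfl⟩
      rw [← hy] at hk
      have hyM : y ∈ Subgroup.normalizer ((Subgroup.zpowers s : Subgroup G) : Set G) := by
        rw [hy, ← hM]
        exact mul_mem m.2 (hEM (zpow_mem (Subgroup.mem_zpowers s) _))
      have h1 : y * s * y⁻¹ ∈ Subgroup.zpowers s :=
        (Subgroup.mem_normalizer_iff.mp hyM s).mp (Subgroup.mem_zpowers s)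
      have h2 : y * s * y⁻¹ * s⁻¹ ∈ Subgroup.zpowers s :=
        mul_mem h1 (inv_mem (Subgroup.mem_zpowers s))
      have h3 : y * s * y⁻¹ * s⁻¹ ∈ (P : Subgroup G) := by
        have h4 : y * s * y⁻¹ * s⁻¹ = y * (s * y⁻¹ * s⁻¹) := by group
        rw [h4]
        exact mul_mem hk (hsconj _ (inv_mem hk))
      have h5 := hPE _ h3 h2
      have h6 : s * y * s⁻¹ = y := by
        calc s * y * s⁻¹ = (y * s * y⁻¹ * s⁻¹)⁻¹ * y := by group
          _ = y := by rw [h5, inv_one, one_mul]
      have hy1 : y = 1 := by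
        by_contra hne
        exact hsfpf y hk hne h6
      have h7 : (m : G) = s ^ k := by
        calc (m : G) = (m : G) * s ^ (-k) * s ^ k := by group
          _ = s ^ k := by rw [← hy, hy1, one_mul]
      rw [h7]
      exact zpow_mem (Subgroup.mem_zpowers s) k
    · intro hmE
      exact hEN hmE
  have hcardstab : Nat.card ↥(MulAction.stabilizer ↥M P) = e := by
    rw [← hord, ← Nat.card_zpowers]
    exact Nat.card_congr
      { toFun := fun m => ⟨((m.1 : ↥M) : G), (hstab m.1).mp m.2⟩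
        invFun := fun c => ⟨⟨c.1, hEM c.2⟩, (hstab ⟨c.1, hEM c.2⟩).mpr c.2⟩
        left_inv := fun m => rfl
        right_inv := fun c => rfl }
  -- the orbit of `P` under `M`
  have horbit : ∀ Q : Sylow p G, Q ∈ MulAction.orbit ↥M P ↔
      s ∈ Subgroup.normalizer ((Q : Subgroup G) : Set G) := by
    intro Q
    constructor
    · rintro ⟨m, rfl⟩
      show s ∈ Subgroup.normalizer (((m • P : Sylow p G) : Subgroup G) : Set G)
      rw [← hsm, Subgroup.smul_def, smul_smul]
      have h1 : ((m : G)⁻¹ * s * (m : G)) • P = P := by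
        rw [hsm]
        apply hEN
        have hmM : (m : G) ∈ Subgroup.normalizer ((Subgroup.zpowers s : Subgroup G) : Set G) := by
          rw [← hM]; exact m.2
        exact (Subgroup.mem_normalizer_iff''.mp hmM s).mp (Subgroup.mem_zpowers s)
      have h2 : s * (m : G) = (m : G) * ((m : G)⁻¹ * s * (m : G)) := by group
      rw [h2, ← smul_smul, h1]
    · intro hsQ
      obtain ⟨g, rfl⟩ := MulAction.exists_smul_eq G P Q
      rw [← hsm, smul_smul] at hsQ
      obtain ⟨s', hs'⟩ : ∃ s' : G, s' = g⁻¹ * s * g := ⟨_, rfl⟩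
      have hs'N : s' ∈ Subgroup.normalizer ((P : Subgroup G) : Set G) := by
        rw [← hsm, hs']
        have h1 : g⁻¹ * s * g = g⁻¹ * (s * g) := by group
        rw [h1, ← smul_smul, hsQ, smul_smul, inv_mul_cancel, one_smul]
      have hs'P : s' ∉ (P : Subgroup G) := by
        intro h
        have h1 : orderOf s' ∣ p := by
          have := (P : Subgroup G).orderOf_dvd_natCard h
          rwa [hP] at this
        have h2 : s' ^ p = 1 := orderOf_dvd_iff_pow_eq_one.mp h1
        have h3 : s ^ p = 1 := by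
          have h4 : s = g * s' * g⁻¹ := by rw [hs']; group
          rw [h4, conj_pow, h2, mul_one, mul_inv_cancel]
        have h5 : orderOf s ∣ p := orderOf_dvd_of_pow_eq_one h3
        rcases (Nat.dvd_prime hp).mp h5 with h6 | h6
        · exact hs1 (orderOf_eq_one_iff.mp h6)
        · exact hsp (by rw [h6])
      obtain ⟨k, hk⟩ := hstar s' hs'N
      obtain ⟨y₀, hy₀⟩ : ∃ y₀ : G, y₀ = s' * s ^ (-k) := ⟨_, rfl⟩
      rw [← hy₀] at hk
      obtain ⟨t₀, ht₀⟩ : ∃ t₀ : G, t₀ = s ^ k := ⟨_, rfl⟩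
      have hs't : s' = y₀ * t₀ := by rw [hy₀, ht₀]; group
      have ht₀N : t₀ ∈ Subgroup.normalizer ((P : Subgroup G) : Set G) := by
        rw [ht₀]; exact zpow_mem hsN k
      have ht₀P : t₀ ∉ (P : Subgroup G) := by
        intro h
        exact hs'P (by rw [hs't]; exact mul_mem hk h)
      obtain ⟨-, -, htconj, htfpf⟩ := normalizer_elt_facts p P hP hC t₀ ht₀N ht₀P
      -- the map `y ↦ y⁻¹ t₀ y t₀⁻¹` is a bijection of `P`
      have hinj : Function.Injective (fun y : ↥(P : Subgroup G) =>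
          (⟨(y : G)⁻¹ * (t₀ * (y : G) * t₀⁻¹), mul_mem (inv_mem y.2) (htconj _ y.2)⟩ :
            ↥(P : Subgroup G))) := by
        intro y y' h
        have h1 : (y : G)⁻¹ * (t₀ * (y : G) * t₀⁻¹) = (y' : G)⁻¹ * (t₀ * (y' : G) * t₀⁻¹) :=
          congrArg Subtype.val h
        have h2 : t₀ * ((y : G) * (y' : G)⁻¹) * t₀⁻¹ = (y : G) * (y' : G)⁻¹ := by
          calc t₀ * ((y : G) * (y' : G)⁻¹) * t₀⁻¹
              = (y : G) * ((y : G)⁻¹ * (t₀ * (y : G) * t₀⁻¹)) * (t₀ * (y' : G)⁻¹ * t₀⁻¹) := by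
                group
            _ = (y : G) * ((y' : G)⁻¹ * (t₀ * (y' : G) * t₀⁻¹)) * (t₀ * (y' : G)⁻¹ * t₀⁻¹) := by
                rw [h1]
            _ = (y : G) * (y' : G)⁻¹ := by group
        have h3 : (y : G) * (y' : G)⁻¹ = 1 := by
          by_contra hne
          exact htfpf _ (mul_mem y.2 (inv_mem y'.2)) hne h2
        apply Subtype.ext
        calc (y : G) = (y : G) * (y' : G)⁻¹ * (y' : G) := by group
          _ = (y' : G) := by rw [h3, one_mul]
      have hsurj := Finite.surjective_of_injective hinj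
      obtain ⟨y, hy⟩ := hsurj ⟨y₀, hk⟩
      have hy' : (y : G)⁻¹ * (t₀ * (y : G) * t₀⁻¹) = y₀ := congrArg Subtype.val hy
      have hconj : (y : G) * s' * (y : G)⁻¹ = t₀ := by
        rw [hs't, ← hy']; group
      -- `c = y g⁻¹` normalizes `E`
      have hcM : (y : G) * g⁻¹ ∈ M := by
        rw [hM]
        apply Subgroup.mem_normalizer_fintype
        intro x hx
        obtain ⟨i, rfl⟩ := Subgroup.mem_zpowers_iff.mp hx
        have h1 : (y : G) * g⁻¹ * s ^ i * ((y : G) * g⁻¹)⁻¹ =
            ((y : G) * g⁻¹ * s * ((y : G) * g⁻¹)⁻¹) ^ i := by rw [conj_zpow]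
        have h2 : (y : G) * g⁻¹ * s * ((y : G) * g⁻¹)⁻¹ = t₀ := by
          rw [← hconj, hs']; group
        show (y : G) * g⁻¹ * s ^ i * ((y : G) * g⁻¹)⁻¹ ∈ Subgroup.zpowers s
        rw [h1, h2, ht₀]
        exact zpow_mem (zpow_mem (Subgroup.mem_zpowers s) k) i
      have hmM : g * (y : G)⁻¹ ∈ M := by
        have h1 : g * (y : G)⁻¹ = ((y : G) * g⁻¹)⁻¹ := by group
        rw [h1]; exact inv_mem hcM
      refine ⟨⟨g * (y : G)⁻¹, hmM⟩, ?_⟩
      show (⟨g * (y : G)⁻¹, hmM⟩ : ↥M) • P = g • P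
      rw [Subgroup.smul_def]
      show (g * (y : G)⁻¹) • P = g • P
      rw [← smul_smul]
      congr 1
      rw [hsm]
      exact hPN (inv_mem y.2)
  have hcardorbit : (MulAction.stabilizer ↥M P).index = n + 1 := by
    rw [MulAction.index_stabilizer, ← Nat.card_coe_set_eq, ← hfix s hsN hsP]
    exact Nat.card_congr (Equiv.subtypeEquivRight horbit)
  have hcardM : Nat.card ↥M = (n + 1) * e := by
    rw [← (MulAction.stabilizer ↥M P).index_mul_card, hcardorbit, hcardstab]
  rw [← hcardM]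
  exact Subgroup.card_subgroup_dvd_card M

end Cfsg.Agent.H27.BRM
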