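import Mathlib
import Cfsg.Prelude.Def_GeometricClasses
import Cfsg.Agent.H91.FpP1

/-!
# S5876-P2 (helper17's team project S5876): idempotents of a commutative `G`-stable
multiplicatively closed set of matrices are trivial, for `G` irreducible and primitive
-/

set_option autoImplicit false
set_option linter.style.haveILetI false

namespace Cfsg.Agent.H27.Cliff

open Matrix

section aux

variable {F : Type*} [Field F] {n : ℕ}

/-- Conjugation of a matrix by an element of `GL`. -/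
def cj (g : GL (Fin n) F) (f : Matrix (Fin n) (Fin n) F) : Matrix (Fin n) (Fin n) F :=
  (g : Matrix (Fin n) (Fin n) F) * f * ((g⁻¹ : GL (Fin n) F) : Matrix (Fin n) (Fin n) F)

theorem cj_one (f : Matrix (Fin n) (Fin n) F) : cj 1 f = f := by
  unfold cj; simp

theorem cj_mul (g h : GL (Fin n) F) (f : Matrix (Fin n) (Fin n) F) :
    cj (g * h) f = cj g (cj h f) := by
  unfold cj
  rw [_root_.mul_inv_rev, Units.val_mul, Units.val_mul]
  simp only [Matrix.mul_assoc]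

theorem cj_inv_cj (g : GL (Fin n) F) (f : Matrix (Fin n) (Fin n) F) : cj g⁻¹ (cj g f) = f := by
  rw [← cj_mul, inv_mul_cancel, cj_one]

theorem cj_map_mul (g : GL (Fin n) F) (a b : Matrix (Fin n) (Fin n) F) :
    cj g a * cj g b = cj g (a * b) := by
  unfold cj
  have h : ((g⁻¹ : GL (Fin n) F) : Matrix (Fin n) (Fin n) F) * (g : Matrix (Fin n) (Fin n) F) = 1 :=
    Units.inv_mul g
  calc (g : Matrix (Fin n) (Fin n) F) * a * ((g⁻¹ : GL (Fin n) F) : Matrix (Fin n) (Fin n) F) *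
        ((g : Matrix (Fin n) (Fin n) F) * b * ((g⁻¹ : GL (Fin n) F) : Matrix (Fin n) (Fin n) F))
      = (g : Matrix (Fin n) (Fin n) F) * a *
        ((((g⁻¹ : GL (Fin n) F) : Matrix (Fin n) (Fin n) F) * (g : Matrix (Fin n) (Fin n) F)) *
          (b * ((g⁻¹ : GL (Fin n) F) : Matrix (Fin n) (Fin n) F))) := by
        simp only [Matrix.mul_assoc]
    _ = (g : Matrix (Fin n) (Fin n) F) * (a * b) *
        ((g⁻¹ : GL (Fin n) F) : Matrix (Fin n) (Fin n) F) := by
        rw [h, Matrix.one_mul]; simp only [Matrix.mul_assoc]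

theorem cj_idem (g : GL (Fin n) F) (f : Matrix (Fin n) (Fin n) F) (hf : f * f = f) :
    cj g f * cj g f = cj g f := by
  rw [cj_map_mul, hf]

theorem cj_zero (g : GL (Fin n) F) : cj g (0 : Matrix (Fin n) (Fin n) F) = 0 := by
  unfold cj; simp

theorem cj_ne_zero (g : GL (Fin n) F) (f : Matrix (Fin n) (Fin n) F) (hf : f ≠ 0) :
    cj g f ≠ 0 := by
  intro h
  apply hf
  rw [← cj_inv_cj g f, h, cj_zero]

theorem cj_rank (g : GL (Fin n) F) (f : Matrix (Fin n) (Fin n) F) : (cj g f).rank = f.rank := by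
  unfold cj
  rw [Matrix.rank_mul_eq_left_of_isUnit_det _ _ (Matrix.isUnits_det_units g⁻¹),
    Matrix.rank_mul_eq_right_of_isUnit_det _ _ (Matrix.isUnits_det_units g)]

theorem cj_comm (g : GL (Fin n) F) (f : Matrix (Fin n) (Fin n) F) (h : cj g f = f) :
    (g : Matrix (Fin n) (Fin n) F) * f = f * (g : Matrix (Fin n) (Fin n) F) := by
  have h1 : ((g⁻¹ : GL (Fin n) F) : Matrix (Fin n) (Fin n) F) * (g : Matrix (Fin n) (Fin n) F) = 1 :=
    Units.inv_mul g
  calc (g : Matrix (Fin n) (Fin n) F) * f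
      = (g : Matrix (Fin n) (Fin n) F) * f *
        (((g⁻¹ : GL (Fin n) F) : Matrix (Fin n) (Fin n) F) * (g : Matrix (Fin n) (Fin n) F)) := by
        rw [h1, Matrix.mul_one]
    _ = cj g f * (g : Matrix (Fin n) (Fin n) F) := by
        unfold cj; simp only [Matrix.mul_assoc]
    _ = f * (g : Matrix (Fin n) (Fin n) F) := by rw [h]

theorem rank_eq_finrank_range (a : Matrix (Fin n) (Fin n) F) :
    a.rank = Module.finrank F ↥(LinearMap.range (Matrix.toLin' a)) := rfl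

/-- If `b` is idempotent, commutes with `a`, and `a b` has rank at least that of `a`, then
`b a = a`. -/
theorem absorb (a b : Matrix (Fin n) (Fin n) F) (hb : b * b = b) (hab : a * b = b * a)
    (hr : a.rank ≤ (a * b).rank) : b * a = a := by
  have hle : LinearMap.range (Matrix.toLin' (a * b)) ≤ LinearMap.range (Matrix.toLin' a) := by
    rw [Matrix.toLin'_mul]; exact LinearMap.range_comp_le_range _ _
  have heq : LinearMap.range (Matrix.toLin' (a * b)) = LinearMap.range (Matrix.toLin' a) := by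
    apply Submodule.eq_of_le_of_finrank_le hle
    rw [← rank_eq_finrank_range, ← rank_eq_finrank_range]; exact hr
  apply Matrix.toLin'.injective
  apply LinearMap.ext
  intro v
  have hv : Matrix.toLin' a v ∈ LinearMap.range (Matrix.toLin' (a * b)) := by
    rw [heq]; exact LinearMap.mem_range_self _ v
  obtain ⟨w, hw⟩ := hv
  simp only [Matrix.toLin'_apply] at hw ⊢
  rw [← Matrix.mulVec_mulVec, ← hw, Matrix.mulVec_mulVec, ← Matrix.mul_assoc, ← hab,
    Matrix.mul_assoc, hb]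

/-- A surjective idempotent is the identity. -/
theorem idem_of_range_top (a : Matrix (Fin n) (Fin n) F) (ha : a * a = a)
    (htop : LinearMap.range (Matrix.toLin' a) = ⊤) : a = 1 := by
  apply Matrix.toLin'.injective
  rw [Matrix.toLin'_one]
  apply LinearMap.ext
  intro v
  have hv : v ∈ LinearMap.range (Matrix.toLin' a) := by rw [htop]; exact Submodule.mem_top
  obtain ⟨w, rfl⟩ := hv
  rw [LinearMap.id_apply, Matrix.toLin'_apply, Matrix.toLin'_apply, Matrix.mulVec_mulVec, ha]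

end aux

/-- **S5876-P2**. -/
theorem idem_trivial {F : Type*} [Field F] [Fintype F] {n : ℕ} (G : Subgroup (GL (Fin n) F))
    (hirr : Cfsg.Geo.ActsIrreducibly (Cfsg.Geo.matrixSet G))
    (hprim : ∀ (m t : ℕ) (D : Fin t → Submodule F (Fin n → F)), 2 ≤ t →
      Cfsg.Geo.IsMDecomposition m D → ¬ G ≤ Cfsg.Geo.decompositionStabilizer D)
    (Z : Set (Matrix (Fin n) (Fin n) F))
    (hcomm : ∀ x ∈ Z, ∀ y ∈ Z, x * y = y * x) (hmul : ∀ x ∈ Z, ∀ y ∈ Z, x * y ∈ Z)
    (hconj : ∀ g ∈ G, ∀ x ∈ Z, (g : Matrix (Fin n) (Fin n) F) * x *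
        ((g⁻¹ : GL (Fin n) F) : Matrix (Fin n) (Fin n) F) ∈ Z)
    (e : Matrix (Fin n) (Fin n) F) (he : e ∈ Z) (hee : e * e = e) : e = 0 ∨ e = 1 := by
  classical
  by_cases he0 : e = 0
  · exact Or.inl he0
  right
  obtain ⟨S, hS⟩ : ∃ S : Set (Matrix (Fin n) (Fin n) F),
      S = {f | f ∈ Z ∧ f * f = f ∧ f ≠ 0} := ⟨_, rfl⟩
  have heS : e ∈ S := by rw [hS]; exact ⟨he, hee, he0⟩
  obtain ⟨e₀, he₀S, hmin⟩ :=
    Set.exists_min_image S (fun f => f.rank) (Set.toFinite S) ⟨e, heS⟩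
  have he₀ : e₀ ∈ Z ∧ e₀ * e₀ = e₀ ∧ e₀ ≠ 0 := by rw [hS] at he₀S; exact he₀S
  -- the orbit of `e₀`
  obtain ⟨O, hO⟩ : ∃ O : Set (Matrix (Fin n) (Fin n) F),
      O = {f | ∃ g ∈ G, f = cj g e₀} := ⟨_, rfl⟩
  have hOS : ∀ f ∈ O, f ∈ Z ∧ f * f = f ∧ f ≠ 0 ∧ f.rank = e₀.rank := by
    intro f hf
    rw [hO] at hf
    obtain ⟨g, hg, rfl⟩ := hf
    exact ⟨hconj g hg e₀ he₀.1, cj_idem g e₀ he₀.2.1, cj_ne_zero g e₀ he₀.2.2, cj_rank g e₀⟩
  have hOmem : ∀ f, f ∈ O → ∃ g ∈ G, f = cj g e₀ := by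
    intro f hf; rw [hO] at hf; exact hf
  have he₀O : e₀ ∈ O := by rw [hO]; exact ⟨1, one_mem G, (cj_one e₀).symm⟩
  have hOcj : ∀ g ∈ G, ∀ f ∈ O, cj g f ∈ O := by
    intro g hg f hf
    rw [hO] at hf ⊢
    obtain ⟨h, hh, rfl⟩ := hf
    exact ⟨g * h, mul_mem hg hh, (cj_mul g h e₀).symm⟩
  -- distinct members of the orbit are orthogonal
  have hclaim : ∀ f₁ ∈ O, ∀ f₂ ∈ O, f₁ ≠ f₂ → f₁ * f₂ = 0 := by
    intro f₁ h1 f₂ h2 hne
    by_contra h0
    obtain ⟨hZ1, hi1, hn1, hr1⟩ := hOS f₁ h1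
    obtain ⟨hZ2, hi2, hn2, hr2⟩ := hOS f₂ h2
    have hc := hcomm f₁ hZ1 f₂ hZ2
    have hidem : f₁ * f₂ * (f₁ * f₂) = f₁ * f₂ := by
      calc f₁ * f₂ * (f₁ * f₂) = f₁ * (f₂ * f₁) * f₂ := by simp only [Matrix.mul_assoc]
        _ = f₁ * (f₁ * f₂) * f₂ := by rw [hc]
        _ = (f₁ * f₁) * (f₂ * f₂) := by simp only [Matrix.mul_assoc]
        _ = f₁ * f₂ := by rw [hi1, hi2]
    have hS12 : f₁ * f₂ ∈ S := by rw [hS]; exact ⟨hmul f₁ hZ1 f₂ hZ2, hidem, h0⟩
    have hrk : e₀.rank ≤ (f₁ * f₂).rank := hmin _ hS12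
    have ha : f₂ * f₁ = f₁ := absorb f₁ f₂ hi2 hc (by rw [hr1]; exact hrk)
    have hb : f₁ * f₂ = f₂ := absorb f₂ f₁ hi1 hc.symm (by rw [hr2, ← hc]; exact hrk)
    apply hne
    calc f₁ = f₂ * f₁ := ha.symm
      _ = f₁ * f₂ := hc.symm
      _ = f₂ := hb
  by_cases hall : ∀ f ∈ O, f = e₀
  · -- `e₀` commutes with `G`, so its range is invariant
    have hcomm₀ : ∀ g ∈ G,
        (g : Matrix (Fin n) (Fin n) F) * e₀ = e₀ * (g : Matrix (Fin n) (Fin n) F) := by
      intro g hg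
      exact cj_comm g e₀ (hall _ (hOcj g hg e₀ he₀O))
    have hinv : ∀ s ∈ Cfsg.Geo.matrixSet G,
        (LinearMap.range (Matrix.toLin' e₀)).map (Matrix.toLin' s) ≤
          LinearMap.range (Matrix.toLin' e₀) := by
      rintro _ ⟨g, hg, rfl⟩
      rintro _ ⟨_, ⟨v, rfl⟩, rfl⟩
      refine ⟨Matrix.toLin' (g : Matrix (Fin n) (Fin n) F) v, ?_⟩
      simp only [Matrix.toLin'_apply, Matrix.mulVec_mulVec]
      rw [hcomm₀ g hg]
    have htop : LinearMap.range (Matrix.toLin' e₀) = ⊤ := by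
      rcases hirr _ hinv with h | h
      · exfalso
        apply he₀.2.2
        rw [LinearMap.range_eq_bot] at h
        apply Matrix.toLin'.injective
        rw [h, map_zero]
      · exact h
    have he₀1 : e₀ = 1 := idem_of_range_top e₀ he₀.2.1 htop
    have hrank : (1 : Matrix (Fin n) (Fin n) F).rank ≤ e.rank := by
      rw [← he₀1]; exact hmin e heS
    have htop' : LinearMap.range (Matrix.toLin' e) = ⊤ := by
      apply Submodule.eq_top_of_finrank_eq
      apply le_antisymm (Submodule.finrank_le _)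
      rw [← rank_eq_finrank_range]
      calc Module.finrank F (Fin n → F) = (1 : Matrix (Fin n) (Fin n) F).rank := by
            rw [Matrix.rank_one, Module.finrank_fin_fun, Fintype.card_fin]
        _ ≤ e.rank := hrank
    exact idem_of_range_top e hee htop'
  · -- at least two members: a decomposition stabilized by `G`
    exfalso
    push Not at hall
    obtain ⟨f₁, hf₁O, hf₁ne⟩ := hall
    haveI : Finite ↥O := (Set.toFinite O).to_subtype
    obtain ⟨t, ht⟩ : ∃ t, t = Nat.card ↥O := ⟨_, rfl⟩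
    have ht2 : 2 ≤ t := by
      rw [ht]
      have h1 : 1 < Nat.card ↥O :=
        Finite.one_lt_card_iff_nontrivial.mpr
          ⟨⟨⟨f₁, hf₁O⟩, ⟨e₀, he₀O⟩, fun h => hf₁ne (congrArg Subtype.val h)⟩⟩
      exact h1
    obtain ⟨φ, -⟩ : ∃ φ : Fin t ≃ ↥O, True := ⟨(Finite.equivFinOfCardEq ht.symm).symm, trivial⟩
    have hidem : ∀ i, ((φ i : ↥O) : Matrix (Fin n) (Fin n) F) * (φ i : ↥O) = (φ i : ↥O) :=
      fun i => (hOS _ (φ i).2).2.1
    have hne : ∀ i, ((φ i : ↥O) : Matrix (Fin n) (Fin n) F) ≠ 0 := fun i => (hOS _ (φ i).2).2.2.1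
    have horth : ∀ i j, i ≠ j →
        ((φ i : ↥O) : Matrix (Fin n) (Fin n) F) * (φ j : ↥O) = 0 := fun i j hij =>
      hclaim _ (φ i).2 _ (φ j).2 (fun h => hij (φ.injective (Subtype.ext h)))
    have htrans : ∀ i j, ∃ g ∈ G, (g : Matrix (Fin n) (Fin n) F) *
        ((φ i : ↥O) : Matrix (Fin n) (Fin n) F) *
        ((g⁻¹ : GL (Fin n) F) : Matrix (Fin n) (Fin n) F) = (φ j : ↥O) := by
      intro i j
      obtain ⟨gi, hgi, hi'⟩ := hOmem _ (φ i).2
      obtain ⟨gj, hgj, hj'⟩ := hOmem _ (φ j).2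
      refine ⟨gj * gi⁻¹, mul_mem hgj (inv_mem hgi), ?_⟩
      show cj (gj * gi⁻¹) ((φ i : ↥O) : Matrix (Fin n) (Fin n) F) = (φ j : ↥O)
      rw [hi', hj', cj_mul, cj_inv_cj]
    have hperm : ∀ g ∈ G, ∀ i, ∃ j, (g : Matrix (Fin n) (Fin n) F) *
        ((φ i : ↥O) : Matrix (Fin n) (Fin n) F) *
        ((g⁻¹ : GL (Fin n) F) : Matrix (Fin n) (Fin n) F) = (φ j : ↥O) := by
      intro g hg i
      refine ⟨φ.symm ⟨cj g ((φ i : ↥O) : Matrix (Fin n) (Fin n) F), hOcj g hg _ (φ i).2⟩, ?_⟩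
      rw [Equiv.apply_symm_apply]
      rfl
    obtain ⟨m, hdec, hstab⟩ := Cfsg.Agent.H91.Fp.orbit_decomposition G hirr ht2
      (fun i => ((φ i : ↥O) : Matrix (Fin n) (Fin n) F)) hidem hne horth htrans hperm
    exact hprim m t _ ht2 hdec hstab

end Cfsg.Agent.H27.Cliff
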