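import Mathlib
import Cfsg.Agent.H81.DihBDefs

/-!
# helper27: S4481 piece LATA (`latA : StmtLatA`) for helper81
-/

set_option autoImplicit false

namespace Cfsg.Agent.H27.DihB

universe u

/-- from a sum of integer squares equal to `c ∈ {1, 2}` pick an entry `±1` -/
theorem pick_aux {ι : Type*} [DecidableEq ι] (s : Finset ι) (f : ι → ℤ) (c : ℤ) (hc : 0 < c)
    (hc2 : c ≤ 2) (hs : ∑ i ∈ s, f i * f i = c) :
    ∃ x ∈ s, (f x = 1 ∨ f x = -1) ∧ ∑ i ∈ s.erase x, f i * f i = c - 1 := by
  have hex : ∃ x ∈ s, f x ≠ 0 := by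
    by_contra hne
    have hne' : ∀ x ∈ s, f x = 0 := fun x hx => by_contra (fun h => hne ⟨x, hx, h⟩)
    have h0 : ∑ i ∈ s, f i * f i = 0 :=
      Finset.sum_eq_zero (fun i hi => by rw [hne' i hi, mul_zero])
    omega
  obtain ⟨x, hx, hfx⟩ := hex
  have h1 : ∑ i ∈ s.erase x, f i * f i = c - f x * f x := by
    rw [← hs, ← Finset.add_sum_erase s _ hx]; ring
  have h2 : 0 ≤ ∑ i ∈ s.erase x, f i * f i :=
    Finset.sum_nonneg (fun i _ => mul_self_nonneg (f i))
  have h3 : f x = 1 ∨ f x = -1 := by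
    have h4 : f x * f x ≤ 2 := by linarith
    have h5 : -1 ≤ f x := by nlinarith
    have h6 : f x ≤ 1 := by nlinarith
    omega
  refine ⟨x, hx, h3, ?_⟩
  rw [h1]
  rcases h3 with h | h
  · rw [h]; ring
  · rw [h]; ring

/-- **S4481-LATA** -/
theorem latA : Cfsg.Agent.H81.DihB.StmtLatA.{u} := by
  intro ι _ m h d u i₀ L
  classical
  constructor
  · intro k hk0 hkm hkh
    have hkk : k + k ≠ m := by have := L.hm; omega
    have hu0 := L.hu0 k hk0 hkm
    have hG := L.hG k k hk0 hkm hk0 hkm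
    rw [if_pos rfl, if_neg hkk] at hG
    have hD := L.hD k hk0 hkm
    have hs2 : ∑ i ∈ Finset.univ.erase i₀, u i k * u i k = 2 := by
      have h1 := Finset.add_sum_erase Finset.univ (fun i => u i k * u i k) (Finset.mem_univ i₀)
      have h2 : u i₀ k * u i₀ k + ∑ i ∈ Finset.univ.erase i₀, u i k * u i k
          = ∑ i, u i k * u i k := h1
      rw [hG, hu0] at h2
      linarith
    have hsd : ∑ i ∈ Finset.univ.erase i₀, u i k * (d i : ℤ) = 1 := by
      have h1 := Finset.add_sum_erase Finset.univ (fun i => u i k * (d i : ℤ))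
        (Finset.mem_univ i₀)
      have h2 : u i₀ k * (d i₀ : ℤ) + ∑ i ∈ Finset.univ.erase i₀, u i k * (d i : ℤ)
          = ∑ i, u i k * (d i : ℤ) := h1
      rw [hD, hu0, L.hd0] at h2
      push_cast at h2
      linarith
    obtain ⟨x, hx, hux, hs1⟩ :=
      pick_aux (Finset.univ.erase i₀) (fun i => u i k) 2 (by norm_num) le_rfl hs2
    obtain ⟨y, hy, huy, hs0⟩ :=
      pick_aux ((Finset.univ.erase i₀).erase x) (fun i => u i k) (2 - 1) (by norm_num)
        (by norm_num) hs1
    have hux' : u x k = 1 ∨ u x k = -1 := hux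
    have huy' : u y k = 1 ∨ u y k = -1 := huy
    have hzero : ∀ i ∈ ((Finset.univ.erase i₀).erase x).erase y, u i k = 0 := by
      intro i hi
      have h1 : ∑ i ∈ ((Finset.univ.erase i₀).erase x).erase y, u i k * u i k = 0 :=
        hs0.trans (by norm_num)
      have h2 := (Finset.sum_eq_zero_iff_of_nonneg
        (fun i _ => mul_self_nonneg (u i k))).1 h1 i hi
      exact mul_self_eq_zero.1 h2
    have hdeg : u x k * (d x : ℤ) + u y k * (d y : ℤ) = 1 := by
      have h1 := Finset.add_sum_erase (Finset.univ.erase i₀) (fun i => u i k * (d i : ℤ)) hx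
      have h2 := Finset.add_sum_erase ((Finset.univ.erase i₀).erase x)
        (fun i => u i k * (d i : ℤ)) hy
      have h3 : ∑ i ∈ ((Finset.univ.erase i₀).erase x).erase y, u i k * (d i : ℤ) = 0 :=
        Finset.sum_eq_zero (fun i hi => by rw [hzero i hi, zero_mul])
      have h1' : u x k * (d x : ℤ) + ∑ i ∈ (Finset.univ.erase i₀).erase x, u i k * (d i : ℤ)
          = ∑ i ∈ Finset.univ.erase i₀, u i k * (d i : ℤ) := h1
      have h2' : u y k * (d y : ℤ)
          + ∑ i ∈ ((Finset.univ.erase i₀).erase x).erase y, u i k * (d i : ℤ)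
          = ∑ i ∈ (Finset.univ.erase i₀).erase x, u i k * (d i : ℤ) := h2
      rw [h3] at h2'
      linarith
    have hdx : (1 : ℤ) ≤ (d x : ℤ) := by exact_mod_cast L.hd x
    have hdy : (1 : ℤ) ≤ (d y : ℤ) := by exact_mod_cast L.hd y
    have hxi : x ≠ i₀ := Finset.ne_of_mem_erase hx
    have hy' := Finset.mem_erase.1 hy
    have hyi : y ≠ i₀ := Finset.ne_of_mem_erase hy'.2
    have hother : ∀ i, i ≠ i₀ → i ≠ x → i ≠ y → u i k = 0 := by
      intro i hi0 hix hiy
      apply hzero
      rw [Finset.mem_erase, Finset.mem_erase, Finset.mem_erase]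
      exact ⟨hiy, hix, hi0, Finset.mem_univ i⟩
    rcases hux' with hux1 | hux1 <;> rcases huy' with huy1 | huy1
    · exfalso; rw [hux1, huy1] at hdeg; linarith
    · exact ⟨y, x, hyi, hxi, hy'.1, huy1, hux1, fun i hi0 hiy hix => hother i hi0 hix hiy⟩
    · exact ⟨x, y, hxi, hyi, fun hxy => hy'.1 hxy.symm, hux1, huy1, hother⟩
    · exfalso; rw [hux1, huy1] at hdeg; linarith
  · intro k hk0 hkm i
    have hk0' : 0 < m - k := by omega
    have hkm' : m - k < m := by omega
    have hsq : ∑ i, (u i k - u i (m - k)) * (u i k - u i (m - k)) = 0 := by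
      have h1 : ∑ i, (u i k - u i (m - k)) * (u i k - u i (m - k))
          = ∑ i, u i k * u i k + ∑ i, u i (m - k) * u i (m - k)
            - 2 * ∑ i, u i k * u i (m - k) := by
        rw [Finset.mul_sum, ← Finset.sum_add_distrib, ← Finset.sum_sub_distrib]
        apply Finset.sum_congr rfl
        intro i _
        ring
      rw [h1, L.hG k k hk0 hkm hk0 hkm, L.hG (m - k) (m - k) hk0' hkm' hk0' hkm',
        L.hG k (m - k) hk0 hkm hk0' hkm']
      split_ifs <;> omega
    have h2 := (Finset.sum_eq_zero_iff_of_nonneg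
      (fun i _ => mul_self_nonneg (u i k - u i (m - k)))).1 hsq i (Finset.mem_univ i)
    have h3 := mul_self_eq_zero.1 h2
    linarith

end Cfsg.Agent.H27.DihB
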