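import Mathlib
import Cfsg.Agent.H81.DihBDefs
import Cfsg.Agent.H24.DihBASIC
import Cfsg.Agent.H4.PSection

/-!
# helper27: S4481 piece NOZERO (`noZero : StmtNoZero`) for helper81
-/

set_option autoImplicit false

namespace Cfsg.Agent.H27.DihB

open Cfsg

universe u

/-- **S4481-NOZERO**: no character of the principal 2-block vanishes at the central involution -/
theorem noZero : Cfsg.Agent.H81.DihB.StmtNoZero.{u} := by
  intro G _ _ n P σ τ h M hM χ hχ h0
  have h1 : MemLocalIdeal M (centralChar (fun _ : G => (1 : ℂ)) (σ ^ (2 ^ (n - 2)))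
      - centralChar (χ : G → ℂ) (σ ^ (2 ^ (n - 2)))) := hχ (σ ^ (2 ^ (n - 2)))
  have h2 : centralChar (fun _ : G => (1 : ℂ)) (σ ^ (2 ^ (n - 2)))
      - centralChar (χ : G → ℂ) (σ ^ (2 ^ (n - 2)))
      = ((Subgroup.centralizer ({σ ^ (2 ^ (n - 2))} : Set G)).index : ℂ) := by
    unfold centralChar
    rw [h0]
    simp
  rw [h2] at h1
  have hle := Cfsg.Agent.H24.Dih.P_le h
  have hdvd : (Subgroup.centralizer ({σ ^ (2 ^ (n - 2))} : Set G)).index ∣
      (P : Subgroup G).index := Subgroup.index_dvd_of_le hle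
  have hnd : ¬ 2 ∣ (Subgroup.centralizer ({σ ^ (2 ^ (n - 2))} : Set G)).index := by
    have i2 : Fact (Nat.Prime 2) := ⟨Nat.prime_two⟩
    exact fun h3 => P.not_dvd_index (dvd_trans h3 hdvd)
  apply Cfsg.Agent.H4.not_memLocalIdeal_natCast hM _ hnd
  obtain ⟨a, b, ha, hb, hab⟩ := h1
  refine ⟨-a, b, M.neg_mem ha, hb, ?_⟩
  rw [← hab]
  push_cast
  ring

end Cfsg.Agent.H27.DihB
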