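import Mathlib
import Cfsg.Agent.H48.EpDefs

/-!
# EP-SIGN (S5974 team project, helper48)

If `x` is an isometry of the plus-type form with `x ^ r = z • 1` for an odd `r`, then `z * z = 1`
and `y = z • x` is an isometry with `y ^ r = 1`, the same invariant subspaces as `x`, and `y ≠ 1`
unless `x` is a scalar.
-/

set_option autoImplicit false

namespace Cfsg.Agent.H27.Ep

open Cfsg.Agent.H45 Cfsg.Agent.H42.Spd Cfsg.Agent.H42.Ti Cfsg.Agent.H48.Ep Module

universe u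

theorem sign_quad_smul {F : Type u} [Field F] (d : ℕ) (z : F) (v : Fin d ⊕ Fin d → F) :
    Cfsg.quadFormPlus d F (z • v) = z * z * Cfsg.quadFormPlus d F v := by
  unfold Cfsg.quadFormPlus
  simp only [Pi.smul_apply, smul_eq_mul]
  rw [Finset.mul_sum]
  refine Finset.sum_congr rfl fun i _ => ?_
  ring

theorem sign_quad_one {F : Type u} [Field F] (d : ℕ) (hd : 1 ≤ d) :
    ∃ v : Fin d ⊕ Fin d → F, Cfsg.quadFormPlus d F v = 1 := by
  classical
  refine ⟨fun s => if s = Sum.inl ⟨0, hd⟩ ∨ s = Sum.inr ⟨0, hd⟩ then 1 else 0, ?_⟩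
  unfold Cfsg.quadFormPlus
  rw [Finset.sum_eq_single (⟨0, hd⟩ : Fin d)]
  · simp
  · intro i _ hi
    simp [hi]
  · intro h
    exact absurd (Finset.mem_univ _) h

theorem sign : StSign.{u} := by
  intro F _ _ d x r z hd hr hx hxr
  classical
  -- `z * z = 1`
  have hzz : z * z = 1 := by
    have hxr' : x ^ r ∈ Cfsg.isometryGroup F (Cfsg.quadFormPlus d F) := pow_mem hx r
    rw [Cfsg.Agent.H49.mem_isometryGroup_iff] at hxr'
    obtain ⟨v, hv⟩ := sign_quad_one (F := F) d hd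
    have h1 := hxr' v
    rw [hxr, Matrix.smul_mulVec, Matrix.one_mulVec, sign_quad_smul, hv, mul_one] at h1
    exact h1
  -- the scalar unit
  have hmm : (z • (1 : Matrix (Fin d ⊕ Fin d) (Fin d ⊕ Fin d) F)) *
      (z • (1 : Matrix (Fin d ⊕ Fin d) (Fin d ⊕ Fin d) F)) = 1 := by
    rw [Matrix.smul_mul, Matrix.one_mul, smul_smul, hzz, one_smul]
  obtain ⟨zU, hzU⟩ : ∃ zU : Matrix.GeneralLinearGroup (Fin d ⊕ Fin d) F,
      (zU : Matrix (Fin d ⊕ Fin d) (Fin d ⊕ Fin d) F) = z • 1 := ⟨⟨z • 1, z • 1, hmm, hmm⟩, rfl⟩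
  have hzUiso : zU ∈ Cfsg.isometryGroup F (Cfsg.quadFormPlus d F) := by
    rw [Cfsg.Agent.H49.mem_isometryGroup_iff]
    intro v
    rw [hzU, Matrix.smul_mulVec, Matrix.one_mulVec, sign_quad_smul, hzz, one_mul]
  have hcomm : Commute x zU := by
    apply Units.ext
    rw [Units.val_mul, Units.val_mul, hzU, Matrix.mul_smul, Matrix.smul_mul, Matrix.mul_one,
      Matrix.one_mul]
  have hy : ((x * zU : Matrix.GeneralLinearGroup (Fin d ⊕ Fin d) F) :
      Matrix (Fin d ⊕ Fin d) (Fin d ⊕ Fin d) F) =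
      z • (x : Matrix (Fin d ⊕ Fin d) (Fin d ⊕ Fin d) F) := by
    rw [Units.val_mul, hzU, Matrix.mul_smul, Matrix.mul_one]
  have hxy : (x : Matrix (Fin d ⊕ Fin d) (Fin d ⊕ Fin d) F) =
      z • ((x * zU : Matrix.GeneralLinearGroup (Fin d ⊕ Fin d) F) :
        Matrix (Fin d ⊕ Fin d) (Fin d ⊕ Fin d) F) := by
    rw [hy, smul_smul, hzz, one_smul]
  refine ⟨x * zU, mul_mem hx hzUiso, ?_, ?_, ?_⟩
  · -- `y ^ r = 1`
    rw [hcomm.mul_pow]
    apply Units.ext
    rw [Units.val_mul, hxr, Units.val_pow_eq_pow_val, hzU, smul_pow, one_pow, Matrix.smul_mul,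
      Matrix.one_mul, smul_smul, Units.val_one]
    obtain ⟨k, hk⟩ := hr
    have : z * z ^ r = 1 := by
      rw [hk, ← pow_succ', show 2 * k + 1 + 1 = 2 * (k + 1) by ring, pow_mul, pow_two, hzz,
        one_pow]
    rw [this, one_smul]
  · -- invariant subspaces
    intro W hW
    rintro _ ⟨w, hw, rfl⟩
    have h1 : Matrix.toLin' ((x * zU : Matrix.GeneralLinearGroup (Fin d ⊕ Fin d) F) :
        Matrix (Fin d ⊕ Fin d) (Fin d ⊕ Fin d) F) w ∈ W := hW ⟨w, hw, rfl⟩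
    have h2 : Matrix.toLin' (x : Matrix (Fin d ⊕ Fin d) (Fin d ⊕ Fin d) F) w =
        z • Matrix.toLin' ((x * zU : Matrix.GeneralLinearGroup (Fin d ⊕ Fin d) F) :
          Matrix (Fin d ⊕ Fin d) (Fin d ⊕ Fin d) F) w := by
      conv_lhs => rw [hxy]
      rw [Matrix.toLin'_apply, Matrix.toLin'_apply, Matrix.smul_mulVec]
    rw [h2]
    exact W.smul_mem z h1
  · -- non-scalar
    intro hns hy1
    apply hns z
    rw [hxy, hy1, Units.val_one]

example : Cfsg.Agent.H48.Ep.StSign.{u} := sign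

end Cfsg.Agent.H27.Ep
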