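import Mathlib
import Cfsg.Agent.H48.EpDefs2
import Cfsg.Agent.H27.EpSign

/-!
# EP-TWOODD (S5974 team project, helper48)

`StTwo` in odd characteristic, assembled from `StTwoInv` (`x * x = 1`), `StTwoNeg`
(`x * x = -1`) and helper86's `Ev2` statements on isometries squaring to `-1`.
-/

set_option autoImplicit false

namespace Cfsg.Agent.H27.Ep

open Cfsg.Agent.H45 Cfsg.Agent.H42.Spd Cfsg.Agent.H42.Ti Cfsg.Agent.H48.Ep Module

universe u

theorem twoOdd_omega_le {F : Type u} [Field F] {ι : Type} [Fintype ι] [DecidableEq ι]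
    (Q : (ι → F) → F) : Cfsg.Geo.omegaGL Q ≤ Cfsg.isometryGroup F Q := by
  unfold Cfsg.Geo.omegaGL
  exact Subgroup.map_subtype_le _

/-- a scalar isometry of the plus space has `z * z = 1` -/
theorem twoOdd_scalar {F : Type u} [Field F] (d : ℕ) (hd : 1 ≤ d)
    (y : Matrix.GeneralLinearGroup (Fin d ⊕ Fin d) F)
    (hy : y ∈ Cfsg.isometryGroup F (Cfsg.quadFormPlus d F)) (z : F)
    (hz : (y : Matrix (Fin d ⊕ Fin d) (Fin d ⊕ Fin d) F) = z • 1) : z * z = 1 := by
  rw [Cfsg.Agent.H49.mem_isometryGroup_iff] at hy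
  obtain ⟨v, hv⟩ := sign_quad_one (F := F) d hd
  have h1 := hy v
  rw [hz, Matrix.smul_mulVec, Matrix.one_mulVec, sign_quad_smul, hv, mul_one] at h1
  exact h1

theorem twoOdd (h1 : StTwoInv.{u}) (h2 : StTwoNeg.{u}) (hNo : Cfsg.Agent.H86.Ev2.StNoPlus.{u})
    (hEx : Cfsg.Agent.H86.Ev2.StExJPlus.{u}) (hSpin : Cfsg.Agent.H86.Ev2.StJSpin.{u}) :
    StTwoOdd.{u} := by
  intro F _ _ d m h2F hd hm hme hmd
  classical
  unfold TwoBody
  have hchar : ringChar F ≠ 2 := by
    intro h
    apply h2F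
    have h0 := CharP.cast_eq_zero F (ringChar F)
    rw [h] at h0
    exact_mod_cast h0
  have hodd : Fintype.card F % 2 = 1 := FiniteField.odd_card_of_char_ne_two hchar
  constructor
  · -- (→), by contraposition
    intro hall
    by_contra hcon
    push Not at hcon
    obtain ⟨hd2, hm4, hq⟩ := hcon
    have hdev : Even d := by
      rcases Nat.even_or_odd d with h | h
      · exact h
      · exfalso
        obtain ⟨k, hk⟩ := h
        omega
    have hns : ¬ IsSquare (-1 : F) := by
      rw [FiniteField.isSquare_neg_one_iff]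
      omega
    obtain ⟨x, hxiso, hxx⟩ := hEx F d (Or.inl hdev)
    have hnd : ∀ x : Fin d ⊕ Fin d → F,
        (∀ y, QuadraticMap.polar ⇑(Cfsg.Agent.H49.QP d F) x y = 0) → x = 0 := by
      intro x hx
      exact (Cfsg.Agent.H49.QP_nondeg (m := d) (F := F)).1 x hx
    have hxO : x ∈ Cfsg.Geo.omegaGL (Cfsg.quadFormPlus d F) := by
      have h := (hSpin F (Fin d ⊕ Fin d) (Cfsg.Agent.H49.QP d F) h2F hnd x hxiso hxx).mpr (by
        obtain ⟨k, hk⟩ := hdev
        have hc : Fintype.card (Fin d ⊕ Fin d) / 2 = k + k := by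
          simp only [Fintype.card_sum, Fintype.card_fin]
          omega
        rw [hc]
        exact ⟨2 ^ k, pow_add _ _ _⟩)
      exact h
    have hxsq : ∃ z : F, ((x ^ 2 : Matrix.GeneralLinearGroup (Fin d ⊕ Fin d) F) :
        Matrix (Fin d ⊕ Fin d) (Fin d ⊕ Fin d) F) =
          z • (1 : Matrix (Fin d ⊕ Fin d) (Fin d ⊕ Fin d) F) := by
      refine ⟨-1, ?_⟩
      rw [pow_two, Units.val_mul, hxx, neg_smul, one_smul]
    have hxns : ∀ z : F, (x : Matrix (Fin d ⊕ Fin d) (Fin d ⊕ Fin d) F) ≠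
        z • (1 : Matrix (Fin d ⊕ Fin d) (Fin d ⊕ Fin d) F) := by
      intro z hz
      have hzz := twoOdd_scalar d (by omega) x hxiso z hz
      rw [hz, Matrix.smul_mul, Matrix.one_mul, smul_smul, hzz, one_smul] at hxx
      have h3 := congrFun (congrFun hxx (Sum.inl ⟨0, by omega⟩)) (Sum.inl ⟨0, by omega⟩)
      rw [Matrix.one_apply_eq, Matrix.neg_apply, Matrix.one_apply_eq] at h3
      apply h2F
      linear_combination h3
    have hfix := hall x hxO hxsq hxns
    rcases (h2 F d m h2F hm hme hmd x hxiso hxx).mp hfix with h | h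
    · exact hns h
    · exact hm4 h
  · -- (←)
    intro hcond x hxO hxsq hxns
    have hxiso : x ∈ Cfsg.isometryGroup F (Cfsg.quadFormPlus d F) := twoOdd_omega_le _ hxO
    obtain ⟨z, hz⟩ := hxsq
    have hzz : z * z = 1 := twoOdd_scalar d (by omega) (x ^ 2) (pow_mem hxiso 2) z hz
    rcases mul_self_eq_one_iff.mp hzz with hz1 | hz1
    · have hxx : (x : Matrix (Fin d ⊕ Fin d) (Fin d ⊕ Fin d) F) *
          (x : Matrix (Fin d ⊕ Fin d) (Fin d ⊕ Fin d) F) = 1 := by
        rw [← Units.val_mul, ← pow_two, hz, hz1, one_smul]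
      exact h1 F d m h2F hm hme hmd x hxiso hxx
    · have hxx : (x : Matrix (Fin d ⊕ Fin d) (Fin d ⊕ Fin d) F) *
          (x : Matrix (Fin d ⊕ Fin d) (Fin d ⊕ Fin d) F) = -1 := by
        rw [← Units.val_mul, ← pow_two, hz, hz1, neg_smul, one_smul]
      rw [h2 F d m h2F hm hme hmd x hxiso hxx]
      by_cases hs : IsSquare (-1 : F)
      · exact Or.inl hs
      · right
        rcases hcond with h | h | h
        · exfalso
          have hdodd : Odd d := by
            rcases Nat.even_or_odd d with h' | h'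
            · exfalso
              obtain ⟨k, hk⟩ := h'
              omega
            · exact h'
          exact hNo F d h2F hdodd hs x hxiso hxx
        · exact h
        · exfalso
          apply hs
          rw [FiniteField.isSquare_neg_one_iff]
          omega

example (h1 : StTwoInv.{u}) (h2 : StTwoNeg.{u}) (hNo : Cfsg.Agent.H86.Ev2.StNoPlus.{u})
    (hEx : Cfsg.Agent.H86.Ev2.StExJPlus.{u}) (hSpin : Cfsg.Agent.H86.Ev2.StJSpin.{u}) :
    Cfsg.Agent.H48.Ep.StTwoOdd.{u} := twoOdd h1 h2 hNo hEx hSpin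

end Cfsg.Agent.H27.Ep
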