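import Mathlib
import Cfsg.Agent.H86.Ev2Defs

/-!
# EV2-ISOGEN (helper86's shared sub-project EV2): over a finite field of odd characteristic, the
spans of two orthogonal families of `n` nonsingular vectors whose discriminants lie in the same
square class are isometric.
-/

set_option autoImplicit false

namespace Cfsg.Agent.H27.Ev2

open Cfsg.Agent.H45 Cfsg.Agent.H42.Spd Cfsg.Agent.H42.Ti Cfsg.Agent.H14.Ot Cfsg.Agent.H95.Oh
  Cfsg.Agent.H86.Ev2 Module Polynomial

universe u v

/-- Over a finite field of odd characteristic, `a₀ x² + a₁ y² = c` is solvable. -/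
theorem iso_quad_solve (L : Type u) [Field L] [Fintype L] (h2 : (2 : L) ≠ 0)
    (a₀ a₁ c : L) (ha₀ : a₀ ≠ 0) (ha₁ : a₁ ≠ 0) :
    ∃ x y : L, a₀ * x ^ 2 + a₁ * y ^ 2 = c := by
  classical
  have hchar : ringChar L ≠ 2 := by
    intro h
    apply h2
    have := ringChar.Nat.cast_ringChar (R := L)
    rw [h] at this
    exact_mod_cast this
  have hodd : Fintype.card L % 2 = 1 := FiniteField.odd_card_of_char_ne_two hchar
  have hf : (C a₀ * X ^ 2 : L[X]).degree = 2 := by
    rw [degree_C_mul_X_pow 2 ha₀]; rfl
  have hg : (C a₁ * X ^ 2 - C c : L[X]).degree = 2 := by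
    rw [degree_sub_eq_left_of_degree_lt, degree_C_mul_X_pow 2 ha₁]; rfl
    rw [degree_C_mul_X_pow 2 ha₁]
    exact lt_of_le_of_lt degree_C_le (by decide)
  obtain ⟨x, y, hxy⟩ := FiniteField.exists_root_sum_quadratic hf hg hodd
  refine ⟨x, y, ?_⟩
  simp only [eval_mul, eval_C, eval_pow, eval_X, eval_sub] at hxy
  linear_combination hxy

/-- Reshaping an orthogonal family `h, t 0, …, t (n-1)` with nonzero norms into one spanning the
same subspace, in which all the `t`-vectors have norm `c`; the discriminant changes by `c ^ n`. -/
theorem iso_reshape (L : Type u) [Field L] [Fintype L] (V : Type v) [AddCommGroup V]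
    [Module L V] (B : V →ₗ[L] V →ₗ[L] L) (h2 : (2 : L) ≠ 0)
    (hsym : ∀ u v, B u v = B v u) (c : L) (hc : c ≠ 0) :
    ∀ (n : ℕ) (h : V) (t : Fin n → V), B h h ≠ 0 → (∀ i, B (t i) (t i) ≠ 0) →
      (∀ i, B h (t i) = 0) → (∀ i j, i ≠ j → B (t i) (t j) = 0) →
      ∃ (h' : V) (t' : Fin n → V), B h' h' ≠ 0 ∧ (∀ i, B (t' i) (t' i) = c) ∧
        (∀ i, B h' (t' i) = 0) ∧ (∀ i j, i ≠ j → B (t' i) (t' j) = 0) ∧
        Submodule.span L {h'} ⊔ Submodule.span L (Set.range t') =
          Submodule.span L {h} ⊔ Submodule.span L (Set.range t) ∧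
        B h' h' = c ^ n * (B h h * ∏ i, B (t i) (t i)) := by
  intro n
  induction n with
  | zero =>
    intro h t hh _ _ _
    refine ⟨h, t, hh, fun i => i.elim0, fun i => i.elim0, fun i => i.elim0, rfl, ?_⟩
    simp
  | succ n ih =>
    intro h t hh ht hht htt
    obtain ⟨x, y, hxy⟩ := iso_quad_solve L h2 (B h h) (B (t 0) (t 0)) c hh (ht 0)
    obtain ⟨v, hv⟩ : ∃ v : V, v = x • h + y • t 0 := ⟨_, rfl⟩
    obtain ⟨v', hv'⟩ : ∃ v' : V, v' = (-(B (t 0) (t 0) * y)) • h + (B h h * x) • t 0 :=
      ⟨_, rfl⟩
    have hth : B (t 0) h = 0 := by rw [hsym]; exact hht 0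
    have hvv : B v v = c := by
      rw [hv]
      simp only [map_add, map_smul, LinearMap.add_apply, LinearMap.smul_apply, smul_eq_mul,
        hht 0, hth]
      linear_combination hxy
    have hvv' : B v v' = 0 := by
      rw [hv, hv']
      simp only [map_add, map_smul, LinearMap.add_apply, LinearMap.smul_apply, smul_eq_mul,
        hht 0, hth]
      ring
    have hv'v' : B v' v' = B h h * B (t 0) (t 0) * c := by
      rw [hv']
      simp only [map_add, map_smul, LinearMap.add_apply, LinearMap.smul_apply, smul_eq_mul,
        hht 0, hth]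
      linear_combination (B h h * B (t 0) (t 0)) * hxy
    have hv'ne : B v' v' ≠ 0 := by
      rw [hv'v']; exact mul_ne_zero (mul_ne_zero hh (ht 0)) hc
    have hvt : ∀ j : Fin n, B v (t j.succ) = 0 := by
      intro j
      rw [hv]
      simp only [map_add, map_smul, LinearMap.add_apply, LinearMap.smul_apply, smul_eq_mul]
      rw [hht j.succ, htt 0 j.succ (Fin.succ_ne_zero j).symm]; ring
    have hv't : ∀ j : Fin n, B v' (t j.succ) = 0 := by
      intro j
      rw [hv']
      simp only [map_add, map_smul, LinearMap.add_apply, LinearMap.smul_apply, smul_eq_mul]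
      rw [hht j.succ, htt 0 j.succ (Fin.succ_ne_zero j).symm]; ring
    obtain ⟨h'', t'', hh'', ht'', hh''t'', ht''t'', hspan, hprod⟩ :=
      ih v' (fun j => t j.succ) hv'ne (fun j => ht j.succ) hv't
        (fun i j hij => htt i.succ j.succ (fun hh => hij (Fin.succ_injective _ hh)))
    have hker : Submodule.span L {h''} ⊔ Submodule.span L (Set.range t'') ≤
        LinearMap.ker (B v) := by
      rw [hspan]
      refine sup_le ?_ ?_
      · rw [Submodule.span_le]
        intro z hz
        rw [Set.mem_singleton_iff] at hz
        rw [hz]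
        exact hvv'
      · rw [Submodule.span_le]
        rintro z ⟨j, rfl⟩
        exact hvt j
    have hvh'' : B v h'' = 0 :=
      hker (Submodule.mem_sup_left (Submodule.subset_span (Set.mem_singleton _)))
    have hvt'' : ∀ j, B v (t'' j) = 0 := fun j =>
      hker (Submodule.mem_sup_right (Submodule.subset_span ⟨j, rfl⟩))
    refine ⟨h'', Fin.cons v t'', hh'', ?_, ?_, ?_, ?_, ?_⟩
    · intro i
      induction i using Fin.cases with
      | zero => simpa using hvv
      | succ j => simpa using ht'' j
    · intro i
      induction i using Fin.cases with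
      | zero => simp only [Fin.cons_zero]; rw [hsym]; exact hvh''
      | succ j => simpa using hh''t'' j
    · intro i j hij
      induction i using Fin.cases with
      | zero =>
        induction j using Fin.cases with
        | zero => exact absurd rfl hij
        | succ j => simpa using hvt'' j
      | succ i =>
        induction j using Fin.cases with
        | zero => simp only [Fin.cons_zero, Fin.cons_succ]; rw [hsym]; exact hvt'' i
        | succ j =>
          simp only [Fin.cons_succ]
          exact ht''t'' i j (fun hh => hij (by rw [hh]))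
    · have hch : c • h = (B h h * x) • v - y • v' := by
        rw [← hxy, hv, hv']; module
      have hct : c • t 0 = (B (t 0) (t 0) * y) • v + x • v' := by
        rw [← hxy, hv, hv']; module
      have hhe : h = c⁻¹ • ((B h h * x) • v - y • v') := by
        rw [← hch, inv_smul_smul₀ hc]
      have hte : t 0 = c⁻¹ • ((B (t 0) (t 0) * y) • v + x • v') := by
        rw [← hct, inv_smul_smul₀ hc]
      obtain ⟨W, hW⟩ : ∃ W, W = Submodule.span L {h} ⊔ Submodule.span L (Set.range t) :=
        ⟨_, rfl⟩
      obtain ⟨W', hW'⟩ : ∃ W', W' = Submodule.span L {h''} ⊔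
          Submodule.span L (Set.range (Fin.cons v t'' : Fin (n + 1) → V)) := ⟨_, rfl⟩
      rw [← hW, ← hW']
      have hhW : h ∈ W := by
        rw [hW]; exact Submodule.mem_sup_left (Submodule.subset_span (Set.mem_singleton _))
      have htW : ∀ i, t i ∈ W := by
        intro i
        rw [hW]; exact Submodule.mem_sup_right (Submodule.subset_span ⟨i, rfl⟩)
      have hvW : v ∈ W := by
        rw [hv]; exact W.add_mem (W.smul_mem _ hhW) (W.smul_mem _ (htW 0))
      have hv'W : v' ∈ W := by
        rw [hv']; exact W.add_mem (W.smul_mem _ hhW) (W.smul_mem _ (htW 0))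
      have hh''W' : h'' ∈ W' := by
        rw [hW']; exact Submodule.mem_sup_left (Submodule.subset_span (Set.mem_singleton _))
      have hcW' : ∀ i, (Fin.cons v t'' : Fin (n + 1) → V) i ∈ W' := by
        intro i
        rw [hW']; exact Submodule.mem_sup_right (Submodule.subset_span ⟨i, rfl⟩)
      have hvW' : v ∈ W' := by simpa using hcW' 0
      have ht''W' : ∀ j, t'' j ∈ W' := by
        intro j; simpa using hcW' j.succ
      have hS1 : Submodule.span L {h''} ⊔ Submodule.span L (Set.range t'') ≤ W' := by
        refine sup_le ?_ ?_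
        · rw [Submodule.span_le]
          intro z hz
          rw [Set.mem_singleton_iff] at hz
          rw [hz]; exact hh''W'
        · rw [Submodule.span_le]
          rintro z ⟨j, rfl⟩
          exact ht''W' j
      have hS2 : Submodule.span L {v'} ⊔
          Submodule.span L (Set.range fun j : Fin n => t j.succ) ≤ W := by
        refine sup_le ?_ ?_
        · rw [Submodule.span_le]
          intro z hz
          rw [Set.mem_singleton_iff] at hz
          rw [hz]; exact hv'W
        · rw [Submodule.span_le]
          rintro z ⟨j, rfl⟩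
          exact htW j.succ
      have hv'W' : v' ∈ W' := by
        apply hS1
        rw [hspan]
        exact Submodule.mem_sup_left (Submodule.subset_span (Set.mem_singleton _))
      have htsW' : ∀ j : Fin n, t j.succ ∈ W' := by
        intro j
        apply hS1
        rw [hspan]
        exact Submodule.mem_sup_right (Submodule.subset_span ⟨j, rfl⟩)
      have hh''W : h'' ∈ W := by
        apply hS2
        rw [← hspan]
        exact Submodule.mem_sup_left (Submodule.subset_span (Set.mem_singleton _))
      have ht''W : ∀ j, t'' j ∈ W := by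
        intro j
        apply hS2
        rw [← hspan]
        exact Submodule.mem_sup_right (Submodule.subset_span ⟨j, rfl⟩)
      apply le_antisymm
      · rw [hW']
        refine sup_le ?_ ?_
        · rw [Submodule.span_le]
          intro z hz
          rw [Set.mem_singleton_iff] at hz
          rw [hz]; exact hh''W
        · rw [Submodule.span_le]
          rintro z ⟨i, rfl⟩
          induction i using Fin.cases with
          | zero => simpa using hvW
          | succ j => simpa using ht''W j
      · rw [hW]
        refine sup_le ?_ ?_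
        · rw [Submodule.span_le]
          intro z hz
          rw [Set.mem_singleton_iff] at hz
          rw [hz, hhe]
          exact W'.smul_mem _ (W'.sub_mem (W'.smul_mem _ hvW') (W'.smul_mem _ hv'W'))
        · rw [Submodule.span_le]
          rintro z ⟨i, rfl⟩
          induction i using Fin.cases with
          | zero =>
            show t 0 ∈ W'
            rw [hte]
            exact W'.smul_mem _ (W'.add_mem (W'.smul_mem _ hvW') (W'.smul_mem _ hv'W'))
          | succ j => exact htsW' j
    · rw [hprod, hv'v', Fin.prod_univ_succ]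
      ring

/-- Linear independence of an orthogonal family of nonsingular vectors. -/
theorem iso_linIndep (L : Type u) [Field L] (V : Type v) [AddCommGroup V] [Module L V]
    (B : V →ₗ[L] V →ₗ[L] L) (n : ℕ) (u : Fin n → V)
    (horth : ∀ i j, i ≠ j → B (u i) (u j) = 0) (hne : ∀ i, B (u i) (u i) ≠ 0) :
    LinearIndependent L u := by
  classical
  rw [Fintype.linearIndependent_iff]
  intro g hg j
  have h1 : B (∑ i, g i • u i) (u j) = 0 := by rw [hg]; simp
  rw [map_sum, LinearMap.sum_apply] at h1
  rw [Finset.sum_eq_single j] at h1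
  · simp only [map_smul, LinearMap.smul_apply, smul_eq_mul] at h1
    rcases mul_eq_zero.mp h1 with h | h
    · exact h
    · exact absurd h (hne j)
  · intro i _ hij
    simp only [map_smul, LinearMap.smul_apply, smul_eq_mul]
    rw [horth i j hij, mul_zero]
  · intro h; exact absurd (Finset.mem_univ j) h

/-- Expansion of the form on an orthogonal family. -/
theorem iso_expand (L : Type u) [Field L] (V : Type v) [AddCommGroup V] [Module L V]
    (B : V →ₗ[L] V →ₗ[L] L) (n : ℕ) (u : Fin n → V)
    (horth : ∀ i j, i ≠ j → B (u i) (u j) = 0) (r s : Fin n → L) :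
    B (∑ i, r i • u i) (∑ i, s i • u i) = ∑ l, B (u l) (u l) * r l * s l := by
  classical
  rw [map_sum]
  refine Finset.sum_congr rfl ?_
  intro l _
  rw [map_sum, LinearMap.sum_apply]
  rw [Finset.sum_eq_single l]
  · simp only [map_smul, LinearMap.smul_apply, smul_eq_mul]
    ring
  · intro i _ hil
    simp only [map_smul, LinearMap.smul_apply, smul_eq_mul]
    rw [horth i l hil]; ring
  · intro h; exact absurd (Finset.mem_univ l) h

/-- Two orthogonal families with the same nonzero norms span isometric subspaces. -/
theorem iso_of_families (L : Type u) [Field L] (V : Type v) [AddCommGroup V] [Module L V]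
    (B : V →ₗ[L] V →ₗ[L] L) (n : ℕ) (u u' : Fin n → V)
    (horth : ∀ i j, i ≠ j → B (u i) (u j) = 0) (hne : ∀ i, B (u i) (u i) ≠ 0)
    (horth' : ∀ i j, i ≠ j → B (u' i) (u' j) = 0)
    (hnorm : ∀ i, B (u' i) (u' i) = B (u i) (u i))
    (S S' : Submodule L V) (hS : Submodule.span L (Set.range u) = S)
    (hS' : Submodule.span L (Set.range u') = S') :
    ∃ e : ↥S ≃ₗ[L] ↥S', ∀ x y, B (e x : V) (e y : V) = B (x : V) (y : V) := by
  classical
  subst hS
  subst hS'
  have hli := iso_linIndep L V B n u horth hne
  have hli' := iso_linIndep L V B n u' horth' (fun i => by rw [hnorm i]; exact hne i)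
  obtain ⟨b, hb⟩ : ∃ b : Module.Basis (Fin n) L ↥(Submodule.span L (Set.range u)),
      ∀ i, (b i : V) = u i := ⟨Module.Basis.span hli,
      fun i => congrArg Subtype.val (Module.Basis.span_apply hli i)⟩
  obtain ⟨b', hb'⟩ : ∃ b' : Module.Basis (Fin n) L ↥(Submodule.span L (Set.range u')),
      ∀ i, (b' i : V) = u' i :=
    ⟨Module.Basis.span hli', fun i => congrArg Subtype.val (Module.Basis.span_apply hli' i)⟩
  refine ⟨b.equiv b' (Equiv.refl _), ?_⟩
  have hx : ∀ x : ↥(Submodule.span L (Set.range u)),
      (x : V) = ∑ i, b.repr x i • u i := by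
    intro x
    have h1 := congrArg (fun z : ↥(Submodule.span L (Set.range u)) => (z : V)) (b.sum_repr x)
    simp only [Submodule.coe_sum, Submodule.coe_smul, hb] at h1
    exact h1.symm
  have hex : ∀ x : ↥(Submodule.span L (Set.range u)),
      ((b.equiv b' (Equiv.refl _) x : ↥(Submodule.span L (Set.range u'))) : V) =
        ∑ i, b.repr x i • u' i := by
    intro x
    have h1 : b.equiv b' (Equiv.refl _) x = ∑ i, b.repr x i • b' i := by
      calc b.equiv b' (Equiv.refl _) x
          = b.equiv b' (Equiv.refl _) (∑ i, b.repr x i • b i) := by rw [b.sum_repr x]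
        _ = ∑ i, b.repr x i • b' i := by
          rw [map_sum]
          refine Finset.sum_congr rfl ?_
          intro i _
          rw [map_smul, Module.Basis.equiv_apply, Equiv.refl_apply]
    rw [h1]
    simp only [Submodule.coe_sum, Submodule.coe_smul, hb']
  intro x y
  have e1 : B ((b.equiv b' (Equiv.refl _) x : ↥(Submodule.span L (Set.range u'))) : V)
      ((b.equiv b' (Equiv.refl _) y : ↥(Submodule.span L (Set.range u'))) : V) =
      ∑ l, B (u' l) (u' l) * b.repr x l * b.repr y l := by
    rw [hex x, hex y]; exact iso_expand L V B n u' horth' _ _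
  have e2 : B (x : V) (y : V) = ∑ l, B (u l) (u l) * b.repr x l * b.repr y l := by
    have h3 := iso_expand L V B n u horth (b.repr x) (b.repr y)
    rw [← hx x, ← hx y] at h3
    exact h3
  rw [e1, e2]
  exact Finset.sum_congr rfl (fun l _ => by rw [hnorm l])

/-- **EV2-ISOGEN**. -/
theorem isoGen : StIsoGen.{u, v} := by
  intro F _ _ V _ _ _ B h2 hsym n w w' hw hw' hsq
  classical
  obtain ⟨horth, hne⟩ := hw
  obtain ⟨horth', hne'⟩ := hw'
  cases n with
  | zero =>
    have hww : w = w' := Subsingleton.elim _ _
    subst hww
    exact ⟨LinearEquiv.refl _ _, fun x y => rfl⟩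
  | succ k =>
    obtain ⟨s, hs⟩ := hsq
    obtain ⟨h₁, t₁, hh₁, ht₁, hh₁t₁, ht₁t₁, hsp₁, hprod₁⟩ :=
      iso_reshape F V B h2 hsym 1 one_ne_zero k (w 0) (fun j => w j.succ) (hne 0)
        (fun j => hne j.succ) (fun j => horth 0 j.succ (Fin.succ_ne_zero j).symm)
        (fun i j hij => horth i.succ j.succ (fun hh => hij (Fin.succ_injective _ hh)))
    obtain ⟨h₂, t₂, hh₂, ht₂, hh₂t₂, ht₂t₂, hsp₂, hprod₂⟩ :=
      iso_reshape F V B h2 hsym 1 one_ne_zero k (w' 0) (fun j => w' j.succ) (hne' 0)
        (fun j => hne' j.succ) (fun j => horth' 0 j.succ (Fin.succ_ne_zero j).symm)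
        (fun i j hij => horth' i.succ j.succ (fun hh => hij (Fin.succ_injective _ hh)))
    rw [one_pow, one_mul, ← Fin.prod_univ_succ (fun a => B (w a) (w a))] at hprod₁
    rw [one_pow, one_mul, ← Fin.prod_univ_succ (fun a => B (w' a) (w' a))] at hprod₂
    rw [← hprod₁, ← hprod₂] at hs
    have hs0 : s ≠ 0 := by
      intro h0
      rw [h0, mul_zero] at hs
      exact (mul_ne_zero hh₁ hh₂) hs
    obtain ⟨ρ, hρ⟩ : ∃ ρ : F, ρ = B h₁ h₁ / s := ⟨_, rfl⟩
    have hρ0 : ρ ≠ 0 := by rw [hρ]; exact div_ne_zero hh₁ hs0
    have hρn : B (ρ • h₂) (ρ • h₂) = B h₁ h₁ := by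
      simp only [map_smul, LinearMap.smul_apply, smul_eq_mul]
      rw [hρ]
      field_simp
      linear_combination hs
    apply iso_of_families F V B (k + 1) (Fin.cons h₁ t₁) (Fin.cons (ρ • h₂) t₂)
    · intro i j hij
      induction i using Fin.cases with
      | zero =>
        induction j using Fin.cases with
        | zero => exact absurd rfl hij
        | succ j => simpa using hh₁t₁ j
      | succ i =>
        induction j using Fin.cases with
        | zero => simp only [Fin.cons_zero, Fin.cons_succ]; rw [hsym]; exact hh₁t₁ i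
        | succ j =>
          simp only [Fin.cons_succ]
          exact ht₁t₁ i j (fun hh => hij (by rw [hh]))
    · intro i
      induction i using Fin.cases with
      | zero => simpa using hh₁
      | succ j => simp only [Fin.cons_succ]; rw [ht₁ j]; exact one_ne_zero
    · intro i j hij
      induction i using Fin.cases with
      | zero =>
        induction j using Fin.cases with
        | zero => exact absurd rfl hij
        | succ j =>
          simp only [Fin.cons_zero, Fin.cons_succ, map_smul, LinearMap.smul_apply, smul_eq_mul]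
          rw [hh₂t₂ j, mul_zero]
      | succ i =>
        induction j using Fin.cases with
        | zero =>
          simp only [Fin.cons_zero, Fin.cons_succ, map_smul, smul_eq_mul]
          rw [hsym, hh₂t₂ i, mul_zero]
        | succ j =>
          simp only [Fin.cons_succ]
          exact ht₂t₂ i j (fun hh => hij (by rw [hh]))
    · intro i
      induction i using Fin.cases with
      | zero => simp only [Fin.cons_zero]; exact hρn
      | succ j => simp only [Fin.cons_succ]; rw [ht₁ j, ht₂ j]
    · rw [Fin.range_cons, Submodule.span_insert, hsp₁, ← Submodule.span_insert,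
        ← Fin.range_cons]
      congr 2
      exact Fin.cons_self_tail w
    · rw [Fin.range_cons, Submodule.span_insert,
        Submodule.span_singleton_smul_eq (IsUnit.mk0 ρ hρ0), hsp₂, ← Submodule.span_insert,
        ← Fin.range_cons]
      congr 2
      exact Fin.cons_self_tail w'

example : Cfsg.Agent.H86.Ev2.StIsoGen.{u, v} := isoGen

end Cfsg.Agent.H27.Ev2
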