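import Cfsg.Agent.H66.Fpf4

/-!
# S3793-P8: the `O_{r',r}` frame for a fixed-point-free automorphism of order `p^(n+1)`

`fg_frame`: if the "linear core" statement `hcore` holds, then `g⁻¹ σ^{p^n}(g) ∈ O_{r',r}(G)` for
every `g`.  Near-copy of `H66.fpf4_quot_pCore_comm` / `H66.fpf4_commutator_le`.
-/

set_option autoImplicit false
set_option linter.style.haveILetI false
set_option linter.unusedVariables false
set_option linter.unusedSectionVars false

namespace Cfsg.Agent.H27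

open Cfsg
open scoped commutatorElement

universe u

theorem fg_pow_congr {G : Type*} [Group G] (N : Subgroup G) [N.Normal] (σ : MulAut G)
    (φ : MulAut (G ⧸ N))
    (hφ : ∀ g, φ (QuotientGroup.mk' N g) = QuotientGroup.mk' N (σ g)) (k : ℕ) (g : G) :
    (φ ^ k) (QuotientGroup.mk' N g) = QuotientGroup.mk' N ((σ ^ k) g) := by
  induction k generalizing g with
  | zero => simp
  | succ k ih => rw [pow_succ, pow_succ, MulAut.mul_apply, MulAut.mul_apply, hφ, ih]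

/-- A group with a fixed-point-free automorphism of `p`-power order has order prime to `p`. -/
theorem fg_not_dvd_card {G : Type*} [Group G] [Finite G] {p : ℕ} (hp : p.Prime) (m : ℕ)
    (σ : MulAut G) (hσ : σ ^ p ^ m = 1) (hfpf : ∀ g, σ g = g → g = 1) : ¬ p ∣ Nat.card G := by
  haveI : Fact p.Prime := ⟨hp⟩
  have hPG : IsPGroup p (Subgroup.zpowers σ) := by
    rintro ⟨x, hx⟩
    obtain ⟨k, rfl⟩ := Subgroup.mem_zpowers_iff.mp hx
    refine ⟨m, Subtype.ext ?_⟩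
    show (σ ^ k) ^ p ^ m = 1
    rw [← zpow_natCast, ← zpow_mul, mul_comm, zpow_mul, zpow_natCast, hσ, one_zpow]
  have h := hPG.card_modEq_card_fixedPoints G
  have h1 : Nat.card (MulAction.fixedPoints (Subgroup.zpowers σ) G) = 1 := by
    rw [Nat.card_eq_one_iff_unique]
    refine ⟨⟨?_⟩, ⟨⟨1, fun g => smul_one g⟩⟩⟩
    rintro ⟨a, ha⟩ ⟨b, hb⟩
    have ha1 : σ a = a := ha ⟨σ, Subgroup.mem_zpowers σ⟩
    have hb1 : σ b = b := hb ⟨σ, Subgroup.mem_zpowers σ⟩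
    apply Subtype.ext
    show a = b
    rw [hfpf a ha1, hfpf b hb1]
  rw [h1] at h
  intro hdvd
  rw [Nat.ModEq, Nat.mod_eq_zero_of_dvd hdvd, Nat.mod_eq_of_lt hp.one_lt] at h
  exact absurd h (by norm_num)

set_option maxHeartbeats 1600000 in
theorem fg_frame_core {Γ : Type u} [Group Γ] [Finite Γ] [Group.IsSolvable Γ] {p : ℕ}
    (hpp : p.Prime) (n : ℕ) (φ : MulAut Γ) (hφpow : φ ^ p ^ (n + 1) = 1)
    (hφfix : ∀ g, φ g = g → g = 1) (r : ℕ) [Fact r.Prime] (hO : pPrimeCore r Γ = ⊥)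
    (hcore : ∀ (H : Type u) [Group H] [Finite H] (V : Type u) [AddCommGroup V]
       [Module (ZMod r) V] [Finite V],
       Group.IsSolvable H → ∀ (θ : H →* Module.End (ZMod r) V), Function.Injective θ →
       ∀ (τ : MulAut H), τ ^ p ^ (n + 1) = 1 → (∀ h, τ h = h → h = 1) →
       ∀ (S : Module.End (ZMod r) V), S ^ p ^ (n + 1) = 1 → (∀ v, S v = v → v = 0) →
       (∀ h v, S (θ h v) = θ (τ h) (S v)) →
       ∀ (M : Subgroup H), (∀ x ∈ M, τ x ∈ M) → (Nat.card M).Coprime r →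
       ∀ x ∈ M, (τ ^ p ^ n) x = x) :
    ∀ g : Γ, g⁻¹ * (φ ^ p ^ n) g ∈ pCore r Γ := by
  classical
  have hr : r.Prime := Fact.out
  have hsol : IsPSolvable r Γ := H80.isPSolvable_of_isSolvable r (Nat.card Γ) Γ rfl
  obtain ⟨P₁, hP₁⟩ : ∃ P₁ : Subgroup Γ, P₁ = pCore r Γ := ⟨_, rfl⟩
  rw [← hP₁]
  haveI hP₁n : P₁.Normal := by rw [hP₁]; infer_instance
  have hP₁p : IsPGroup r P₁ := by rw [hP₁]; exact H14.pCore_isPGroup r Γ
  have hP₁char : P₁.Characteristic := by rw [hP₁]; exact H11.pCore_characteristic r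
  have hφP : ∀ x, x ∈ P₁ ↔ φ x ∈ P₁ := by
    intro x
    have h2 : x ∈ P₁.comap φ.toMonoidHom ↔ x ∈ P₁ := by rw [hP₁char.fixed φ]
    exact ⟨fun hx => h2.mpr hx, fun hx => h2.mp hx⟩
  obtain ⟨Φ, hΦ⟩ : ∃ Φ : Subgroup Γ, Φ = (frattini ↥P₁).map P₁.subtype := ⟨_, rfl⟩
  haveI hΦn : Φ.Normal := by
    rw [hΦ]
    apply Subgroup.normalizer_eq_top_iff.mp
    rw [eq_top_iff]
    refine le_trans ?_ (H1.normalizer_le_normalizer_map_of_characteristic P₁ (frattini ↥P₁))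
    rw [Subgroup.normalizer_eq_top_iff.mpr hP₁n]
  obtain ⟨ψ, hψ⟩ : ∃ ψ : ↥P₁ ≃* ↥P₁, ∀ y : ↥P₁, ((ψ y : ↥P₁) : Γ) = φ y := by
    refine ⟨{ toFun := fun y => ⟨φ y, (hφP y).mp y.2⟩
              invFun := fun y => ⟨φ.symm y,
                (hφP _).mpr (by rw [MulEquiv.apply_symm_apply]; exact y.2)⟩
              left_inv := fun y => Subtype.ext (by simp)
              right_inv := fun y => Subtype.ext (by simp)
              map_mul' := fun y z => Subtype.ext (by simp) }, fun y => rfl⟩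
  have hΦφ : ∀ x ∈ Φ, φ x ∈ Φ := by
    intro x hx
    rw [hΦ] at hx ⊢
    obtain ⟨y, hy, rfl⟩ := hx
    refine ⟨ψ y, ?_, hψ y⟩
    have h2 : y ∈ (frattini ↥P₁).comap ψ.toMonoidHom ↔ y ∈ frattini ↥P₁ := by
      rw [(frattini_characteristic (G := ↥P₁)).fixed ψ]
    exact h2.mpr hy
  obtain ⟨V, iV1, iV2, θ, ι, hθinj, hιsurj, hιmul, hιzpow, hιconj, hιeq, hVp⟩ :=
    H66.exists_faithful_zmod_rep hsol hO P₁ hP₁ Φ hΦ
  haveI hVfin : Finite V := Finite.of_surjective ι (fun v => by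
    obtain ⟨u, _, h⟩ := hιsurj v
    exact ⟨u, h⟩)
  have hι1 : ι 1 = 0 := by
    have := hιzpow 1 P₁.one_mem 0
    rwa [zpow_zero, zero_smul] at this
  have hmapP : P₁.map (φ : Γ →* Γ) = P₁ := by
    apply le_antisymm
    · rintro _ ⟨x, hx, rfl⟩; exact (hφP x).mp hx
    · intro x hx
      refine ⟨φ.symm x, (hφP _).mpr (by rw [MulEquiv.apply_symm_apply]; exact hx), ?_⟩
      exact MulEquiv.apply_symm_apply φ x
  obtain ⟨σ, hσ⟩ : ∃ σ : MulAut (Γ ⧸ P₁),
      ∀ g, σ (QuotientGroup.mk' P₁ g) = QuotientGroup.mk' P₁ (φ g) :=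
    ⟨QuotientGroup.congr P₁ P₁ φ hmapP, fun g => rfl⟩
  have hσk : ∀ k g, (σ ^ k) (QuotientGroup.mk' P₁ g) = QuotientGroup.mk' P₁ ((φ ^ k) g) :=
    fun k g => fg_pow_congr P₁ φ σ hσ k g
  have hσpow : σ ^ p ^ (n + 1) = 1 := by
    apply MulEquiv.ext
    intro h
    obtain ⟨g, rfl⟩ := QuotientGroup.mk'_surjective P₁ h
    rw [hσk, hφpow]; rfl
  have hσfix : ∀ h, σ h = h → h = 1 := by
    intro h hh
    obtain ⟨g, rfl⟩ := QuotientGroup.mk'_surjective P₁ h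
    rw [hσ] at hh
    have h1 : (φ g)⁻¹ * g ∈ P₁ := QuotientGroup.eq.mp hh
    have h2 : g⁻¹ * φ g ∈ P₁ := by
      have := P₁.inv_mem h1
      rwa [mul_inv_rev, inv_inv] at this
    have h3 := H66.fpf_quotient φ P₁ (fun x hx => (hφP x).mp hx) hφfix g h2
    exact (QuotientGroup.eq_one_iff g).mpr h3
  have hιwd : ∀ u ∈ P₁, ∀ u' ∈ P₁, ι u = ι u' → ι (φ u) = ι (φ u') := by
    intro u hu u' hu' h
    rw [hιeq _ ((hφP u).mp hu) _ ((hφP u').mp hu')]
    have h1 := (hιeq u hu u' hu').mp h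
    have h2 : u⁻¹ * u' ∈ Φ := QuotientGroup.eq.mp h1
    have h3 := hΦφ _ h2
    rw [map_mul, map_inv] at h3
    exact QuotientGroup.eq.mpr h3
  obtain ⟨S₀, hS₀⟩ : ∃ S₀ : V → V, ∀ u ∈ P₁, S₀ (ι u) = ι (φ u) := by
    refine ⟨fun v => ι (φ (Classical.choose (hιsurj v))), ?_⟩
    intro u hu
    have h1 := Classical.choose_spec (hιsurj (ι u))
    exact hιwd _ h1.1 _ hu h1.2
  have hS₀add : ∀ v w, S₀ (v + w) = S₀ v + S₀ w := by
    intro v w
    obtain ⟨u, hu, rfl⟩ := hιsurj v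
    obtain ⟨u', hu', rfl⟩ := hιsurj w
    rw [← hιmul u hu u' hu', hS₀ _ (P₁.mul_mem hu hu'), hS₀ u hu, hS₀ u' hu', map_mul,
      hιmul _ ((hφP u).mp hu) _ ((hφP u').mp hu')]
  obtain ⟨S, hS⟩ : ∃ S : Module.End (ZMod r) V, ∀ v, S v = S₀ v :=
    ⟨(AddMonoidHom.mk' S₀ hS₀add).toZModLinearMap r, fun v => rfl⟩
  have hSι : ∀ u ∈ P₁, S (ι u) = ι (φ u) := fun u hu => by rw [hS, hS₀ u hu]
  have hSk : ∀ k : ℕ, ∀ u ∈ P₁, (S ^ k) (ι u) = ι ((φ ^ k) u) := by
    intro k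
    induction k with
    | zero => intro u hu; simp
    | succ k ih =>
      intro u hu
      rw [pow_succ, Module.End.mul_apply, hSι u hu, ih _ ((hφP u).mp hu), pow_succ,
        MulAut.mul_apply]
  have hSpow : S ^ p ^ (n + 1) = 1 := by
    apply LinearMap.ext
    intro v
    obtain ⟨u, hu, rfl⟩ := hιsurj v
    rw [hSk _ u hu, hφpow]; rfl
  have hSfix : ∀ v, S v = v → v = 0 := by
    intro v hv
    obtain ⟨u, hu, rfl⟩ := hιsurj v
    rw [hSι u hu] at hv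
    have h1 := (hιeq _ ((hφP u).mp hu) u hu).mp hv
    have h2 : (φ u)⁻¹ * u ∈ Φ := QuotientGroup.eq.mp h1
    have h3 : u⁻¹ * φ u ∈ Φ := by
      have := Φ.inv_mem h2
      rwa [mul_inv_rev, inv_inv] at this
    have h4 := H66.fpf_quotient φ Φ hΦφ hφfix u h3
    rw [← hι1]
    apply (hιeq u hu 1 P₁.one_mem).mpr
    rw [map_one]
    exact (QuotientGroup.eq_one_iff u).mpr h4
  have hSθ : ∀ h v, S (θ h v) = θ (σ h) (S v) := by
    intro h v
    obtain ⟨g, rfl⟩ := QuotientGroup.mk'_surjective P₁ h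
    obtain ⟨u, hu, rfl⟩ := hιsurj v
    rw [hιconj g u hu, hSι _ (hP₁n.conj_mem u hu g), hσ, hSι u hu,
      hιconj _ _ ((hφP u).mp hu), map_mul, map_mul, map_inv]
  have hsolH' : Group.IsSolvable (Γ ⧸ P₁) := inferInstance
  have hsolH : IsPSolvable r (Γ ⧸ P₁) := H80.isPSolvable_quotient r P₁ hsol
  have hOpH : pCore r (Γ ⧸ P₁) = ⊥ := by
    subst hP₁
    exact H66.pCore_quotient_pCore_bot r
  obtain ⟨M, hM⟩ : ∃ M : Subgroup (Γ ⧸ P₁), M = pPrimeCore r (Γ ⧸ P₁) := ⟨_, rfl⟩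
  haveI hMn : M.Normal := by rw [hM]; infer_instance
  have hMchar : M.Characteristic := by rw [hM]; exact H11.pPrimeCore_characteristic r
  have hMσ : ∀ x ∈ M, σ x ∈ M := by
    intro x hx
    have h2 : x ∈ M.comap σ.toMonoidHom ↔ x ∈ M := by rw [hMchar.fixed σ]
    exact h2.mpr hx
  have hMp : (Nat.card M).Coprime r := by rw [hM]; exact H14.pPrimeCore_coprime r _
  have hτM := hcore (Γ ⧸ P₁) V hsolH' θ hθinj σ hσpow hσfix S hSpow hSfix hSθ M hMσ hMp
  have hcent : Subgroup.centralizer (M : Set (Γ ⧸ P₁)) ≤ M := by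
    rw [hM]; exact H66.centralizer_pPrimeCore_le r hsolH hOpH
  have hpH : ¬ p ∣ Nat.card (Γ ⧸ P₁) := fg_not_dvd_card hpp (n + 1) σ hσpow hσfix
  have hβH : ∀ h : Γ ⧸ P₁, (σ ^ p ^ n) h = h := by
    intro h
    obtain ⟨β, hβ⟩ : ∃ β : MulAut (Γ ⧸ P₁), β = σ ^ p ^ n := ⟨_, rfl⟩
    rw [← hβ] at hτM ⊢
    have hβp : β ^ p = 1 := by rw [hβ, ← pow_mul, ← pow_succ]; exact hσpow
    have h1 : h⁻¹ * β h ∈ Subgroup.centralizer (M : Set (Γ ⧸ P₁)) := by
      rw [Subgroup.mem_centralizer_iff]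
      intro m hm
      have h2 : h * m * h⁻¹ ∈ M := hMn.conj_mem m hm h
      have h3 := hτM _ h2
      simp only [map_mul, map_inv] at h3
      rw [hτM m hm] at h3
      calc m * (h⁻¹ * β h) = h⁻¹ * (h * m * h⁻¹) * β h := by group
        _ = h⁻¹ * (β h * m * (β h)⁻¹) * β h := by rw [h3]
        _ = h⁻¹ * β h * m := by group
    have h4 := hτM _ (hcent h1)
    obtain ⟨c, hc⟩ : ∃ c : Γ ⧸ P₁, c = h⁻¹ * β h := ⟨_, rfl⟩
    rw [← hc] at h4
    have hβh : β h = h * c := by rw [hc]; group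
    have hβic : ∀ i : ℕ, (β ^ i) c = c := by
      intro i
      induction i with
      | zero => simp
      | succ i ih => rw [pow_succ, MulAut.mul_apply, h4, ih]
    have h5 : ∀ i : ℕ, (β ^ i) h = h * c ^ i := by
      intro i
      induction i with
      | zero => simp
      | succ i ih =>
        rw [pow_succ, MulAut.mul_apply, hβh, map_mul, ih, hβic, pow_succ, mul_assoc]
    have h6 := h5 p
    rw [hβp] at h6
    have h7 : c ^ p = 1 := by
      have h8 : h * 1 = h * c ^ p := by rw [mul_one]; exact h6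
      exact (mul_left_cancel h8).symm
    have h9 : orderOf c ∣ p := orderOf_dvd_of_pow_eq_one h7
    have h10 : orderOf c ∣ Nat.card (Γ ⧸ P₁) := orderOf_dvd_natCard c
    have h11 : c = 1 := by
      rcases (Nat.dvd_prime hpp).mp h9 with h | h
      · exact orderOf_eq_one_iff.mp h
      · rw [h] at h10; exact absurd h10 hpH
    rw [hβh, h11, mul_one]
  intro g
  apply (QuotientGroup.eq_one_iff (N := P₁) _).mp
  show QuotientGroup.mk' P₁ (g⁻¹ * (φ ^ p ^ n) g) = 1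
  rw [map_mul, map_inv, ← hσk, hβH, inv_mul_cancel]

/-- **S3793-P8**: the `O_{r',r}` frame. -/
theorem fg_frame {G : Type u} [Group G] [Finite G] [Group.IsSolvable G] {p : ℕ} (hp : p.Prime)
    (n : ℕ) (σ : MulAut G) (hσ : σ ^ p ^ (n + 1) = 1) (hfpf : ∀ g, σ g = g → g = 1)
    (r : ℕ) [Fact r.Prime] (hrp : r ≠ p)
    (hcore : ∀ (H : Type u) [Group H] [Finite H] (V : Type u) [AddCommGroup V]
       [Module (ZMod r) V] [Finite V],
       Group.IsSolvable H → ∀ (θ : H →* Module.End (ZMod r) V), Function.Injective θ →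
       ∀ (τ : MulAut H), τ ^ p ^ (n + 1) = 1 → (∀ h, τ h = h → h = 1) →
       ∀ (S : Module.End (ZMod r) V), S ^ p ^ (n + 1) = 1 → (∀ v, S v = v → v = 0) →
       (∀ h v, S (θ h v) = θ (τ h) (S v)) →
       ∀ (M : Subgroup H), (∀ x ∈ M, τ x ∈ M) → (Nat.card M).Coprime r →
       ∀ x ∈ M, (τ ^ p ^ n) x = x) :
    ∀ g : G, g⁻¹ * (σ ^ p ^ n) g ∈ pPrimePCore r G := by
  have hNchar : (pPrimeCore r G).Characteristic := H11.pPrimeCore_characteristic r
  have hσN : ∀ x, x ∈ pPrimeCore r G ↔ σ x ∈ pPrimeCore r G := by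
    intro x
    have h2 : x ∈ (pPrimeCore r G).comap σ.toMonoidHom ↔ x ∈ pPrimeCore r G := by
      rw [hNchar.fixed σ]
    exact ⟨fun hx => h2.mpr hx, fun hx => h2.mp hx⟩
  have hmap : (pPrimeCore r G).map (σ : G →* G) = pPrimeCore r G := by
    apply le_antisymm
    · rintro _ ⟨x, hx, rfl⟩; exact (hσN x).mp hx
    · intro x hx
      refine ⟨σ.symm x, (hσN _).mpr (by rw [MulEquiv.apply_symm_apply]; exact hx), ?_⟩
      exact MulEquiv.apply_symm_apply σ x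
  obtain ⟨φ, hφ⟩ : ∃ φ : MulAut (G ⧸ pPrimeCore r G),
      ∀ g, φ (QuotientGroup.mk' (pPrimeCore r G) g) = QuotientGroup.mk' (pPrimeCore r G) (σ g) :=
    ⟨QuotientGroup.congr (pPrimeCore r G) (pPrimeCore r G) σ hmap, fun g => rfl⟩
  have hφk : ∀ k g, (φ ^ k) (QuotientGroup.mk' (pPrimeCore r G) g) =
      QuotientGroup.mk' (pPrimeCore r G) ((σ ^ k) g) :=
    fun k g => fg_pow_congr (pPrimeCore r G) σ φ hφ k g
  have hφpow : φ ^ p ^ (n + 1) = 1 := by
    apply MulEquiv.ext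
    intro h
    obtain ⟨g, rfl⟩ := QuotientGroup.mk'_surjective (pPrimeCore r G) h
    rw [hφk, hσ]; rfl
  have hφfix : ∀ h, φ h = h → h = 1 := by
    intro h hh
    obtain ⟨g, rfl⟩ := QuotientGroup.mk'_surjective (pPrimeCore r G) h
    rw [hφ] at hh
    have h1 : (σ g)⁻¹ * g ∈ pPrimeCore r G := QuotientGroup.eq.mp hh
    have h2 : g⁻¹ * σ g ∈ pPrimeCore r G := by
      have := (pPrimeCore r G).inv_mem h1
      rwa [mul_inv_rev, inv_inv] at this
    have h3 := H66.fpf_quotient σ (pPrimeCore r G) (fun x hx => (hσN x).mp hx) hfpf g h2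
    exact (QuotientGroup.eq_one_iff g).mpr h3
  have key := fg_frame_core hp n φ hφpow hφfix r (H14.pPrimeCore_quotient_eq_bot r G) hcore
  intro g
  show QuotientGroup.mk' (pPrimeCore r G) (g⁻¹ * (σ ^ p ^ n) g) ∈ pCore r (G ⧸ pPrimeCore r G)
  rw [map_mul, map_inv, ← hφk]
  exact key _

end Cfsg.Agent.H27
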