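import Cfsg.Agent.H64.JyDefs
import Cfsg.Agent.S2948
import Cfsg.Agent.S2949
import Cfsg.Agent.S2950
import Cfsg.Agent.H46.JzNSE
import Cfsg.Agent.H91.JzMaxS

/-!
# JY-SETUP2 (S2953 team project, helper64)

For `T = S` and `N_G(J(S)) ≤ L`: `L ∈ ℒ(S)` (S2948), a maximal straddling `T' ≤ S` for the base `L`
(NSE and MAXS), a `J(T')`-component `K'` outside `L` (S2949) and a maximal 2-local `L'` over it (S2950).
-/

set_option autoImplicit false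
open Cfsg

namespace Cfsg.Agent.H27.Jy

open Cfsg.Agent.H64.Jz Cfsg.Agent.H64.Jy

universe u

theorem setup2_of (hNSE : StNSE.{u}) (hMax : StMaxS.{u}) : StSetup2.{u} := by
  intro G _ _ S M K L hB hLJ
  have hB' := hB
  obtain ⟨hZN, hO, hM, hMJ, hS, -, hK, hLmax, hKJ⟩ := hB'
  have hZN' := hZN
  obtain ⟨hL, hN, hZ⟩ := hZN'
  have hK' := hK
  obtain ⟨⟨hKc, -⟩, hKM, -⟩ := hK'
  -- facts on `J(S)`
  have hJS : thompsonSubgroupOf 2 (S : Subgroup G) ≤ (S : Subgroup G) := by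
    unfold Cfsg.thompsonSubgroupOf
    exact Subgroup.map_subtype_le _
  -- `S` is a Sylow 2-subgroup of `L`, and `L ∈ ℒ(S)`
  obtain ⟨L₀, -, -, huniq, -, hSyl₀⟩ :=
    Cfsg.Agent.S2950.result hL hN hZ hO S M hM hMJ (S : Subgroup G) hS K hK
  have hLL₀ : L = L₀ := huniq L hLmax hKJ
  have hSyl : IsSylowTwoIn (S : Subgroup G) L := by
    rw [hLL₀]
    exact hSyl₀
  have hSL : (S : Subgroup G) ≤ L := hSyl.1
  have hLM : ¬ L ≤ M := fun h => hKM ((le_sup_left.trans hKJ).trans h)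
  have hLov : L ∈ jOvergroups (S : Subgroup G) :=
    (Cfsg.Agent.S2948.result hL hN hZ hO S M hM hMJ (S : Subgroup G) hS L hLmax.1 hLM
      (S : Subgroup G) hSyl hJS).2.2.1
  -- the maximal straddling subgroup for the base `L`
  obtain ⟨T₁, hT₁⟩ := hNSE hZN hO S L hLmax.1 hLJ hLov
  obtain ⟨T', hT', hT'S⟩ := hMax S L hSL ⟨T₁, hT₁⟩
  obtain ⟨K', hK'⟩ := Cfsg.Agent.S2949.result hL hN hZ hO S L hLmax.1 hLJ T' hT'
  obtain ⟨L', hL', hK'J, -⟩ :=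
    Cfsg.Agent.S2950.result hL hN hZ hO S L hLmax.1 hLJ T' hT' K' hK'
  refine ⟨T', K', L', ?_⟩
  unfold Base
  exact ⟨hZN, hO, hLmax.1, hLJ, hT', hT'S, hK', hL', hK'J⟩

/-- JY-SETUP2, hypothesis-free. -/
theorem setup2 : StSetup2.{u} := setup2_of Cfsg.Agent.H46.Jz.nse Cfsg.Agent.H91.Jz.maxS

example : Cfsg.Agent.H64.Jy.StSetup2.{u} := setup2

end Cfsg.Agent.H27.Jy

#print axioms Cfsg.Agent.H27.Jy.setup2
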