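import Cfsg.Agent.H64.JzDefs
import Cfsg.Agent.S2948
import Cfsg.Agent.S2949
import Cfsg.Agent.S2950

/-!
# JZ-SETUP (S2951 / S2952 team project, helper64)

The residual situation exists: `N_G(J(S)) ≤ L`, `L ∈ ℒ(S)`, a maximal straddling `T' < S` for the base `L`
(from NSE and MAXS), a `J(T')`-component `K'` outside `L` (S2949) and a maximal 2-local `L'` over it (S2950).
-/

set_option autoImplicit false
open Cfsg

namespace Cfsg.Agent.H27.Jz

open Cfsg.Agent.H64.Jz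

universe u

theorem setup (hNSE : StNSE.{u}) (hMax : StMaxS.{u}) : StSetup.{u} := by
  intro G _ _ S M K L hB hX
  have hB' := hB
  obtain ⟨hZN, hO, hM, hMJ, hS, -, hK, hLmax, hKJ⟩ := hB'
  have hZN' := hZN
  obtain ⟨hL, hN, hZ⟩ := hZN'
  have hK' := hK
  obtain ⟨⟨hKc, -⟩, hKM, -⟩ := hK'
  -- facts on `J(S)`
  have hJS : thompsonSubgroupOf 2 (S : Subgroup G) ≤ (S : Subgroup G) := by
    unfold Cfsg.thompsonSubgroupOf
    exact Subgroup.map_subtype_le _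
  have hJne : thompsonSubgroupOf 2 (S : Subgroup G) ≠ ⊥ := by
    intro h
    obtain ⟨-, hc, hi, -⟩ := hKc
    rw [h, Subgroup.commutator_bot_right] at hc
    rw [← hc, Subgroup.relIndex_bot_right] at hi
    omega
  have hJp : IsPGroup 2 ↥(thompsonSubgroupOf 2 (S : Subgroup G)) := S.isPGroup'.to_le hJS
  have hLJ : Subgroup.normalizer (thompsonSubgroupOf 2 (S : Subgroup G) : Set G) ≤ L :=
    hX _ ⟨_, hJp, hJne, rfl⟩ Subgroup.le_normalizer
  -- `S` is a Sylow 2-subgroup of `L`, and `L ∈ ℒ(S)`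
  obtain ⟨L₀, -, -, huniq, -, hSyl₀⟩ :=
    Cfsg.Agent.S2950.result hL hN hZ hO S M hM hMJ (S : Subgroup G) hS K hK
  have hLL₀ : L = L₀ := huniq L hLmax hKJ
  have hSyl : IsSylowTwoIn (S : Subgroup G) L := by
    rw [hLL₀]
    exact hSyl₀
  have hSL : (S : Subgroup G) ≤ L := hSyl.1
  have hLM : ¬ L ≤ M := fun h => hKM ((le_sup_left.trans hKJ).trans h)
  have hLov : L ∈ jOvergroups (S : Subgroup G) :=
    (Cfsg.Agent.S2948.result hL hN hZ hO S M hM hMJ (S : Subgroup G) hS L hLmax.1 hLM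
      (S : Subgroup G) hSyl hJS).2.2.1
  -- the maximal straddling subgroup for the base `L`
  obtain ⟨T₁, hT₁⟩ := hNSE hZN hO S L hLmax.1 hLJ hLov
  obtain ⟨T', hT', hT'S⟩ := hMax S L hSL ⟨T₁, hT₁⟩
  have hT'ne : T' ≠ (S : Subgroup G) := by
    intro h
    obtain ⟨-, -, -, X, hX1, hX2, hX3⟩ := hT'.1
    rw [h] at hX2
    exact hX3 (hX X hX1 (hJS.trans hX2))
  obtain ⟨K', hK'⟩ := Cfsg.Agent.S2949.result hL hN hZ hO S L hLmax.1 hLJ T' hT'
  obtain ⟨L', hL', hK'J, -⟩ :=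
    Cfsg.Agent.S2950.result hL hN hZ hO S L hLmax.1 hLJ T' hT' K' hK'
  have hB2 : Base S L T' K' L' := by
    unfold Base
    exact ⟨hZN, hO, hLmax.1, hLJ, hT', hT'S, hK', hL', hK'J⟩
  refine ⟨T', K', L', ?_⟩
  unfold RCtx
  exact ⟨hB, hX, hB2, hT'ne⟩

example (hNSE : Cfsg.Agent.H64.Jz.StNSE.{u}) (hMax : Cfsg.Agent.H64.Jz.StMaxS.{u}) :
    Cfsg.Agent.H64.Jz.StSetup.{u} := setup hNSE hMax

end Cfsg.Agent.H27.Jz
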