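import Mathlib
import Cfsg.Agent.H46.OutGDefs

/-!
# OG-CNT2 (S2121 / S2122 team project, helper46)

A subgroup `T` of `S` with exactly one further coset has half the order of `S`.
-/

set_option autoImplicit false

namespace Cfsg.Agent.H27.OutG

open Cfsg.Lie Cfsg.Agent.H23 Cfsg.Agent.H23.Stb Cfsg.Agent.H46.OutE Cfsg.Agent.H46.OutG

universe u

theorem cnt2 : StCnt2.{u} := by
  intro A _ S T γ hTS hγS hγT hall
  have hkey : ∀ b : A, b ∈ T → b * γ⁻¹ ∈ T → False := by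
    intro b hb hb'
    apply hγT
    have e : γ = (b * γ⁻¹)⁻¹ * b := by group
    rw [e]
    exact T.mul_mem (T.inv_mem hb') hb
  have hidx : (T.subgroupOf S).index = 2 := by
    rw [Subgroup.index_eq_two_iff]
    refine ⟨(⟨γ, hγS⟩ : ↥S)⁻¹, fun b => ?_⟩
    have hb := hall b.1 b.2
    have e1 : (b * (⟨γ, hγS⟩ : ↥S)⁻¹ ∈ T.subgroupOf S) ↔ (b : A) * γ⁻¹ ∈ T := by
      rw [Subgroup.mem_subgroupOf]
      rfl
    have e2 : (b ∈ T.subgroupOf S) ↔ (b : A) ∈ T := Subgroup.mem_subgroupOf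
    rw [e1, e2]
    rcases hb with h | h
    · exact Or.inr ⟨h, fun h' => hkey _ h h'⟩
    · by_cases hbT : (b : A) ∈ T
      · exact Or.inr ⟨hbT, fun h' => hkey _ hbT h'⟩
      · exact Or.inl ⟨h, hbT⟩
  have h1 := Subgroup.card_mul_index (T.subgroupOf S)
  rw [hidx] at h1
  have h2 : Nat.card ↥(T.subgroupOf S) = Nat.card ↥T :=
    Nat.card_congr (Subgroup.subgroupOfEquivOfLe hTS).toEquiv
  rw [h2] at h1
  omega

example : Cfsg.Agent.H46.OutG.StCnt2.{u} := cnt2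

end Cfsg.Agent.H27.OutG
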