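import Mathlib
import Cfsg.Agent.H46.OutGDefs

/-!
# OG-FLIP (S2121 / S2122 team project, helper46)

If `θ` and `γ` both map the root subgroup of every `±α_i` onto that of `±α_{sig i}`, for an
involution `sig` of the nodes, then `θ * γ⁻¹` maps every one of them onto itself.
-/

set_option autoImplicit false

namespace Cfsg.Agent.H27.OutG

open Cfsg.Lie Cfsg.Agent.H23 Cfsg.Agent.H23.Stb Cfsg.Agent.H46.OutE Cfsg.Agent.H46.OutG

universe u

section

variable {D : ChevalleyDatum} {F : Type u} [Field F] {z : ℕ → ℕ → ℤ}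

/-- the inverse of an automorphism mapping `X_r` onto `X_{r'}` maps `X_{r'}` onto `X_r` -/
theorem flip_rootTo_inv (hS : Sem D F z) (γ : MulAut ↥(D.group F)) (r r' : ℕ)
    (h : RootTo hS γ r r') : RootTo hS γ⁻¹ r' r := by
  obtain ⟨h1, h2⟩ := h
  constructor
  · intro t'
    obtain ⟨t, ht⟩ := h2 t'
    refine ⟨t, ?_⟩
    rw [← ht]
    exact MulAut.inv_apply_self _ _ _
  · intro t
    obtain ⟨t', ht'⟩ := h1 t
    refine ⟨t', ?_⟩
    rw [← ht']
    exact MulAut.inv_apply_self _ _ _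

/-- composition of automorphisms mapping root subgroups onto root subgroups -/
theorem flip_rootTo_mul (hS : Sem D F z) (θ γ : MulAut ↥(D.group F)) (r r' r'' : ℕ)
    (hγ : RootTo hS γ r r') (hθ : RootTo hS θ r' r'') : RootTo hS (θ * γ) r r'' := by
  obtain ⟨g1, g2⟩ := hγ
  obtain ⟨t1, t2⟩ := hθ
  constructor
  · intro t
    obtain ⟨t', ht'⟩ := g1 t
    obtain ⟨t'', ht''⟩ := t1 t'
    refine ⟨t'', ?_⟩
    show θ (γ (xG hS r t)) = _
    rw [ht', ht'']
  · intro t''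
    obtain ⟨t', ht'⟩ := t2 t''
    obtain ⟨t, ht⟩ := g2 t'
    refine ⟨t, ?_⟩
    show θ (γ (xG hS r t)) = _
    rw [ht, ht']

end

theorem flip : StFlip.{u} := by
  intro D F _ z hS θ γ sig hsig hinv hθ hγ i hi
  have hsi : sig i < D.rank := hsig i hi
  have hγ' := hγ (sig i) hsi
  rw [hinv i hi] at hγ'
  have hθ' := hθ (sig i) hsi
  rw [hinv i hi] at hθ'
  exact ⟨flip_rootTo_mul hS θ γ⁻¹ _ _ _ (flip_rootTo_inv hS γ _ _ hγ'.1) hθ'.1,
    flip_rootTo_mul hS θ γ⁻¹ _ _ _ (flip_rootTo_inv hS γ _ _ hγ'.2) hθ'.2⟩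

example : Cfsg.Agent.H46.OutG.StFlip.{u} := flip

end Cfsg.Agent.H27.OutG
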