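import Cfsg.Agent.H27.OSGraph2Core
import Cfsg.Agent.H23.Gens

/-!
# OS-GRAPH2 (S2159 team project, helper46)

With at most one non-trivial diagram symmetry, the graph automorphisms are `1` and at most one more, `a`,
whose square is a field automorphism.
-/

set_option autoImplicit false

namespace Cfsg.Agent.H27.OS

open Cfsg Cfsg.Lie Cfsg.Agent.H46.OS

universe u

theorem graph2 (h : StFEx.{u}) : StGraph2.{u} := by
  intro F _ _ D hD hsym
  obtain ⟨z, η, w, rT, par, dep, hP⟩ := Cfsg.Agent.H23.packF_all (F := F) D hD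
  have hS := hP.packB.sem
  have hN := hP.packB.semN
  have hT := hP.packB.tab
  exact graph2_core D (fun a b hab => Cfsg.Agent.H23.hom_ext_fund hS hN hT a b hab) hT.simple_lt
    hT.neg_lt (h F D hD) hsym

example (h : Cfsg.Agent.H46.OS.StFEx.{u}) : Cfsg.Agent.H46.OS.StGraph2.{u} := graph2 h

end Cfsg.Agent.H27.OS
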