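import Cfsg.Agent.H46.OSDefs

/-!
# OS-GRAPH2, core (S2159 team project, helper46)

Generic in the datum: given that homomorphisms agreeing on the fundamental root elements are equal and that
field automorphisms exist, a diagram with at most one non-trivial symmetry has at most one non-trivial
graph automorphism, and its square is a field automorphism.
-/

set_option autoImplicit false

namespace Cfsg.Agent.H27.OS

open Cfsg Cfsg.Lie Cfsg.Agent.H46.OS
open scoped MatrixGroups

universe u

/-- `g` acts on the fundamental root elements as a graph automorphism with diagram symmetry `π` -/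
def GraphAct (D : ChevalleyDatum) (F : Type u) [Field F] (π : Equiv.Perm (Fin D.rank))
    (g : MulAut ↥(D.group F)) : Prop :=
  ∀ (y : ↥(D.group F)) (i : Fin D.rank) (t : F),
    (((y : GL D.Idx F) : Matrix D.Idx D.Idx F) = D.x F (D.simple i) t →
      ((g y : GL D.Idx F) : Matrix D.Idx D.Idx F) =
        D.x F (D.simple (π i)) (t ^ D.graphExp (ringChar F) i (π i))) ∧
    (((y : GL D.Idx F) : Matrix D.Idx D.Idx F) = D.x F (D.neg (D.simple i)) t →
      ((g y : GL D.Idx F) : Matrix D.Idx D.Idx F) =
        D.x F (D.neg (D.simple (π i))) (t ^ D.graphExp (ringChar F) i (π i)))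

theorem graphExp_self (D : ChevalleyDatum) (c i : ℕ) : D.graphExp c i i = 1 := by
  unfold ChevalleyDatum.graphExp
  simp

theorem graphAct_one (D : ChevalleyDatum) (F : Type u) [Field F] :
    GraphAct D F 1 (1 : MulAut ↥(D.group F)) := by
  intro y i t
  have e : D.graphExp (ringChar F) i ((1 : Equiv.Perm (Fin D.rank)) i) = 1 := graphExp_self D _ _
  rw [e, pow_one]
  exact ⟨fun h => h, fun h => h⟩

theorem graph2_core {F : Type u} [Field F] [Finite F] (D : ChevalleyDatum)
    (hgen : ∀ a b : ↥(D.group F) →* ↥(D.group F),
      (∀ (g : ↥(D.group F)) (i : ℕ) (t : F), i < D.rank →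
        (((g : GL D.Idx F) : Matrix D.Idx D.Idx F) = D.x F (D.simple i) t ∨
          ((g : GL D.Idx F) : Matrix D.Idx D.Idx F) = D.x F (D.neg (D.simple i)) t) → a g = b g) →
      a = b)
    (hlt : ∀ i < D.rank, D.simple i < D.nroots) (hneg : ∀ r < D.nroots, D.neg r < D.nroots)
    (hfex : ∀ σ : F ≃+* F, ∃ f : MulAut ↥(D.group F), ∀ (g : ↥(D.group F)) (r : ℕ) (t : F),
      r < D.nroots → ((g : GL D.Idx F) : Matrix D.Idx D.Idx F) = D.x F r t →
      ((f g : GL D.Idx F) : Matrix D.Idx D.Idx F) = D.x F r (σ t))
    (hsym : StSym2 D) :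
    ∃ a : MulAut ↥(D.group F), D.IsFieldAut (a * a) ∧
      ∀ g : MulAut ↥(D.group F), D.IsGraphAut g → g = 1 ∨ g = a := by
  obtain ⟨π0, hπ0, huniq, hexp⟩ := hsym
  have hext : ∀ (π : Equiv.Perm (Fin D.rank)) (g g' : MulAut ↥(D.group F)),
      GraphAct D F π g → GraphAct D F π g' → g = g' := by
    intro π g g' hg hg'
    have key : g.toMonoidHom = g'.toMonoidHom := by
      apply hgen
      intro y i t hi hy
      apply Subtype.ext
      apply Units.ext
      rcases hy with hy | hy
      · exact ((hg y ⟨i, hi⟩ t).1 hy).trans ((hg' y ⟨i, hi⟩ t).1 hy).symm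
      · exact ((hg y ⟨i, hi⟩ t).2 hy).trans ((hg' y ⟨i, hi⟩ t).2 hy).symm
    apply MulEquiv.ext
    intro y
    exact DFunLike.congr_fun key y
  have hone : ∀ g : MulAut ↥(D.group F), GraphAct D F 1 g → g = 1 :=
    fun g hg => hext 1 g 1 hg (graphAct_one D F)
  have hfid : D.IsFieldAut (1 : MulAut ↥(D.group F)) :=
    ⟨RingEquiv.refl F, fun g r t _ hg => hg⟩
  by_cases hex : ∃ a : MulAut ↥(D.group F), GraphAct D F π0 a
  · obtain ⟨a, ha⟩ := hex
    refine ⟨a, ?_, ?_⟩
    · have haa : ∀ (y : ↥(D.group F)) (i : Fin D.rank) (t : F),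
          (((y : GL D.Idx F) : Matrix D.Idx D.Idx F) = D.x F (D.simple i) t →
            (((a * a) y : GL D.Idx F) : Matrix D.Idx D.Idx F) = D.x F (D.simple i)
              (t ^ (D.graphExp (ringChar F) i (π0 i) * D.graphExp (ringChar F) (π0 i) i))) ∧
          (((y : GL D.Idx F) : Matrix D.Idx D.Idx F) = D.x F (D.neg (D.simple i)) t →
            (((a * a) y : GL D.Idx F) : Matrix D.Idx D.Idx F) = D.x F (D.neg (D.simple i))
              (t ^ (D.graphExp (ringChar F) i (π0 i) * D.graphExp (ringChar F) (π0 i) i))) := by
        intro y i t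
        have hπi : π0 (π0 i) = i := by
          rw [← Equiv.Perm.mul_apply, hπ0, Equiv.Perm.one_apply]
        constructor
        · intro hy
          have h1 := (ha y i t).1 hy
          have h2 := (ha (a y) (π0 i) _).1 h1
          rw [hπi] at h2
          rw [pow_mul]
          exact h2
        · intro hy
          have h1 := (ha y i t).2 hy
          have h2 := (ha (a y) (π0 i) _).2 h1
          rw [hπi] at h2
          rw [pow_mul]
          exact h2
      rcases hexp with he | he
      · have e1 : a * a = 1 := by
          apply hone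
          intro y i t
          have e : D.graphExp (ringChar F) i ((1 : Equiv.Perm (Fin D.rank)) i) = 1 :=
            graphExp_self D _ _
          rw [e, pow_one]
          have h := haa y i t
          rw [he (ringChar F) i, pow_one] at h
          exact h
        rw [e1]
        exact hfid
      · have hp : (ringChar F).Prime := CharP.char_is_prime F (ringChar F)
        have : Fact (ringChar F).Prime := ⟨hp⟩
        obtain ⟨f, hf⟩ := hfex (frobeniusEquiv F (ringChar F))
        have e1 : a * a = f := by
          have key : (a * a).toMonoidHom = f.toMonoidHom := by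
            apply hgen
            intro y i t hi hy
            apply Subtype.ext
            apply Units.ext
            rcases hy with hy | hy
            · have h := (haa y ⟨i, hi⟩ t).1 hy
              rw [he (ringChar F) ⟨i, hi⟩] at h
              exact h.trans (hf y _ t (hlt i hi) hy).symm
            · have h := (haa y ⟨i, hi⟩ t).2 hy
              rw [he (ringChar F) ⟨i, hi⟩] at h
              exact h.trans (hf y _ t (hneg _ (hlt i hi)) hy).symm
          apply MulEquiv.ext
          intro y
          exact DFunLike.congr_fun key y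
        rw [e1]
        exact ⟨frobeniusEquiv F (ringChar F), hf⟩
    · intro g hg
      obtain ⟨π, hπ, hgπ⟩ := hg
      rcases huniq π hπ with h1 | h1
      · left
        rw [h1] at hgπ
        exact hone g hgπ
      · right
        rw [h1] at hgπ
        exact hext _ g a hgπ ha
  · refine ⟨1, ?_, ?_⟩
    · rw [mul_one]
      exact hfid
    · intro g hg
      obtain ⟨π, hπ, hgπ⟩ := hg
      rcases huniq π hπ with h1 | h1
      · left
        rw [h1] at hgπ
        exact hone g hgπ
      · rw [h1] at hgπ
        exact absurd ⟨g, hgπ⟩ hex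

end Cfsg.Agent.H27.OS
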