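import Cfsg.Agent.H46.OSDefs

/-!
# OS-SYM (S2159 team project, helper46)

The diagram symmetries of the types `G₂`, `B₂`, `F₄`, `E₆`, `E₇`, `E₈`: at most one non-trivial symmetry, an
involution; the product of the two exponents of a graph automorphism is constant.
The symmetries are found by a certified pruned search over the images of the nodes, run by the kernel.
-/

set_option autoImplicit false

namespace Cfsg.Agent.H27.OS

open Cfsg Cfsg.Lie Cfsg.Agent.H46.OS

/-- the involution of `Fin n` given by a list -/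
def listPerm (n : ℕ) (L : List ℕ) (h : ∀ i < n, L.getD i 0 < n ∧ L.getD (L.getD i 0) 0 = i) :
    Equiv.Perm (Fin n) where
  toFun i := ⟨L.getD i 0, (h i i.isLt).1⟩
  invFun i := ⟨L.getD i 0, (h i i.isLt).1⟩
  left_inv i := Fin.ext (h i i.isLt).2
  right_inv i := Fin.ext (h i i.isLt).2

/-- constraints between the value `v` of node `k` and the values `acc` of the earlier nodes (latest first) -/
def okNew (b : ℕ → ℕ → ℤ) (v k : ℕ) : List ℕ → Bool
  | [] => true
  | a :: acc => (v != a) && (b v a == b k acc.length) && okNew b v k acc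

/-- pruned search over the images of the nodes -/
def search (b : ℕ → ℕ → ℤ) (n : ℕ) (good : List ℕ → Bool) : ℕ → List ℕ → Bool
  | 0, acc => good acc
  | fuel + 1, acc =>
    (List.range n).all fun v => !(okNew b v acc.length acc) || search b n good fuel (v :: acc)

/-- the values of the first `k` nodes, latest first -/
def accOf (p : ℕ → ℕ) : ℕ → List ℕ
  | 0 => []
  | k + 1 => p k :: accOf p k

theorem accOf_length (p : ℕ → ℕ) (k : ℕ) : (accOf p k).length = k := by
  induction k with
  | zero => rfl
  | succ k ih => simp [accOf, ih]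

theorem accOf_reverse (p : ℕ → ℕ) (k : ℕ) : (accOf p k).reverse = (List.range k).map p := by
  induction k with
  | zero => rfl
  | succ k ih => simp [accOf, ih, List.range_succ]

theorem okNew_accOf (b : ℕ → ℕ → ℤ) (p : ℕ → ℕ) (k : ℕ) (hinj : ∀ j < k, p k ≠ p j)
    (hb : ∀ j < k, b (p k) (p j) = b k j) : ∀ m ≤ k, okNew b (p k) k (accOf p m) = true := by
  intro m
  induction m with
  | zero => intro _; rfl
  | succ m ih =>
    intro hm
    have hm' : m < k := hm
    have h1 : (p k != p m) = true := by simpa using hinj m hm'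
    have h2 : (b (p k) (p m) == b k (accOf p m).length) = true := by
      rw [accOf_length]; simpa using hb m hm'
    show ((p k != p m) && (b (p k) (p m) == b k (accOf p m).length) && okNew b (p k) k (accOf p m)) = true
    rw [h1, h2, ih (by omega)]
    rfl

theorem search_sound (b : ℕ → ℕ → ℤ) (n : ℕ) (good : List ℕ → Bool) (p : ℕ → ℕ)
    (hlt : ∀ i < n, p i < n) (hinj : ∀ i < n, ∀ j < i, p i ≠ p j)
    (hb : ∀ i < n, ∀ j < i, b (p i) (p j) = b i j) :
    ∀ fuel k, k + fuel = n → search b n good fuel (accOf p k) = true → good (accOf p n) = true := by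
  intro fuel
  induction fuel with
  | zero =>
    intro k hk h
    have hkn : k = n := by omega
    subst hkn
    exact h
  | succ fuel ih =>
    intro k hk h
    have hkn : k < n := by omega
    have h0 : ((List.range n).all fun v => !(okNew b v (accOf p k).length (accOf p k)) ||
        search b n good fuel (v :: accOf p k)) = true := h
    rw [List.all_eq_true] at h0
    have h1 := h0 (p k) (List.mem_range.mpr (hlt k hkn))
    rw [accOf_length, okNew_accOf b p k (hinj k hkn) (hb k hkn) k le_rfl] at h1
    have h2 : search b n good fuel (p k :: accOf p k) = true := by simpa using h1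
    exact ih (k + 1) (by omega) h2

theorem getD_map_range (p : ℕ → ℕ) (n i : ℕ) (hi : i < n) : ((List.range n).map p).getD i 0 = p i := by
  simp [List.getD_eq_getElem?_getD, hi]

/-- the symmetries of the diagram, from the search -/
theorem diag_of_search (D : ChevalleyDatum) (L1 L2 : List ℕ)
    (hs : search D.bonds D.rank (fun acc => decide (acc.reverse = L1) || decide (acc.reverse = L2))
      D.rank [] = true)
    (π : Equiv.Perm (Fin D.rank)) (hπ : D.IsDiagramSymmetry π) :
    (∀ i : Fin D.rank, (π i : ℕ) = L1.getD i 0) ∨ (∀ i : Fin D.rank, (π i : ℕ) = L2.getD i 0) := by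
  obtain ⟨p, hp⟩ : ∃ p : ℕ → ℕ, ∀ (i : ℕ) (hi : i < D.rank), p i = (π ⟨i, hi⟩ : ℕ) :=
    ⟨fun i => if hi : i < D.rank then (π ⟨i, hi⟩ : ℕ) else 0, fun i hi => dif_pos hi⟩
  have hlt : ∀ i < D.rank, p i < D.rank := by
    intro i hi
    rw [hp i hi]
    exact (π ⟨i, hi⟩).isLt
  have hinj : ∀ i < D.rank, ∀ j < i, p i ≠ p j := by
    intro i hi j hj h
    rw [hp i hi, hp j (by omega)] at h
    have := π.injective (Fin.ext h)
    have : i = j := congrArg Fin.val this
    omega
  have hb : ∀ i < D.rank, ∀ j < i, D.bonds (p i) (p j) = D.bonds i j := by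
    intro i hi j hj
    rw [hp i hi, hp j (by omega)]
    exact hπ ⟨i, hi⟩ ⟨j, by omega⟩ (fun h => by have : i = j := congrArg Fin.val h; omega)
  have hg := search_sound D.bonds D.rank _ p hlt hinj hb D.rank 0 (by omega) hs
  rw [accOf_reverse] at hg
  simp only [Bool.or_eq_true, decide_eq_true_eq] at hg
  rcases hg with hg | hg
  · left
    intro i
    rw [← hp i i.isLt, ← getD_map_range p D.rank i i.isLt, hg]
  · right
    intro i
    rw [← hp i i.isLt, ← getD_map_range p D.rank i i.isLt, hg]

theorem sym2_of_search (D : ChevalleyDatum) (L1 L : List ℕ) (hL1 : ∀ i < D.rank, L1.getD i 0 = i)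
    (h : ∀ i < D.rank, L.getD i 0 < D.rank ∧ L.getD (L.getD i 0) 0 = i)
    (hs : search D.bonds D.rank (fun acc => decide (acc.reverse = L1) || decide (acc.reverse = L))
      D.rank [] = true)
    (hexp : (∀ i < D.rank, D.isLong (D.simple i) = false) ∨
      (∀ i < D.rank, D.isLong (D.simple (L.getD i 0)) = !D.isLong (D.simple i))) : StSym2 D := by
  refine ⟨listPerm D.rank L h, ?_, ?_, ?_⟩
  · apply Equiv.ext
    intro i
    apply Fin.ext
    show L.getD (L.getD i 0) 0 = i
    exact (h i i.isLt).2
  · intro π hπ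
    rcases diag_of_search D L1 L hs π hπ with h1 | h1
    · left
      apply Equiv.ext
      intro i
      apply Fin.ext
      rw [h1 i, hL1 i i.isLt]
      rfl
    · right
      apply Equiv.ext
      intro i
      apply Fin.ext
      exact h1 i
  · rcases hexp with h1 | h1
    · left
      intro c i
      unfold ChevalleyDatum.graphExp
      rw [h1 i i.isLt, h1 _ (listPerm D.rank L h i).isLt]
      simp
    · right
      intro c i
      unfold ChevalleyDatum.graphExp
      have e : D.isLong (D.simple ((listPerm D.rank L h i : Fin D.rank) : ℕ)) =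
          !D.isLong (D.simple i) := h1 i i.isLt
      rw [e]
      cases D.isLong (D.simple i) <;> simp

theorem sym2_G2 : StSym2 chevG2 :=
  sym2_of_search chevG2 [0, 1] [1, 0] (by decide) (by decide) (by decide +kernel)
    (Or.inr (by decide +kernel))

theorem sym2_B2 : StSym2 chevB2 :=
  sym2_of_search chevB2 [0, 1] [1, 0] (by decide) (by decide) (by decide +kernel)
    (Or.inr (by decide +kernel))

theorem sym2_F4 : StSym2 chevF4 :=
  sym2_of_search chevF4 [0, 1, 2, 3] [3, 2, 1, 0] (by decide) (by decide) (by decide +kernel)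
    (Or.inr (by decide +kernel))

theorem sym2_E6 : StSym2 chevE6 :=
  sym2_of_search chevE6 [0, 1, 2, 3, 4, 5] [5, 1, 4, 3, 2, 0] (by decide) (by decide) (by decide +kernel)
    (Or.inl (by decide +kernel))

theorem sym2_E7 : StSym2 chevE7 :=
  sym2_of_search chevE7 [0, 1, 2, 3, 4, 5, 6] [0, 1, 2, 3, 4, 5, 6] (by decide) (by decide) (by decide +kernel)
    (Or.inl (by decide +kernel))

theorem sym2_E8 : StSym2 chevE8 :=
  sym2_of_search chevE8 [0, 1, 2, 3, 4, 5, 6, 7] [0, 1, 2, 3, 4, 5, 6, 7] (by decide) (by decide) (by decide +kernel)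
    (Or.inl (by decide +kernel))

example : Cfsg.Agent.H46.OS.StSym2 Cfsg.Lie.chevG2 := sym2_G2

example : Cfsg.Agent.H46.OS.StSym2 Cfsg.Lie.chevB2 := sym2_B2

example : Cfsg.Agent.H46.OS.StSym2 Cfsg.Lie.chevF4 := sym2_F4

example : Cfsg.Agent.H46.OS.StSym2 Cfsg.Lie.chevE6 := sym2_E6

example : Cfsg.Agent.H46.OS.StSym2 Cfsg.Lie.chevE7 := sym2_E7

example : Cfsg.Agent.H46.OS.StSym2 Cfsg.Lie.chevE8 := sym2_E8

end Cfsg.Agent.H27.OS
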