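import Mathlib
import Cfsg.Agent.H51.RsDefs

/-!
# RS-FINAL3 (S2113 team project, helper51)

The kernel of a central extension meets the commutator subgroup of the preimage of `U`
trivially: every commutator lies in the subgroup `M` of the elements over `U₁` with cube `1`
killed by `nuL L` (`L` the list of all units), and on the kernel `nuL L` is the `(q - 1)`-th
power.
-/

set_option autoImplicit false

namespace Cfsg.Agent.H27.Rs

open Cfsg.Agent.H96.Ro Cfsg.Agent.H51.Rs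
open scoped commutatorElement

universe u v w

theorem final3_coprime (m : ℕ) : Nat.gcd 3 (3 ^ (2 * m + 1) - 1) = 1 := by
  have h : Nat.Coprime 3 (3 ^ (2 * m + 1) - 1) := by
    rw [Nat.Prime.coprime_iff_not_dvd Nat.prime_three]
    intro hd
    have e : 3 ^ (2 * m + 1) = 3 * 3 ^ (2 * m) := by ring
    have hpos : 0 < 3 ^ (2 * m) := pow_pos (by norm_num) _
    obtain ⟨c, hc⟩ := hd
    omega
  exact h

theorem final3 (h1 : StStep1.{u, v, w}) (h3 : StStep3.{u, v, w}) (h4 : StStep4.{u, v, w})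
    (h6 : StStep6.{u, v, w}) (hM : StNuMul.{u, v, w}) (hKer : StNuKer.{u, v, w})
    (hZ : StNuZeta.{u, v, w}) (hB : StNuB.{u, v, w}) : StFinal3.{u, v, w} := by
  intro K _ _ _ m hm hK G _ Γ _ E P hP
  classical
  have hn : 3 ^ (m + 1) ≠ 0 := pow_ne_zero _ (by norm_num)
  have hcomm := h1 K m hm hK G Γ E
  obtain ⟨hζadd, -, -⟩ := h3 K m hm hK G Γ E
  have hstep4 := h4 K m hm hK G Γ E
  have hb3 := h6 K m hm hK G Γ E
  obtain ⟨L, hL⟩ : ∃ L : List Kˣ, L = (Finset.univ : Finset Kˣ).toList := ⟨_, rfl⟩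
  have hnd : L.Nodup := by
    rw [hL]
    exact Finset.nodup_toList _
  have hall : ∀ κ : Kˣ, κ ∈ L := by
    intro κ
    rw [hL, Finset.mem_toList]
    exact Finset.mem_univ κ
  have hlen : L.length = 3 ^ (2 * m + 1) - 1 := by
    rw [hL, Finset.length_toList, Finset.card_univ, Fintype.card_units, hK]
  have hmul := hM K m hm hK G Γ E L
  have hzeta := hZ K m hm hK G Γ E L hnd hall
  have hnub := hB K m hm hK G Γ E L hnd hall
  have hker := hKer K G (3 ^ (m + 1)) Γ E L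
  have hinz : ∀ v : K, E.InU1 (E.ζ v) := fun v => Ext.InU2.inU1 E ⟨v, E.σ_ζ hn v⟩
  have hζ0 : E.ζ 0 = 1 := by
    have h := hζadd 0 0
    rw [add_zero] at h
    exact (mul_eq_left (a := E.ζ 0)).1 h.symm
  have hζ3 : ∀ v : K, E.ζ v ^ 3 = 1 := by
    intro v
    have h3K : (3 : K) = 0 := by exact_mod_cast CharP.cast_eq_zero K 3
    have e : v + v + v = 0 := by linear_combination v * h3K
    rw [pow_succ, pow_two, ← hζadd, ← hζadd, e, hζ0]
  have hnu1 : E.nuL L 1 = 1 := by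
    have h := hmul 1 1 E.inU1_one E.inU1_one
    rw [mul_one] at h
    exact (mul_eq_left (a := E.nuL L 1)).1 h.symm
  -- the subgroup `M`
  obtain ⟨M, hMmem⟩ : ∃ M : Subgroup Γ,
      ∀ x : Γ, x ∈ M ↔ (E.InU1 x ∧ x ^ 3 = 1 ∧ E.nuL L x = 1) := by
    refine ⟨{ carrier := {x | E.InU1 x ∧ x ^ 3 = 1 ∧ E.nuL L x = 1}
              mul_mem' := ?_
              one_mem' := ⟨E.inU1_one, one_pow 3, hnu1⟩
              inv_mem' := ?_ }, fun x => Iff.rfl⟩
    · rintro x y ⟨hx1, hx2, hx3⟩ ⟨hy1, hy2, hy3⟩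
      refine ⟨Ext.InU1.mul E hx1 hy1, ?_, ?_⟩
      · have hc : Commute x y := hcomm x y hx1 hy1
        rw [hc.mul_pow, hx2, hy2, mul_one]
      · rw [hmul x y hx1 hy1, hx3, hy3, mul_one]
    · rintro x ⟨hx1, hx2, hx3⟩
      refine ⟨Ext.InU1.inv E hx1, ?_, ?_⟩
      · rw [inv_pow, hx2, inv_one]
      · have h := hmul x x⁻¹ hx1 (Ext.InU1.inv E hx1)
        rw [mul_inv_cancel, hnu1, hx3, one_mul] at h
        exact h.symm
  have hle : ⁅P.comap E.σ, P.comap E.σ⁆ ≤ M := by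
    rw [Subgroup.commutator_le]
    intro x hx y hy
    have hxU : E.InU x := (hP _).mp (Subgroup.mem_comap.mp hx)
    have hyU : E.InU y := (hP _).mp (Subgroup.mem_comap.mp hy)
    obtain ⟨t, t', v, hv⟩ := hstep4 x y hxU hyU
    have hcm : ⁅x, y⁆ = E.b t t' * E.ζ v := by
      rw [← cm_eq_commutatorElement]
      exact hv
    rw [hcm, hMmem]
    refine ⟨Ext.InU1.mul E (E.inU1_b t t') (hinz v), ?_, ?_⟩
    · have hc : Commute (E.b t t') (E.ζ v) := hcomm _ _ (E.inU1_b t t') (hinz v)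
      rw [hc.mul_pow, hb3, hζ3, mul_one]
    · rw [hmul _ _ (E.inU1_b t t') (hinz v), hnub, hzeta, mul_one]
  rw [eq_bot_iff]
  intro z hz
  obtain ⟨hz1, hz2⟩ := Subgroup.mem_inf.mp hz
  obtain ⟨-, hz3, hznu⟩ := (hMmem z).mp (hle hz2)
  have hσ : E.σ z = 1 := MonoidHom.mem_ker.mp hz1
  rw [hker z hσ, hlen] at hznu
  rw [Subgroup.mem_bot]
  have h : z ^ Nat.gcd 3 (3 ^ (2 * m + 1) - 1) = 1 := pow_gcd_eq_one.mpr ⟨hz3, hznu⟩
  rw [final3_coprime, pow_one] at h
  exact h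

example (h1 : StStep1.{u, v, w}) (h3 : StStep3.{u, v, w}) (h4 : StStep4.{u, v, w})
    (h6 : StStep6.{u, v, w}) (hM : StNuMul.{u, v, w}) (hKer : StNuKer.{u, v, w})
    (hZ : StNuZeta.{u, v, w}) (hB : StNuB.{u, v, w}) :
    Cfsg.Agent.H51.Rs.StFinal3.{u, v, w} := final3 h1 h3 h4 h6 hM hKer hZ hB

end Cfsg.Agent.H27.Rs
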