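import Mathlib
import Cfsg.Agent.H51.RsDefs

/-!
# RS-NUB (S2113 team project, helper51)

`nuL L` kills every `b t t'` when `L` enumerates the units: `S t t' = nuL L (b t t')` is a
biadditive pairing with commuting values, invariant under `(t, t') ↦ (λ t, λ t')`.
-/

set_option autoImplicit false

namespace Cfsg.Agent.H27.Rs

open Cfsg.Agent.H96.Ro Cfsg.Agent.H51.Rs

universe u v w

section

variable {K : Type u} [Field K] {G : Type v} [Group G] {n : ℕ} {Γ : Type w} [Group Γ]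
  (E : Ext K G n Γ)

/-- the product of the torus conjugates of an element over `U₁` lies over `U₁` -/
theorem nuB_inU1_nuL (L : List Kˣ) {x : Γ} (hx : E.InU1 x) : E.InU1 (E.nuL L x) := by
  unfold Ext.nuL
  induction L with
  | nil =>
    rw [List.map_nil, List.prod_nil]
    exact E.inU1_one
  | cons κ L ih =>
    rw [List.map_cons, List.prod_cons]
    exact Ext.InU1.mul E (Ext.InU1.conj E hx (E.σ_hh κ)) ih

/-- `nuL` of a torus conjugate is `nuL` along the translated list -/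
theorem nuB_nuL_conj (L : List Kˣ) (l : Kˣ) (x : Γ) :
    E.nuL L (E.hh l * x * (E.hh l)⁻¹) = E.nuL (L.map (fun κ => κ * l)) x := by
  unfold Ext.nuL
  rw [List.map_map]
  congr 1
  apply List.map_congr_left
  intro κ _
  simp only [Function.comp]
  have h1 : E.hh κ * (E.hh l * x * (E.hh l)⁻¹) * (E.hh κ)⁻¹ =
      (E.hh κ * E.hh l) * x * (E.hh κ * E.hh l)⁻¹ := by group
  rw [h1]
  apply E.conj_congr
  rw [map_mul, E.σ_hh, E.σ_hh, E.σ_hh, E.D.h_mul]

/-- `nuL` of an element over `U₁` does not depend on the order of the list -/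
theorem nuB_nuL_perm (hcomm : ∀ x y : Γ, E.InU1 x → E.InU1 y → x * y = y * x)
    {L L' : List Kˣ} (hp : L.Perm L') {x : Γ} (hx : E.InU1 x) : E.nuL L x = E.nuL L' x := by
  unfold Ext.nuL
  apply List.Perm.prod_eq' (hp.map _)
  rw [List.pairwise_map]
  apply List.pairwise_of_forall
  intro κ κ'
  exact hcomm _ _ (Ext.InU1.conj E hx (E.σ_hh κ)) (Ext.InU1.conj E hx (E.σ_hh κ'))

end

theorem nuB (hP : StPairs.{u, w}) (h1 : StStep1.{u, v, w}) (_h3 : StStep3.{u, v, w})
    (h5 : StStep5.{u, v, w}) (hM : StNuMul.{u, v, w}) (hZ : StNuZeta.{u, v, w}) :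
    StNuB.{u, v, w} := by
  intro K _ _ _ m hm hK G _ Γ _ E L hnd hall t t'
  classical
  have hn : 3 ^ (m + 1) ≠ 0 := pow_ne_zero _ (by norm_num)
  have hcomm := h1 K m hm hK G Γ E
  have hmul := hM K m hm hK G Γ E L
  have hzeta := hZ K m hm hK G Γ E L hnd hall
  obtain ⟨hb1, hb2⟩ := h5 K m hm hK G Γ E
  have hpv := (hP K m hm hK).1
  have hinb : ∀ t t' : K, E.InU1 (E.b t t') := E.inU1_b
  have hinz : ∀ v : K, E.InU1 (E.ζ v) := fun v => Ext.InU2.inU1 E ⟨v, E.σ_ζ hn v⟩
  refine hpv Γ (fun t t' => E.nuL L (E.b t t')) ?_ ?_ ?_ ?_ t t'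
  · -- commuting values
    intro x y x' y'
    exact hcomm _ _ (nuB_inU1_nuL E L (hinb x y)) (nuB_inU1_nuL E L (hinb x' y'))
  · -- additive in the first variable
    intro x x' y
    obtain ⟨v, hv⟩ := hb1 x x' y
    show E.nuL L (E.b (x + x') y) = E.nuL L (E.b x y) * E.nuL L (E.b x' y)
    rw [hv, hmul _ _ (Ext.InU1.mul E (hinb x y) (hinb x' y)) (hinz v),
      hmul _ _ (hinb x y) (hinb x' y), hzeta v, mul_one]
  · -- additive in the second variable
    intro x y y'
    obtain ⟨v, hv⟩ := hb2 x y y'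
    show E.nuL L (E.b x (y + y')) = E.nuL L (E.b x y) * E.nuL L (E.b x y')
    rw [hv, hmul _ _ (Ext.InU1.mul E (hinb x y) (hinb x y')) (hinz v),
      hmul _ _ (hinb x y) (hinb x y'), hzeta v, mul_one]
  · -- invariance
    intro κ hκ x y
    show E.nuL L (E.b (κ ^ 1 * x) (κ ^ 1 * y)) = E.nuL L (E.b x y)
    rw [pow_one]
    have hconj := E.conj_b (E.σ_hh (Units.mk0 κ hκ)) x y
    rw [Units.val_mk0] at hconj
    rw [← hconj, nuB_nuL_conj]
    apply nuB_nuL_perm E hcomm _ (hinb x y)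
    rw [List.perm_ext_iff_of_nodup (hnd.map (mul_left_injective _)) hnd]
    intro a
    constructor
    · intro _
      exact hall a
    · intro _
      rw [List.mem_map]
      exact ⟨a * (Units.mk0 κ hκ)⁻¹, hall _, by simp⟩

example (hP : StPairs.{u, w}) (h1 : StStep1.{u, v, w}) (h3 : StStep3.{u, v, w})
    (h5 : StStep5.{u, v, w}) (hM : StNuMul.{u, v, w}) (hZ : StNuZeta.{u, v, w}) :
    Cfsg.Agent.H51.Rs.StNuB.{u, v, w} := nuB hP h1 h3 h5 hM hZ

end Cfsg.Agent.H27.Rs
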