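import Mathlib

/-!
# helper27: S0459 piece SIMPLE (`simple_of_primitive_index_two`) for helper6
-/

set_option autoImplicit false

namespace Cfsg.Agent.H27.Ru

/-- a nontrivial normal subgroup of a faithful preprimitive group is transitive -/
theorem transitive_of_normal {G : Type*} [Group G] {X : Type*} [MulAction G X]
    (hfaith : ∀ g : G, (∀ y : X, g • y = y) → g = 1)
    (hprim : MulAction.IsPreprimitive G X) (N : Subgroup G) (hN : N.Normal) (hne : N ≠ ⊥) :
    MulAction.IsPretransitive ↥N X := by
  have i1 := hN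
  have i2 := hprim
  apply MulAction.IsQuasiPreprimitive.isPretransitive_of_normal (G := G)
  intro h
  apply hne
  rw [eq_bot_iff]
  intro n hn
  rw [Subgroup.mem_bot]
  apply hfaith
  intro y
  have hy : y ∈ MulAction.fixedPoints ↥N X := by rw [h]; trivial
  exact hy ⟨n, hn⟩

set_option maxRecDepth 100000 in
theorem aux_div : ∀ n : ℕ, n ≤ 280 → n ∣ 280 → n % 29 = 1 → n = 1 := by decide

/-- **S0459-SIMPLE** -/
theorem simple_of_primitive_index_two {G : Type*} [Group G] [Finite G] {X : Type*} [Fintype X]
    [MulAction G X] (hfaith : ∀ g : G, (∀ y : X, g • y = y) → g = 1)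
    (hprim : MulAction.IsPreprimitive G X) (hX : Fintype.card X = 4060) (x : X)
    (T : Subgroup G) (hT : T ≤ MulAction.stabilizer G x) (hTs : IsSimpleGroup T)
    (hTc : Nat.card (MulAction.stabilizer G x) = 2 * Nat.card T)
    (g t : G) (ht : t ∈ T) (hgt : g * t * g⁻¹ ∈ MulAction.stabilizer G x)
    (hgt' : g * t * g⁻¹ ∉ T) : IsSimpleGroup G := by
  obtain ⟨S, hS⟩ : ∃ S : Subgroup G, S = MulAction.stabilizer G x := ⟨_, rfl⟩
  rw [← hS] at hT hTc hgt
  have hXc : Nat.card X = 4060 := by rw [Nat.card_eq_fintype_card, hX]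
  have hTS2 : T.relIndex S = 2 := by
    have h1 := Subgroup.relIndex_mul_relIndex ⊥ T S bot_le hT
    rw [Subgroup.relIndex_bot_left, Subgroup.relIndex_bot_left, hTc] at h1
    have hpos : 0 < Nat.card T := Nat.card_pos
    have h2 : Nat.card T * T.relIndex S = Nat.card T * 2 := by rw [h1]; ring
    exact Nat.eq_of_mul_eq_mul_left hpos h2
  have iT := hTs
  have hnt : Nontrivial G := by
    obtain ⟨a, b, hab⟩ := exists_pair_ne ↥T
    exact ⟨⟨a, b, fun h => hab (Subtype.ext h)⟩⟩
  refine { toNontrivial := hnt, eq_bot_or_eq_top_of_normal := fun N hN => ?_ }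
  by_cases hNbot : N = ⊥
  · exact Or.inl hNbot
  right
  have htransN := transitive_of_normal hfaith hprim N hN hNbot
  have iN := hN
  have hnorm : (N.subgroupOf T).Normal := inferInstance
  obtain ⟨A, hA⟩ : ∃ A : Subgroup G, A = N ⊓ S := ⟨_, rfl⟩
  have hAS : A ≤ S := by rw [hA]; exact inf_le_right
  have hAN : A ≤ N := by rw [hA]; exact inf_le_left
  rcases hnorm.eq_bot_or_eq_top with hbot | htop
  · exfalso
    rw [Subgroup.subgroupOf_eq_bot] at hbot
    have hAT : T ⊓ A = ⊥ := by
      rw [eq_bot_iff]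
      intro z hz
      exact (hbot.le_bot : N ⊓ T ≤ ⊥) ⟨hAN hz.2, hz.1⟩
    have hcardA : Nat.card A ≤ 2 := by
      have h1 : T.relIndex A ≤ T.relIndex S :=
        Subgroup.relIndex_le_of_le_right hAS (by rw [hTS2]; norm_num)
      rw [hTS2, ← Subgroup.inf_relIndex_right, hAT, Subgroup.relIndex_bot_left] at h1
      exact h1
    have hstab : MulAction.stabilizer ↥N x = A.subgroupOf N := by
      ext n
      rw [MulAction.mem_stabilizer_iff, Subgroup.mem_subgroupOf, hA, Subgroup.mem_inf, hS,
        MulAction.mem_stabilizer_iff]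
      constructor
      · intro h; exact ⟨n.2, h⟩
      · intro h; exact h.2
    have hidx : A.relIndex N = 4060 := by
      have h1 := MulAction.index_stabilizer_of_transitive ↥N x
      rw [hstab, hXc] at h1
      exact h1
    have hcardN : Nat.card A * 4060 = Nat.card N := by
      have h1 := Subgroup.relIndex_mul_relIndex ⊥ A N bot_le hAN
      rw [Subgroup.relIndex_bot_left, Subgroup.relIndex_bot_left, hidx] at h1
      exact h1
    have hApos : 0 < Nat.card A := Nat.card_pos
    have hN8120 : Nat.card N ∣ 8120 := by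
      rw [← hcardN]
      have h12 : Nat.card A = 1 ∨ Nat.card A = 2 := by omega
      rcases h12 with h | h
      · exact ⟨2, by rw [h]⟩
      · exact ⟨1, by rw [h]⟩
    have h29 : 29 ∣ Nat.card N := by
      rw [← hcardN]; exact Dvd.dvd.mul_left (by norm_num) _
    have i29 : Fact (Nat.Prime 29) := ⟨by norm_num⟩
    have hn1 : Nat.card (Sylow 29 ↥N) = 1 := by
      have hmod := card_sylow_modEq_one 29 ↥N
      obtain ⟨P⟩ : Nonempty (Sylow 29 ↥N) := Sylow.nonempty
      have hdvd : Nat.card (Sylow 29 ↥N) ∣ 8120 :=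
        ((P.card_dvd_index).trans (Subgroup.index_dvd_card _)).trans hN8120
      generalize Nat.card (Sylow 29 ↥N) = n at hmod hdvd
      have hm : n % 29 = 1 := hmod
      have hcop : Nat.Coprime n 29 := by
        rw [Nat.coprime_comm, Nat.Prime.coprime_iff_not_dvd (by norm_num)]
        omega
      have hdvd' : n ∣ 280 := by
        have h1 : n ∣ 280 * 29 := by norm_num; exact hdvd
        exact hcop.dvd_of_dvd_mul_right h1
      exact aux_div n (Nat.le_of_dvd (by norm_num) hdvd') hdvd' hm
    have hsub : Subsingleton (Sylow 29 ↥N) := (Nat.card_eq_one_iff_unique.1 hn1).1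
    obtain ⟨P⟩ : Nonempty (Sylow 29 ↥N) := Sylow.nonempty
    have hchar : (P : Subgroup ↥N).Characteristic := Sylow.characteristic_of_subsingleton P
    have hPnormal : ((P : Subgroup ↥N).map N.subtype).Normal :=
      ConjAct.normal_of_characteristic_of_normal
    have hPne : (P : Subgroup ↥N).map N.subtype ≠ ⊥ := by
      intro h
      rw [Subgroup.map_eq_bot_iff_of_injective _ N.subtype_injective] at h
      exact P.ne_bot_of_dvd_card h29 h
    have htransP := transitive_of_normal hfaith hprim _ hPnormal hPne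
    have h4060 : 4060 ∣ Nat.card ((P : Subgroup ↥N).map N.subtype) := by
      have h1 := MulAction.index_stabilizer_of_transitive ↥((P : Subgroup ↥N).map N.subtype) x
      rw [hXc] at h1
      rw [← h1]
      exact Subgroup.index_dvd_card _
    rw [Subgroup.card_map_of_injective N.subtype_injective] at h4060
    obtain ⟨k, hk⟩ := P.isPGroup'.exists_card_eq
    rw [hk] at h4060
    have h2 : 2 ∣ 29 ^ k := dvd_trans (by norm_num) h4060
    have h3 : 2 ∣ 29 := Nat.Prime.dvd_of_dvd_pow Nat.prime_two h2
    omega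
  · rw [Subgroup.subgroupOf_eq_top] at htop
    have hTA : T ≤ A := by rw [hA]; exact le_inf htop hT
    have hmem : g * t * g⁻¹ ∈ A := by
      rw [hA]; exact ⟨hN.conj_mem t (htop ht) g, hgt⟩
    have h1 := Subgroup.relIndex_mul_relIndex T A S hTA hAS
    rw [hTS2] at h1
    have h2 : T.relIndex A ≠ 1 := by
      intro h
      exact hgt' ((Subgroup.relIndex_eq_one.1 h) hmem)
    have h3 : T.relIndex A ∣ 2 := Dvd.intro _ h1
    have h4 : T.relIndex A = 2 := by
      rcases (Nat.dvd_prime Nat.prime_two).1 h3 with h | h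
      · exact absurd h h2
      · exact h
    rw [h4] at h1
    have h5 : A.relIndex S = 1 := by omega
    have hSN : S ≤ N := (Subgroup.relIndex_eq_one.1 h5).trans hAN
    rw [eq_top_iff]
    intro h _
    obtain ⟨n, hn⟩ := htransN.exists_smul_eq x (h • x)
    have hn' : (n : G) • x = h • x := hn
    have h6 : (n : G)⁻¹ * h ∈ S := by
      rw [hS, MulAction.mem_stabilizer_iff, mul_smul, ← hn', inv_smul_smul]
    have h7 : h = (n : G) * ((n : G)⁻¹ * h) := by group
    rw [h7]
    exact N.mul_mem n.2 (hSN h6)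

end Cfsg.Agent.H27.Ru
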