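import Mathlib
import Cfsg.Agent.H48.SPCDefs
import Cfsg.Agent.H48.JordanType

/-!
# SPC-KEYP (helper48's team project S2676): `keyP (hKey : KeyStmt) : KeyPStmt`
-/

set_option autoImplicit false

namespace Cfsg.Agent.H27.SPC

open Finset Cfsg.Agent.H61 Cfsg.Agent.H48.SPC

universe u

/-- SPC-KEYP. -/
theorem keyP (hKey : KeyStmt.{u}) : KeyPStmt.{u} := by
  intro F _ _ p _ _ hp2 m μ hpar
  classical
  obtain ⟨L, hL⟩ : ∃ L : List ℕ, (L : Multiset ℕ) = μ.parts :=
    ⟨μ.parts.toList, Multiset.coe_toList _⟩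
  obtain ⟨d, hd⟩ : ∃ d : Fin L.length → ℕ, Finset.univ.val.map d = μ.parts := by
    refine ⟨fun i => L.get i, ?_⟩
    rw [Fin.univ_val_map, List.ofFn_get, hL]
  have hd1 : ∀ k, 1 ≤ d k := by
    intro k
    apply μ.parts_pos
    rw [← hd]
    exact Multiset.mem_map_of_mem d (Finset.mem_univ_val k)
  have hsum : ∑ k, d k = 2 * m := by
    have h1 : ∑ k, d k = (Finset.univ.val.map d).sum := rfl
    rw [h1, hd, μ.parts_sum]
  have hcard : Fintype.card (JI d) = Fintype.card (Fin m ⊕ Fin m) := by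
    rw [Fintype.card_sigma, Fintype.card_sum, Fintype.card_fin]
    simp only [Fintype.card_fin]
    omega
  have e : JI d ≃ Fin m ⊕ Fin m := Fintype.equivOfCardEq hcard
  have hpar' : ∀ j : ℕ, Odd j →
      Even (Finset.univ.filter (fun k : Fin L.length => d k = j)).card := by
    intro j hj
    rw [← Cfsg.Agent.H48.count_map_univ, hd]
    exact hpar j hj
  have hkey := hKey (F := F) p hp2 d hd1 e hpar'
  have hpred : ∀ k : ℕ, ∑ i, (d i - k) = (μ.parts.map (fun b => b - k)).sum := by
    intro k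
    rw [← hd, Multiset.map_map]
    rfl
  have himg : Finset.univ.image d = μ.parts.toFinset := by
    rw [← hd]; rfl
  rw [← himg, ← hkey]
  simp only [hpred]

end Cfsg.Agent.H27.SPC
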