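import Mathlib
import Cfsg.Agent.H48.SPCDefs
import Cfsg.Agent.H97.Nilp
import Cfsg.Agent.H48.JordanSp

/-!
# SPC-TOP (helper48's team project S2676): `top (hKeyP : KeyPStmt) : TopStmt`

The number of conjugacy classes of elements of order `p` in `Sp_2m(q)` (`q` a power of the odd
prime `p`), assembled from the count `KeyPStmt` of the classes of a given Jordan partition.
-/

set_option autoImplicit false

namespace Cfsg.Agent.H27.SPC

open Finset Cfsg.Agent.H48.SPC

universe u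

section Aux

variable {F : Type u} [Field F] {ι : Type} [Fintype ι] [DecidableEq ι]

theorem finrank_range_toLin'_pow' (A : Matrix ι ι F) (k : ℕ) :
    Module.finrank F (LinearMap.range ((Matrix.toLin' A) ^ k)) = (A ^ k).rank := by
  rw [← Matrix.toLin'_pow, Matrix.toLin'_apply']
  rfl

theorem mat_eq_zero_of_rank' (A : Matrix ι ι F) (h : A.rank = 0) : A = 0 := by
  have h1 : Matrix.toLin' A = 0 :=
    Cfsg.Agent.H97.Nilp.eq_zero_of_finrank_range _ (by rw [Matrix.toLin'_apply']; exact h)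
  have h2 := congrArg LinearMap.toMatrix' h1
  rwa [LinearMap.toMatrix'_toLin', map_zero] at h2

theorem sub_one_pow_char' (p : ℕ) [Fact p.Prime] [CharP F p] (A : Matrix ι ι F) :
    (A - 1) ^ p = A ^ p - 1 := by
  rcases subsingleton_or_nontrivial (Matrix ι ι F) with hs | hnt
  · exact Subsingleton.elim _ _
  · have : CharP (Matrix ι ι F) p :=
      charP_of_injective_algebraMap (algebraMap F (Matrix ι ι F)).injective p
    rw [sub_pow_char_of_commute p (Commute.one_right A), one_pow]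

/-- The Jordan type of a unipotent matrix, as a partition. -/
theorem exists_partition' {n : ℕ} (hn : Fintype.card ι = n) (A : Matrix ι ι F) (E : ℕ)
    (hA : (A - 1) ^ E = 0) :
    ∃ μ : Nat.Partition n, (∀ b ∈ μ.parts, b ≤ E) ∧
      ∀ k, ((A - 1) ^ k).rank = (μ.parts.map (fun b => b - k)).sum := by
  obtain ⟨μ, h1, h2, h3⟩ := Cfsg.Agent.H97.Nilp.exists_mset (Matrix.toLin' (A - 1)) E
    (by rw [← Matrix.toLin'_pow, hA, map_zero])
  have hsum : μ.sum = n := by
    have := h3 0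
    rw [finrank_range_toLin'_pow', pow_zero, Matrix.rank_one, hn] at this
    simpa using this
  exact ⟨⟨μ, fun {i} hi => h1 i hi, hsum⟩, h2, fun k => by
    rw [h3 k, finrank_range_toLin'_pow']⟩

theorem count_add_two_mul (μ : Multiset ℕ) (j : ℕ) (hj : 1 ≤ j) :
    μ.count j + 2 * (μ.map (fun b => b - j)).sum =
      (μ.map (fun b => b - (j - 1))).sum + (μ.map (fun b => b - (j + 1))).sum := by
  induction μ using Multiset.induction_on with
  | empty => simp
  | cons a s ih =>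
    rw [Multiset.count_cons, Multiset.map_cons, Multiset.map_cons, Multiset.map_cons,
      Multiset.sum_cons, Multiset.sum_cons, Multiset.sum_cons]
    split_ifs <;> omega

theorem rank_conj_pow (C C' G : Matrix ι ι F) (h1 : C * C' = 1) (h2 : C' * C = 1) (k : ℕ) :
    ((C * G * C' - 1) ^ k).rank = ((G - 1) ^ k).rank := by
  have e1 : C * G * C' - 1 = C * (G - 1) * C' := by rw [mul_sub, sub_mul, mul_one, h1]
  have e2 : ∀ k : ℕ, (C * (G - 1) * C') ^ k = C * (G - 1) ^ k * C' := by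
    intro k
    induction k with
    | zero => rw [pow_zero, pow_zero, mul_one, h1]
    | succ k ih =>
      rw [pow_succ, ih, pow_succ]
      calc C * (G - 1) ^ k * C' * (C * (G - 1) * C')
          = C * (G - 1) ^ k * (C' * C) * (G - 1) * C' := by simp only [mul_assoc]
        _ = C * ((G - 1) ^ k * (G - 1)) * C' := by rw [h2, mul_one]; simp only [mul_assoc]
  rw [e1, e2, Matrix.rank_mul_eq_left_of_isUnit_det _ _ (Matrix.isUnit_det_of_left_inverse h1),
    Matrix.rank_mul_eq_right_of_isUnit_det _ _ (Matrix.isUnit_det_of_right_inverse h1)]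

end Aux

section Sp

variable {F : Type u} [Field F] {m : ℕ}

/-- Conjugate elements of `Sp` have the same ranks of powers of `g - 1`. -/
theorem rank_of_sp_conj (g h : ↥(Matrix.symplecticGroup (Fin m) F)) (hc : IsConj g h) (k : ℕ) :
    (((g : Matrix (Fin m ⊕ Fin m) (Fin m ⊕ Fin m) F) - 1) ^ k).rank =
      (((h : Matrix (Fin m ⊕ Fin m) (Fin m ⊕ Fin m) F) - 1) ^ k).rank := by
  obtain ⟨c, rfl⟩ := isConj_iff.mp hc
  have hcc : (c : Matrix (Fin m ⊕ Fin m) (Fin m ⊕ Fin m) F) *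
      ((c⁻¹ : ↥(Matrix.symplecticGroup (Fin m) F)) :
        Matrix (Fin m ⊕ Fin m) (Fin m ⊕ Fin m) F) = 1 :=
    congrArg Subtype.val (mul_inv_cancel c)
  have hcc' : ((c⁻¹ : ↥(Matrix.symplecticGroup (Fin m) F)) :
      Matrix (Fin m ⊕ Fin m) (Fin m ⊕ Fin m) F) *
      (c : Matrix (Fin m ⊕ Fin m) (Fin m ⊕ Fin m) F) = 1 :=
    congrArg Subtype.val (inv_mul_cancel c)
  exact (rank_conj_pow (c : Matrix (Fin m ⊕ Fin m) (Fin m ⊕ Fin m) F)
    ((c⁻¹ : ↥(Matrix.symplecticGroup (Fin m) F)) : Matrix (Fin m ⊕ Fin m) (Fin m ⊕ Fin m) F)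
    (g : Matrix (Fin m ⊕ Fin m) (Fin m ⊕ Fin m) F) hcc hcc' k).symm

/-- The odd parts of the Jordan partition of a unipotent symplectic matrix have even
multiplicity. -/
theorem even_count_of_sp (g : ↥(Matrix.symplecticGroup (Fin m) F)) (μ : Multiset ℕ)
    (h : ∀ k, (((g : Matrix (Fin m ⊕ Fin m) (Fin m ⊕ Fin m) F) - 1) ^ k).rank =
      (μ.map (fun b => b - k)).sum) (j : ℕ) (hj : Odd j) : Even (μ.count j) := by
  obtain ⟨i, rfl⟩ := hj
  have h1 := Cfsg.Agent.H48.even_rank_sub_one_pow g.1 g.2 i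
  have h2 := Cfsg.Agent.H48.even_rank_sub_one_pow g.1 g.2 (i + 1)
  rw [h] at h1 h2
  have h3 := count_add_two_mul μ (2 * i + 1) (by omega)
  rw [show 2 * i + 1 - 1 = 2 * i from by omega,
    show 2 * i + 1 + 1 = 2 * (i + 1) from by ring] at h3
  obtain ⟨a, ha⟩ := h1
  obtain ⟨b, hb⟩ := h2
  rw [Nat.even_iff]
  omega

/-- The classes of a given Jordan partition. -/
def HasType (F : Type u) [Field F] (m : ℕ) (μ : Nat.Partition (2 * m))
    (C : ConjClasses ↥(Matrix.symplecticGroup (Fin m) F)) : Prop :=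
  ∃ g : ↥(Matrix.symplecticGroup (Fin m) F), ConjClasses.mk g = C ∧ ∀ k : ℕ,
    (((g : Matrix (Fin m ⊕ Fin m) (Fin m ⊕ Fin m) F) - 1) ^ k).rank =
      (μ.parts.map (fun b => b - k)).sum

theorem hasType_unique (μ ν : Nat.Partition (2 * m))
    (C : ConjClasses ↥(Matrix.symplecticGroup (Fin m) F)) (h1 : HasType F m μ C)
    (h2 : HasType F m ν C) : μ = ν := by
  obtain ⟨g, rfl, hg⟩ := h1
  obtain ⟨g', hC, hg'⟩ := h2
  have hc : IsConj g' g := ConjClasses.mk_eq_mk_iff_isConj.mp hC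
  apply Nat.Partition.ext
  apply Cfsg.Agent.H97.Nilp.mset_eq_of_sums _ _ (fun b hb => μ.parts_pos hb)
    (fun b hb => ν.parts_pos hb)
  intro k
  rw [← hg k, ← hg' k]
  exact (rank_of_sp_conj g' g hc k).symm

theorem order_iff_type (p : ℕ) [Fact p.Prime] [CharP F p]
    (C : ConjClasses ↥(Matrix.symplecticGroup (Fin m) F)) :
    (∃ g : ↥(Matrix.symplecticGroup (Fin m) F), ConjClasses.mk g = C ∧ orderOf g = p) ↔
      ∃ μ : Nat.Partition (2 * m), ((∀ a ∈ μ.parts, a ≤ p) ∧
        (∀ j : ℕ, Odd j → Even (μ.parts.count j)) ∧ μ ≠ Cfsg.Agent.H97.Nilp.ones (2 * m)) ∧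
        HasType F m μ C := by
  have hp : p.Prime := Fact.out
  constructor
  · rintro ⟨g, rfl, hg⟩
    have hgp : g ^ p = 1 := by rw [← hg]; exact pow_orderOf_eq_one g
    have hgp' : (g : Matrix (Fin m ⊕ Fin m) (Fin m ⊕ Fin m) F) ^ p = 1 := by
      have h1 := congrArg Subtype.val hgp
      exact h1
    have hA : ((g : Matrix (Fin m ⊕ Fin m) (Fin m ⊕ Fin m) F) - 1) ^ p = 0 := by
      rw [sub_one_pow_char' p, hgp', sub_self]
    have hcard : Fintype.card (Fin m ⊕ Fin m) = 2 * m := by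
      rw [Fintype.card_sum, Fintype.card_fin]; omega
    obtain ⟨μ, hμ1, hμ2⟩ := exists_partition' hcard
      (g : Matrix (Fin m ⊕ Fin m) (Fin m ⊕ Fin m) F) p hA
    refine ⟨μ, ⟨hμ1, fun j hj => even_count_of_sp g μ.parts hμ2 j hj, ?_⟩, g, rfl, hμ2⟩
    intro hμ
    have h1 := hμ2 1
    rw [hμ, Cfsg.Agent.H97.Nilp.ones_sum_sub_one, pow_one] at h1
    have h2 := mat_eq_zero_of_rank' _ h1
    have h3 : g = 1 := by
      apply Subtype.ext
      rw [sub_eq_zero] at h2
      exact h2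
    rw [h3, orderOf_one] at hg
    exact hp.one_lt.ne hg
  · rintro ⟨μ, ⟨hμ1, -, hne⟩, g, rfl, hg⟩
    have hA : ((g : Matrix (Fin m ⊕ Fin m) (Fin m ⊕ Fin m) F) - 1) ^ p = 0 := by
      apply mat_eq_zero_of_rank'
      rw [hg p]
      exact Cfsg.Agent.H65.JordanRank.mset_sum_sub_eq_zero μ.parts p p hμ1 le_rfl
    have hgp : g ^ p = 1 := by
      apply Subtype.ext
      rw [sub_one_pow_char' p, sub_eq_zero] at hA
      exact hA
    have hg1 : g ≠ 1 := by
      intro h1
      obtain ⟨b, hb, hb2⟩ := Cfsg.Agent.H97.Nilp.exists_two_le μ hne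
      have h3 := Cfsg.Agent.H65.JordanRank.mset_sum_sub_one_pos μ.parts b hb hb2
      have h4 := hg 1
      rw [h1] at h4
      have h5 : ((1 : ↥(Matrix.symplecticGroup (Fin m) F)) :
          Matrix (Fin m ⊕ Fin m) (Fin m ⊕ Fin m) F) = 1 := rfl
      rw [h5, sub_self, pow_one, Matrix.rank_zero] at h4
      omega
    exact ⟨g, rfl, orderOf_eq_prime hgp hg1⟩

/-- SPC-TOP. -/
theorem top (hKeyP : KeyPStmt.{u}) : TopStmt.{u} := by
  intro F _ _ p _ _ hp2 m
  classical
  have hp : p.Prime := Fact.out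
  generalize hT : (Finset.univ.filter (fun μ : Nat.Partition (2 * m) =>
    (∀ a ∈ μ.parts, a ≤ p) ∧ ∀ j : ℕ, Odd j → Even (μ.parts.count j))) = T
  have hmemT : ∀ μ : Nat.Partition (2 * m), μ ∈ T ↔
      ((∀ a ∈ μ.parts, a ≤ p) ∧ ∀ j : ℕ, Odd j → Even (μ.parts.count j)) := by
    intro μ
    rw [← hT, Finset.mem_filter]
    simp
  have hones : Cfsg.Agent.H97.Nilp.ones (2 * m) ∈ T := by
    rw [hmemT]
    constructor
    · intro a ha
      have ha' : a ∈ Multiset.replicate (2 * m) 1 := ha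
      rw [Multiset.eq_of_mem_replicate ha']
      exact hp.one_lt.le
    · intro j hj
      show Even ((Multiset.replicate (2 * m) 1).count j)
      rw [Multiset.count_replicate]
      split_ifs
      · exact ⟨m, by ring⟩
      · exact ⟨0, rfl⟩
  have hf1 : ((Cfsg.Agent.H97.Nilp.ones (2 * m)).parts.toFinset.filter
      (fun j : ℕ => Even j)).card = 0 := by
    rw [Finset.card_eq_zero, Finset.filter_eq_empty_iff]
    intro j hj hje
    rw [Multiset.mem_toFinset] at hj
    have hj' : j ∈ Multiset.replicate (2 * m) 1 := hj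
    rw [Multiset.eq_of_mem_replicate hj'] at hje
    exact absurd hje (by decide)
  haveI : Fintype (ConjClasses ↥(Matrix.symplecticGroup (Fin m) F)) := Fintype.ofFinite _
  rw [Nat.card_eq_fintype_card, Fintype.card_subtype]
  have h1 : (Finset.univ.filter (fun C : ConjClasses ↥(Matrix.symplecticGroup (Fin m) F) =>
      ∃ g : ↥(Matrix.symplecticGroup (Fin m) F), ConjClasses.mk g = C ∧ orderOf g = p)) =
      (T.erase (Cfsg.Agent.H97.Nilp.ones (2 * m))).biUnion
        (fun μ => Finset.univ.filter (HasType F m μ)) := by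
    ext C
    simp only [Finset.mem_filter, Finset.mem_univ, true_and, Finset.mem_biUnion,
      Finset.mem_erase]
    rw [order_iff_type p C]
    constructor
    · rintro ⟨μ, ⟨h1, h2, h3⟩, h4⟩
      exact ⟨μ, ⟨h3, (hmemT μ).mpr ⟨h1, h2⟩⟩, h4⟩
    · rintro ⟨μ, ⟨h3, hμT⟩, h4⟩
      exact ⟨μ, ⟨((hmemT μ).mp hμT).1, ((hmemT μ).mp hμT).2, h3⟩, h4⟩
  have hdisj : ∀ μ ∈ T.erase (Cfsg.Agent.H97.Nilp.ones (2 * m)),
      ∀ ν ∈ T.erase (Cfsg.Agent.H97.Nilp.ones (2 * m)), μ ≠ ν →
      Disjoint (Finset.univ.filter (HasType F m μ)) (Finset.univ.filter (HasType F m ν)) := by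
    intro μ _ ν _ hne
    rw [Finset.disjoint_left]
    intro C hC1 hC2
    exact hne (hasType_unique μ ν C (Finset.mem_filter.mp hC1).2 (Finset.mem_filter.mp hC2).2)
  have h2 : ∀ μ ∈ T.erase (Cfsg.Agent.H97.Nilp.ones (2 * m)),
      (Finset.univ.filter (HasType F m μ)).card =
        2 ^ ((μ.parts.toFinset.filter (fun j : ℕ => Even j)).card) := by
    intro μ hμ
    rw [← Fintype.card_subtype, ← Nat.card_eq_fintype_card]
    exact hKeyP (F := F) p hp2 m μ ((hmemT μ).mp (Finset.mem_of_mem_erase hμ)).2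
  rw [h1, Finset.card_biUnion hdisj, Finset.sum_congr rfl h2,
    ← Finset.add_sum_erase T _ hones, hf1, pow_zero, Nat.add_sub_cancel_left]

end Sp

end Cfsg.Agent.H27.SPC
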