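import Cfsg.Agent.H68.StDefs
import Cfsg.Agent.H19.IndFun

/-!
# helper27: S2311-BB, a parabolic permutation character restricted to `B`

`pch_borel`: for a finite group with a (B,N)-pair and `Y ⊆ S`, the permutation character of `G` on
`G ⧸ P_Y`, evaluated on `b ∈ B`, is the sum over the `(∅, Y)`-reduced elements `w` of the Weyl group
of the permutation characters of `B` on `B ⧸ (B ∩ n_w B n_w⁻¹)`.
-/

set_option autoImplicit false

namespace Cfsg.Agent.H27.St

open Cfsg Cfsg.H8Exch Cfsg.H8BN Cfsg.Agent.H68.St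

section W

variable {W : Type*} [Group W] {ι : Type*}
  (f : ι → W) (hf2 : ∀ i, f i * f i = 1) (hgen : Subgroup.closure (Set.range f) = ⊤)
  (Ps : ι → Set W) (hA : ∀ i, (1 : W) ∈ Ps i) (hB : ∀ i w, w ∈ Ps i → f i * w ∉ Ps i)
  (hC : ∀ i j w, w ∈ Ps i → w * f j ∉ Ps i → f i * w = w * f j)

include hf2 hgen in
theorem len_inv_eq (w : W) : len f w⁻¹ = len f w := by
  have key : ∀ w : W, len f w⁻¹ ≤ len f w := by
    intro w
    obtain ⟨l, h1, h2⟩ := exists_reduced f hf2 hgen w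
    have := len_le f l.reverse
    rw [wprod_reverse f hf2, h2, List.length_reverse, h1] at this
    exact this
  have := key w⁻¹
  rw [inv_inv] at this
  exact le_antisymm (key w) this

include hf2 hgen hA hB hC in
theorem len_mul_right_ne (i : ι) (w : W) : len f (w * f i) ≠ len f w := by
  have h := len_mul_ne f hf2 hgen Ps hA hB hC i w⁻¹
  have e : f i * w⁻¹ = (w * f i)⁻¹ := by rw [mul_inv_rev, inv_gen f hf2]
  rw [e, len_inv_eq f hf2 hgen, len_inv_eq f hf2 hgen] at h
  exact h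

include hf2 hgen in
theorem len_mul_le_add (u v : W) : len f (u * v) ≤ len f u + len f v := by
  obtain ⟨lu, h1, h2⟩ := exists_reduced f hf2 hgen u
  obtain ⟨lv, h3, h4⟩ := exists_reduced f hf2 hgen v
  have := len_le f (lu ++ lv)
  rw [wprod_append, h2, h4, List.length_append, h1, h3] at this
  exact this

include hf2 hgen hA hB hC in
/-- an element of minimal length in its coset `d * W_Y` has the additivity property -/
theorem len_mul_of_min (Y : Set ι) {d v : W}
    (hd : ∀ v' ∈ Subgroup.closure (f '' Y), len f d ≤ len f (d * v'))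
    (hv : v ∈ Subgroup.closure (f '' Y)) : len f (d * v) = len f d + len f v := by
  obtain ⟨ld, hd1, hd2⟩ := exists_isRed f hf2 hgen d
  obtain ⟨lv, hv0, hv1, hv2⟩ := exists_isRed_of_mem_closure f hf2 hgen Ps hA hB hC Y hv
  obtain ⟨l', hs, hr, hp⟩ := exists_isRed_sublist f hf2 hgen Ps hA hB hC (ld ++ lv)
  obtain ⟨l1, l2, hl', hs1, hs2⟩ := List.sublist_append_iff.1 hs
  rw [hl'] at hr hp
  rw [wprod_append, wprod_append, hd2, hv2] at hp
  have hl2 : wprod f l2 ∈ Subgroup.closure (f '' Y) :=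
    wprod_mem_closure f Y l2 (fun i hi => hv0 i (hs2.subset hi))
  have h1 : wprod f l1 = d * (v * (wprod f l2)⁻¹) := by
    rw [← mul_assoc, ← hp]; group
  unfold IsRed at hd1 hv1 hr
  rw [hd2] at hd1
  rw [hv2] at hv1
  have h2 : ld.length ≤ l1.length := by
    have := hd (v * (wprod f l2)⁻¹) (Subgroup.mul_mem _ hv (Subgroup.inv_mem _ hl2))
    rw [← h1] at this
    have h3 := len_le f l1
    omega
  have h3 : l1 = ld := hs1.eq_of_length_le h2
  rw [h3, hd2] at hp
  have h4 : wprod f l2 = v := mul_left_cancel hp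
  have h5 : lv.length ≤ l2.length := by
    have h6 := len_le f l2
    rw [h4] at h6
    omega
  have h6 : l2 = lv := hs2.eq_of_length_le h5
  rw [h3, h6, wprod_append, hd2, hv2, List.length_append] at hr
  omega

/-- every coset `w * W_Y` has an element of minimal length -/
theorem exists_min_coset (Y : Set ι) (w : W) :
    ∃ d : W, (∃ v ∈ Subgroup.closure (f '' Y), w = d * v) ∧
      ∀ v' ∈ Subgroup.closure (f '' Y), len f d ≤ len f (d * v') := by
  classical
  have hne : ∃ k, ∃ d : W, (∃ v ∈ Subgroup.closure (f '' Y), w = d * v) ∧ len f d = k :=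
    ⟨_, w, ⟨1, Subgroup.one_mem _, by simp⟩, rfl⟩
  obtain ⟨d, ⟨v, hv, hwv⟩, hk⟩ := Nat.find_spec hne
  refine ⟨d, ⟨v, hv, hwv⟩, ?_⟩
  intro v' hv'
  have := Nat.find_min' hne ⟨d * v', ⟨v'⁻¹ * v,
    Subgroup.mul_mem _ (Subgroup.inv_mem _ hv') hv, by rw [hwv]; group⟩, rfl⟩
  omega

include hf2 hgen hA hB hC in
/-- no right descent in `Y` implies minimal length in the coset -/
theorem min_of_red (Y : Set ι) {w : W} (hw : ∀ j ∈ Y, len f w < len f (w * f j)) :
    ∀ v' ∈ Subgroup.closure (f '' Y), len f w ≤ len f (w * v') := by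
  obtain ⟨d, ⟨v, hv, hwv⟩, hmin⟩ := exists_min_coset f Y w
  have hadd := len_mul_of_min f hf2 hgen Ps hA hB hC Y hmin hv
  obtain ⟨lv, hv0, hv1, hv2⟩ := exists_isRed_of_mem_closure f hf2 hgen Ps hA hB hC Y hv
  have hv1' : v = 1 := by
    rcases List.eq_nil_or_concat lv with h | ⟨l, j, h⟩
    · rw [← hv2, h]; rfl
    · exfalso
      rw [h, List.concat_eq_append] at hv0 hv1 hv2
      have hj : j ∈ Y := hv0 j (by simp)
      have h1 := hw j hj
      have e : w * f j = d * wprod f l := by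
        rw [hwv, ← hv2, wprod_append, wprod_singleton, mul_assoc, mul_assoc, hf2, mul_one]
      have h2 := len_mul_le_add f hf2 hgen d (wprod f l)
      have h3 := len_le f l
      unfold IsRed at hv1
      rw [List.length_append, List.length_singleton, hv2] at hv1
      rw [e] at h1
      rw [hwv, hadd, hv1] at h1
      omega
  rw [hv1', mul_one] at hwv
  rw [hwv]; exact hmin

include hf2 hgen hA hB hC in
theorem redY_len_mul (Y : Set ι) {w v : W} (hw : ∀ j ∈ Y, len f w < len f (w * f j))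
    (hv : v ∈ Subgroup.closure (f '' Y)) : len f (w * v) = len f w + len f v :=
  len_mul_of_min f hf2 hgen Ps hA hB hC Y (min_of_red f hf2 hgen Ps hA hB hC Y hw) hv

include hf2 hgen hA hB hC in
theorem redY_exists (Y : Set ι) (w : W) :
    ∃ d ∈ Red f ∅ Y, ∃ v ∈ Subgroup.closure (f '' Y), w = d * v := by
  obtain ⟨d, ⟨v, hv, hwv⟩, hmin⟩ := exists_min_coset f Y w
  refine ⟨d, ⟨fun i hi => absurd hi (Set.notMem_empty i), fun j hj => ?_⟩, v, hv, hwv⟩
  have h1 := hmin (f j) (Subgroup.subset_closure ⟨j, hj, rfl⟩)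
  have h2 := len_mul_right_ne f hf2 hgen Ps hA hB hC j d
  omega

include hf2 hgen hA hB hC in
theorem redY_unique (Y : Set ι) {d d' v : W} (hd : d ∈ Red f ∅ Y) (hd' : d' ∈ Red f ∅ Y)
    (hv : v ∈ Subgroup.closure (f '' Y)) (h : d' = d * v) : d' = d := by
  have h1 := redY_len_mul f hf2 hgen Ps hA hB hC Y hd.2 hv
  have h2 := redY_len_mul f hf2 hgen Ps hA hB hC Y hd'.2 (Subgroup.inv_mem _ hv)
  have e : d' * v⁻¹ = d := by rw [h]; group
  rw [e, len_inv_eq f hf2 hgen] at h2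
  rw [← h] at h1
  have h3 : len f v = 0 := by omega
  have := len_eq_zero f hf2 hgen h3
  rw [h, this, mul_one]

end W

section BN

variable {G : Type*} [Group G] (P : BNPair G)

theorem val_image_subset (Y : Set P.S) : Subtype.val '' Y ⊆ P.S := by
  rintro _ ⟨y, _, rfl⟩
  exact y.2

/-- mirror of `mul_mem_dc_of_len_lt`: if `ℓ(w s) > ℓ(w)` then `B n B s ⊆ B n s B` -/
theorem mul_mem_dc_of_len_lt_right {s : P.S} {n : P.N}
    (h : len (sg P) (pr P n) < len (sg P) (pr P n * sg P s)) :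
    ∀ g ∈ dc P (n : G), g * (s : G) ∈ dc P ((n : G) * s) := by
  intro g hg
  have h1 : len (sg P) (pr P n⁻¹) < len (sg P) (sg P s * pr P n⁻¹) := by
    have e1 : pr P n⁻¹ = (pr P n)⁻¹ := rfl
    have e2 : sg P s * (pr P n)⁻¹ = (pr P n * sg P s)⁻¹ := by
      rw [mul_inv_rev, inv_gen (sg P) (sg_mul_self P)]
    rw [e1, e2, len_inv_eq (sg P) (sg_mul_self P) (closure_range_sg P),
      len_inv_eq (sg P) (sg_mul_self P) (closure_range_sg P)]
    exact h
  have hsq : ((s : G) * s)⁻¹ ∈ P.B := P.B.inv_mem (P.sq_mem s.1 s.2)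
  have h2 : ((s : G) * s)⁻¹ * g⁻¹ ∈ dc P ((n⁻¹ : P.N) : G) :=
    left_mul_mem_dc P hsq (inv_mem_dc P hg)
  have h3 := mul_mem_dc_of_len_lt P h1 _ h2
  have h4 := inv_mem_dc P h3
  have e3 : ((s : G) * (((s : G) * s)⁻¹ * g⁻¹))⁻¹ = g * s := by group
  have e4 : ((s : G) * ((n⁻¹ : P.N) : G))⁻¹ = (n : G) * s * ((s : G) * s)⁻¹ := by
    rw [Subgroup.coe_inv]; group
  rw [e3, e4, dc_mul_right P hsq] at h4
  exact h4

theorem gprod_append (l l' : List P.S) : gprod P (l ++ l') = gprod P l * gprod P l' := by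
  simp [gprod]

theorem gprod_singleton (s : P.S) : gprod P [s] = (s : G) := by
  simp [gprod]

/-- `n B m ⊆ B n m B` when `n` has no right descent in `Y` and `m` is a reduced word in `Y` -/
theorem mul_gprod_mem_dc (Y : Set P.S) (n : P.N)
    (hw : ∀ j ∈ Y, len (sg P) (pr P n) < len (sg P) (pr P n * sg P j))
    (l : List P.S) (hl : ∀ s ∈ l, s ∈ Y) (hred : IsRed (sg P) l) :
    ∀ b ∈ P.B, (n : G) * b * gprod P l ∈ dc P ((n : G) * gprod P l) := by
  induction l using List.reverseRecOn with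
  | nil =>
    intro b hb
    have : gprod P [] = 1 := rfl
    rw [this, mul_one, mul_one]
    exact right_mul_mem_dc P hb (self_mem_dc P _)
  | append_singleton l s ih =>
    intro b hb
    have hred' : IsRed (sg P) l :=
      isRed_of_concat (sg P) (sg_mul_self P) (closure_range_sg P) hred
    have hl' : ∀ s ∈ l, s ∈ Y := fun x hx => hl x (List.mem_append_left _ hx)
    have ih' := ih hl' hred' b hb
    have hpr : pr P (n * ⟨gprod P l, gprod_mem_N P l⟩) = pr P n * wprod (sg P) l := by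
      rw [← pr_gprod]; rfl
    have hlen1 : len (sg P) (pr P n * wprod (sg P) l) = len (sg P) (pr P n) + l.length := by
      rw [redY_len_mul (sg P) (sg_mul_self P) (closure_range_sg P) (Ps P) (Ps_one P) (Ps_B P)
        (Ps_C P) Y hw (wprod_mem_closure (sg P) Y l hl')]
      have : len (sg P) (wprod (sg P) l) = l.length := hred'
      rw [this]
    have hlen2 : len (sg P) (pr P n * wprod (sg P) l * sg P s)
        = len (sg P) (pr P n) + (l.length + 1) := by
      have h1 := redY_len_mul (sg P) (sg_mul_self P) (closure_range_sg P) (Ps P) (Ps_one P)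
        (Ps_B P) (Ps_C P) Y hw (wprod_mem_closure (sg P) Y (l ++ [s]) hl)
      have h2 : len (sg P) (wprod (sg P) (l ++ [s])) = (l ++ [s]).length := hred
      rw [h2, wprod_append, wprod_singleton, ← mul_assoc, List.length_append,
        List.length_singleton] at h1
      exact h1
    have hlt : len (sg P) (pr P (n * ⟨gprod P l, gprod_mem_N P l⟩))
        < len (sg P) (pr P (n * ⟨gprod P l, gprod_mem_N P l⟩) * sg P s) := by
      rw [hpr, hlen1, hlen2]; omega
    have h5 := mul_mem_dc_of_len_lt_right P hlt _ ih'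
    rw [gprod_append, gprod_singleton]
    have e1 : (n : G) * b * (gprod P l * (s : G)) = (n : G) * b * gprod P l * s := by group
    have e2 : (n : G) * (gprod P l * (s : G)) = (n : G) * gprod P l * s := by group
    rw [e1, e2]
    exact h5

/-- the stabilizer computation: `B ∩ n P_Y n⁻¹ = B ∩ n B n⁻¹` for `n` without right descent in `Y` -/
theorem conj_mem_B_of_mem_par (Y : Set P.S) (n : P.N)
    (hw : ∀ j ∈ Y, len (sg P) (pr P n) < len (sg P) (pr P n * sg P j))
    {g : G} (hg : g ∈ P.B) (h : (n : G)⁻¹ * g * n ∈ par P Y) : (n : G)⁻¹ * g * n ∈ P.B := by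
  have hJ := val_image_subset P Y
  obtain ⟨m, hm, hdc⟩ := (mem_parabolic_iff P hJ _).1 h
  obtain ⟨c, hc, c', hc', e⟩ := (mem_dc P).1 hdc
  have hmN : m ∈ P.N := closure_le_N P hJ hm
  have hv : pr P ⟨m, hmN⟩ ∈ Subgroup.closure (sg P '' Y) := by
    have := pr_mem_closure_of_mem P hJ (n := ⟨m, hmN⟩) hm
    rwa [Set.preimage_image_eq _ Subtype.val_injective] at this
  obtain ⟨l, hl1, hl2, hl3⟩ := exists_isRed_of_mem_closure (sg P) (sg_mul_self P)
    (closure_range_sg P) (Ps P) (Ps_one P) (Ps_B P) (Ps_C P) Y hv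
  have ht : (gprod P l)⁻¹ * m ∈ P.B := by
    have : pr P ⟨gprod P l, gprod_mem_N P l⟩ = pr P ⟨m, hmN⟩ := by rw [pr_gprod, hl3]
    exact (pr_eq_iff P).1 this
  have h1 : g * (n : G) ∈ dc P ((n : G) * gprod P l) := by
    have h2 := mul_gprod_mem_dc P Y n hw l hl1 hl2 c hc
    have h3 := right_mul_mem_dc P (P.B.mul_mem ht hc') h2
    have e' : g * (n : G) = (n : G) * c * gprod P l * ((gprod P l)⁻¹ * m * c') := by
      have : g * (n : G) = (n : G) * ((n : G)⁻¹ * g * n) := by group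
      rw [this, e]; group
    rw [e']; exact h3
  have h4 : g * (n : G) ∈ dc P (n : G) := left_mul_mem_dc P hg (self_mem_dc P _)
  have h5 : dc P (n : G) = dc P ((n : G) * gprod P l) := by
    rw [← dc_eq_of_mem P h4, dc_eq_of_mem P h1]
  have h6 : (n : G)⁻¹ * ((n : G) * gprod P l) ∈ P.B :=
    (dc_eq_iff P n.2 (P.N.mul_mem n.2 (gprod_mem_N P l))).1 h5
  have h7 : gprod P l ∈ P.B := by simpa using h6
  have h8 : m ∈ P.B := by
    have : m = gprod P l * ((gprod P l)⁻¹ * m) := by group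
    rw [this]; exact P.B.mul_mem h7 ht
  rw [e]
  exact P.B.mul_mem (P.B.mul_mem hc h8) hc'

/-- `n P_Y ⊆ ⋃_{m ∈ ⟨Y⟩} B n m B` -/
theorem mul_par_mem_dc (Y : Set P.S) {n : G} (hn : n ∈ P.N) {y : G} (hy : y ∈ par P Y) :
    ∃ m ∈ Subgroup.closure (Subtype.val '' Y), n * y ∈ dc P (n * m) := by
  have hJ := val_image_subset P Y
  have key := sup_closure_mul_mem P (Subtype.val '' Y)
    {g | ∃ m ∈ Subgroup.closure (Subtype.val '' Y), g ∈ dc P (m * n⁻¹)} ?_ ?_ y⁻¹
    (Subgroup.inv_mem _ hy) n⁻¹ ⟨1, Subgroup.one_mem _, by rw [one_mul]; exact self_mem_dc P _⟩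
  · obtain ⟨m, hm, h⟩ := key
    refine ⟨m⁻¹, Subgroup.inv_mem _ hm, ?_⟩
    have := inv_mem_dc P h
    have e1 : (y⁻¹ * n⁻¹)⁻¹ = n * y := by group
    have e2 : (m * n⁻¹)⁻¹ = n * m⁻¹ := by group
    rwa [e1, e2] at this
  · rintro b hb g ⟨m, hm, hg⟩
    exact ⟨m, hm, left_mul_mem_dc P hb hg⟩
  · rintro s hs g ⟨m, hm, hg⟩
    have hmn : m * n⁻¹ ∈ P.N := P.N.mul_mem (closure_le_N P hJ hm) (P.N.inv_mem hn)
    have hsm : s * m ∈ Subgroup.closure (Subtype.val '' Y) :=
      Subgroup.mul_mem _ (Subgroup.subset_closure hs) hm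
    constructor
    · rcases S_mul_mem P (hJ hs) hmn hg with h | h
      · exact ⟨s * m, hsm, by rwa [mul_assoc]⟩
      · exact ⟨m, hm, h⟩
    · rcases S_inv_mul_mem P (hJ hs) hmn hg with h | h
      · exact ⟨s * m, hsm, by rwa [mul_assoc]⟩
      · exact ⟨m, hm, h⟩

end BN

section Main

variable {G : Type*} [Group G]

/-- **S2311-BB**: a parabolic permutation character restricted to `B`. -/
theorem pch_borel [Finite G] (P : BNPair G) (Y : Set P.S) (nrep : Wq P → G)
    (hrep : ∀ w, ∃ h : nrep w ∈ P.N, pr P ⟨nrep w, h⟩ = w) (b : G) (hb : b ∈ P.B) :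
    fixedPointCharacter (par P Y) b = ∑ᶠ w ∈ Red (sg P) ∅ Y,
      fixedPointCharacter ((BInt P (nrep w)).subgroupOf P.B) ⟨b, hb⟩ := by
  classical
  have hJ := val_image_subset P Y
  have hBpar : P.B ≤ par P Y := le_sup_left
  let φ : Red (sg P) ∅ Y → MulAction.orbitRel.Quotient (↥P.B) (G ⧸ par P Y) :=
    fun w => Quotient.mk'' (QuotientGroup.mk (nrep w.1) : G ⧸ par P Y)
  have hinj : Function.Injective φ := by
    rintro ⟨w, hw⟩ ⟨w', hw'⟩ h
    have h1 : (QuotientGroup.mk (nrep w) : G ⧸ par P Y) ∈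
        MulAction.orbit (↥P.B) (QuotientGroup.mk (nrep w') : G ⧸ par P Y) :=
      MulAction.orbitRel_apply.1 (Quotient.eq''.1 h)
    obtain ⟨c, hc⟩ := MulAction.mem_orbit_iff.1 h1
    have hc' : (QuotientGroup.mk ((c : G) * nrep w') : G ⧸ par P Y) = QuotientGroup.mk (nrep w) :=
      hc
    have hy : ((c : G) * nrep w')⁻¹ * nrep w ∈ par P Y := QuotientGroup.eq.1 hc'
    obtain ⟨hn, hpn⟩ := hrep w
    obtain ⟨hn', hpn'⟩ := hrep w'
    obtain ⟨m, hm, hdc⟩ := mul_par_mem_dc P Y hn' hy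
    have hmN : m ∈ P.N := closure_le_N P hJ hm
    have h2 : nrep w ∈ dc P (nrep w' * m) := by
      have e : nrep w = (c : G) * (nrep w' * (((c : G) * nrep w')⁻¹ * nrep w)) := by group
      rw [e]
      exact left_mul_mem_dc P c.2 hdc
    have h3 : pr P ⟨nrep w, hn⟩ = pr P (⟨nrep w', hn'⟩ * ⟨m, hmN⟩) :=
      pr_eq_of_mem_dc P (n := ⟨nrep w, hn⟩) (n' := ⟨nrep w', hn'⟩ * ⟨m, hmN⟩) h2
    have h4 : pr P (⟨nrep w', hn'⟩ * ⟨m, hmN⟩) = pr P ⟨nrep w', hn'⟩ * pr P ⟨m, hmN⟩ := rfl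
    rw [h4, hpn, hpn'] at h3
    have hv : pr P ⟨m, hmN⟩ ∈ Subgroup.closure (sg P '' Y) := by
      have := pr_mem_closure_of_mem P hJ (n := ⟨m, hmN⟩) hm
      rwa [Set.preimage_image_eq _ Subtype.val_injective] at this
    have h5 : w = w' := redY_unique (sg P) (sg_mul_self P) (closure_range_sg P) (Ps P) (Ps_one P)
      (Ps_B P) (Ps_C P) Y hw' hw hv h3
    exact Subtype.ext h5
  have hsurj : Function.Surjective φ := by
    intro ω
    induction ω using Quotient.inductionOn' with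
    | h x =>
      obtain ⟨g, rfl⟩ := QuotientGroup.mk_surjective x
      obtain ⟨n, hn, hgn⟩ := exists_mem_dc P g
      obtain ⟨c, hc, c', hc', hg⟩ := (mem_dc P).1 hgn
      obtain ⟨d, hdR, v, hv, hdv⟩ := redY_exists (sg P) (sg_mul_self P) (closure_range_sg P)
        (Ps P) (Ps_one P) (Ps_B P) (Ps_C P) Y (pr P ⟨n, hn⟩)
      obtain ⟨hd, hpd⟩ := hrep d
      obtain ⟨mv, hmv⟩ := pr_surjective P v
      have hmvpar : (mv : G) ∈ par P Y := by
        have h1 := mem_sup_of_pr_mem_closure P (J := Subtype.val '' Y) (n := mv)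
          (by rw [Set.preimage_image_eq _ Subtype.val_injective, hmv]; exact hv)
        exact (sup_le le_sup_right (inf_le_left.trans le_sup_left) :
          Subgroup.closure (Subtype.val '' Y) ⊔ (P.B ⊓ P.N) ≤ par P Y) h1
      have ht : (nrep d * (mv : G))⁻¹ * n ∈ P.B := by
        have h1 : pr P (⟨nrep d, hd⟩ * mv) = pr P ⟨n, hn⟩ := by
          rw [hdv]
          show pr P ⟨nrep d, hd⟩ * pr P mv = _
          rw [hpd, hmv]
        exact (pr_eq_iff P).1 h1
      refine ⟨⟨d, hdR⟩, ?_⟩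
      apply Quotient.sound'
      apply MulAction.orbitRel_apply.2
      apply MulAction.mem_orbit_iff.2
      refine ⟨⟨c⁻¹, P.B.inv_mem hc⟩, ?_⟩
      show (QuotientGroup.mk (c⁻¹ * g) : G ⧸ par P Y) = QuotientGroup.mk (nrep d)
      rw [eq_comm, QuotientGroup.eq]
      have e : (nrep d)⁻¹ * (c⁻¹ * g) = (mv : G) * ((nrep d * (mv : G))⁻¹ * n) * c' := by
        rw [hg]; group
      rw [e]
      exact Subgroup.mul_mem _ (Subgroup.mul_mem _ hmvpar (hBpar ht)) (hBpar hc')
  let e : Red (sg P) ∅ Y ≃ MulAction.orbitRel.Quotient (↥P.B) (G ⧸ par P Y) :=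
    Equiv.ofBijective φ ⟨hinj, hsurj⟩
  let _ : Fintype (MulAction.orbitRel.Quotient (↥P.B) (G ⧸ par P Y)) := Fintype.ofFinite _
  let _ : Fintype ↥P.B := Fintype.ofFinite _
  let r : MulAction.orbitRel.Quotient (↥P.B) (G ⧸ par P Y) → G ⧸ par P Y :=
    fun ω => QuotientGroup.mk (nrep (e.symm ω).1)
  have hr : ∀ ω, Quotient.mk'' (r ω) = ω := fun ω => e.apply_symm_apply ω
  have hstab : ∀ w ∈ Red (sg P) ∅ Y,
      MulAction.stabilizer (↥P.B) (QuotientGroup.mk (nrep w) : G ⧸ par P Y)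
        = (BInt P (nrep w)).subgroupOf P.B := by
    intro w hw
    obtain ⟨hn, hpn⟩ := hrep w
    ext c
    rw [MulAction.mem_stabilizer_iff, Subgroup.mem_subgroupOf, mem_BInt]
    have e1 : (c • (QuotientGroup.mk (nrep w) : G ⧸ par P Y))
        = QuotientGroup.mk ((c : G) * nrep w) := rfl
    rw [e1, eq_comm, QuotientGroup.eq, ← mul_assoc]
    constructor
    · intro h
      refine ⟨c.2, ?_⟩
      exact conj_mem_B_of_mem_par P Y ⟨nrep w, hn⟩ (by rw [hpn]; exact hw.2) c.2 h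
    · rintro ⟨-, h⟩
      exact hBpar h
  have h1 : fixedPointCharacter (par P Y) b
      = (Nat.card (MulAction.fixedBy (G ⧸ par P Y) (⟨b, hb⟩ : ↥P.B)) : ℂ) := rfl
  rw [h1, Cfsg.Agent.H19.card_fixedBy_eq_sum_orbits (⟨b, hb⟩ : ↥P.B) r hr]
  have h2 : (∑ᶠ w ∈ Red (sg P) ∅ Y,
      fixedPointCharacter ((BInt P (nrep w)).subgroupOf P.B) ⟨b, hb⟩)
      = ∑ᶠ w : Red (sg P) ∅ Y,
        fixedPointCharacter ((BInt P (nrep w.1)).subgroupOf P.B) ⟨b, hb⟩ :=
    (finsum_set_coe_eq_finsum_mem (Red (sg P) ∅ Y)).symm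
  rw [h2, ← finsum_comp_equiv e.symm, finsum_eq_sum_of_fintype]
  apply Finset.sum_congr rfl
  intro ω _
  rw [Cfsg.Agent.H19.indFun_one_eq_card_fixedBy]
  show _ = fixedPointCharacter ((BInt P (nrep (e.symm ω).1)).subgroupOf P.B) ⟨b, hb⟩
  rw [← hstab _ (e.symm ω).2]
  rfl

end Main

end Cfsg.Agent.H27.St
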