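import Cfsg.Agent.H23.StbDecDefs2

/-!
# SD-DECOMP (S2156 team project, helper23)

An automorphism with a normal form is inner ∘ diagonal ∘ graph ∘ field.
-/

set_option autoImplicit false

namespace Cfsg.Agent.H27.StbD

open Cfsg.Lie Cfsg.Agent.H23 Cfsg.Agent.H23.Stb Cfsg.Agent.H23.StbD

universe u

theorem decomp (h1 : StAlg.{u}) (h2 : StRootChar.{u}) (h3 : StField.{u}) : StDecomp.{u} := by
  intro D F _ _ z η rT w0 hC c bL bS hcart hc hA hbL hbS hconn hLS hedge hπlen hchain θ hnf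
  obtain ⟨x, δ, π, φ, ⟨k, hk, hδ⟩, hπ, hinj, hadj, hN1, hN2, hN3, hN4, hN5⟩ := hnf
  have hlen := hπlen π hπ hinj hadj
  obtain ⟨σ, hσ⟩ := h1 F D.rank (fun j i => z (D.simple j) (D.simple i))
    (fun i => D.isLong (D.simple i)) c bL bS π φ hc hA hbL hbS hconn hLS hedge hπ hinj hadj hlen
    hN3 hN4 hN5
  have hσ' : ∀ i < D.rank, ∀ t : F, φ i t = σ t ^ D.graphExp (ringChar F) i (π i) :=
    fun i hi t => hσ i hi t
  obtain ⟨Φ, hΦ⟩ := h3 D F z hC.hP.sem σ
  -- helper facts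
  have hGext : ∀ (y : ↥(D.group F)) (r : ℕ) (t : F),
      ((y : GL D.Idx F) : Matrix D.Idx D.Idx F) = D.x F r t → y = xG hC.hP.sem r t := by
    intro y r t h
    apply Subtype.ext
    exact eq_xU hC.hP.sem _ r t h
  have hΦx : ∀ (r : ℕ) (t : F), Φ (xG hC.hP.sem r t) = xG hC.hP.sem r (σ t) := by
    intro r t
    apply Subtype.ext
    rw [hΦ]
    exact glMap_xU hC.hP.sem hC.hP.sem (σ : F →+* F) r t
  have hΦs : ∀ (y : ↥(D.group F)) (r : ℕ) (t : F),
      ((y : GL D.Idx F) : Matrix D.Idx D.Idx F) = D.x F r t →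
      Φ.symm y = xG hC.hP.sem r (σ.symm t) := by
    intro y r t hy
    rw [MulEquiv.symm_apply_eq, hΦx, RingEquiv.apply_symm_apply]
    exact hGext y r t hy
  -- the permutation of the nodes
  have hbij : Function.Bijective (fun i : Fin D.rank => (⟨π i, hπ i i.isLt⟩ : Fin D.rank)) := by
    rw [← Finite.injective_iff_bijective]
    intro i j hij
    apply Fin.ext
    exact hinj i i.isLt j j.isLt (congrArg Fin.val hij)
  obtain ⟨π', hπ'⟩ : ∃ π' : Equiv.Perm (Fin D.rank), ∀ i : Fin D.rank, (π' i : ℕ) = π i :=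
    ⟨Equiv.ofBijective _ hbij, fun i => rfl⟩
  refine ⟨x⁻¹, δ.symm, Φ.symm.trans ((conjL x θ).trans δ), Φ, ?_, ?_, ?_, ?_⟩
  · -- diagonal
    obtain ⟨χ, hχ, hχ1, hχ2⟩ := h2 D F z η hC.hP hchain k⁻¹ ((torusGroup D F).inv_mem hk)
    refine ⟨χ, hχ, fun y => ?_⟩
    have e : ((δ.symm y : ↥(D.group F)) : GL D.Idx F) = k⁻¹ * (y : GL D.Idx F) * k := by
      have h := hδ (δ.symm y)
      rw [MulEquiv.apply_symm_apply] at h
      rw [h]; group
    rw [inv_inv] at hχ2
    rw [e, Units.val_mul, Units.val_mul, hχ1, hχ2]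
  · -- graph
    refine ⟨π', ?_, fun y i t => ⟨fun hy => ?_, fun hy => ?_⟩⟩
    · intro i j hij
      have hij' : (i : ℕ) ≠ j := fun h => hij (Fin.ext h)
      have hπij : π i ≠ π j := fun h => hij' (hinj i i.isLt j j.isLt h)
      unfold ChevalleyDatum.bonds
      rw [hπ' i, hπ' j, hcart _ (hπ i i.isLt) _ (hπ j j.isLt), hcart _ (hπ j j.isLt) _ (hπ i i.isLt),
        hcart _ i.isLt _ j.isLt, hcart _ j.isLt _ i.isLt]
      have a1 := hadj i i.isLt j j.isLt hij'
      have a2 := hadj j j.isLt i i.isLt (Ne.symm hij')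
      by_cases b1 : z (D.simple j) (D.simple i) = 0
      · have b1' : z (D.simple (π j)) (D.simple (π i)) = 0 := by
          by_contra hne
          exact (a1.mp hne) b1
        rw [b1, b1', mul_zero, mul_zero]
      · by_cases b2 : z (D.simple i) (D.simple j) = 0
        · have b2' : z (D.simple (π i)) (D.simple (π j)) = 0 := by
            by_contra hne
            exact (a2.mp hne) b2
          rw [b2, b2', zero_mul, zero_mul]
        · have c1 := hA i i.isLt j j.isLt hij' b1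
          have c2 := hA j j.isLt i i.isLt (Ne.symm hij') b2
          have c3 := hA (π i) (hπ i i.isLt) (π j) (hπ j j.isLt) hπij (a1.mpr b1)
          have c4 := hA (π j) (hπ j j.isLt) (π i) (hπ i i.isLt) (Ne.symm hπij) (a2.mpr b2)
          rw [c1, c2, c3, c4]
          rcases hlen with hl | hl
          · rw [hl i i.isLt, hl j j.isLt]
          · rw [hl i i.isLt, hl j j.isLt]
            cases D.isLong (D.simple i) <;> cases D.isLong (D.simple j) <;> simp
    · rw [MulEquiv.trans_apply, hΦs y _ t hy, hN1 i i.isLt, hσ' i i.isLt,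
        RingEquiv.apply_symm_apply, hπ' i]
      rfl
    · rw [MulEquiv.trans_apply, hΦs y _ t hy, hN2 i i.isLt, hσ' i i.isLt,
        RingEquiv.apply_symm_apply, hπ' i]
      rfl
  · -- field
    refine ⟨σ, fun y r t _ hy => ?_⟩
    rw [hGext y r t hy, hΦx r t]
    rfl
  · intro y
    show θ y = x⁻¹ * δ.symm (((conjL x θ).trans δ) (Φ.symm (Φ y))) * (x⁻¹)⁻¹
    rw [MulEquiv.symm_apply_apply, MulEquiv.trans_apply, MulEquiv.symm_apply_apply, conjL_apply]
    simp [mul_assoc]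

example (h1 : Cfsg.Agent.H23.StbD.StAlg.{u}) (h2 : Cfsg.Agent.H23.StbD.StRootChar.{u})
    (h3 : Cfsg.Agent.H23.Stb.StField.{u}) : Cfsg.Agent.H23.StbD.StDecomp.{u} := decomp h1 h2 h3

end Cfsg.Agent.H27.StbD
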