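import Cfsg.Agent.H23.StbDecDefs2

/-!
# SD-ROOTCHAR (S2156 team project, helper23)

An element of `Ĥ = torusGroup D F` is the diagonal matrix of a character of the root lattice.
-/

set_option autoImplicit false

namespace Cfsg.Agent.H27.StbD

open Cfsg.Lie Cfsg.Agent.H23 Cfsg.Agent.H23.Stb Cfsg.Agent.H23.StbD

universe u

/-- the entry of `x_r(t)` at `(r + s, s)` -/
theorem rootChar_mem_xEntries (D : ChevalleyDatum) (r s k : ℕ) (hs : s < D.nroots) (hsr : s ≠ r)
    (hsn : s ≠ D.neg r) (hk : k < D.nroots) (h : D.chainRoot r s 1 = some k) :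
    ∃ N : ℤ, ((k, N, 1) : ℕ × ℤ × ℕ) ∈ xEntries D r s := by
  unfold ChevalleyDatum.chainRoot ChevalleyDatum.chainEntry at h
  split at h
  · simp at h
  · rename_i e hf
    obtain ⟨⟨k', N⟩, hkN, hk'⟩ := Option.map_eq_some_iff.mp h
    simp only at hk'
    subst hk'
    refine ⟨N, ?_⟩
    unfold xEntries
    rw [if_pos hs, if_neg hsr, if_neg (show ¬ s = D.negIdx.getD r 0 from hsn)]
    apply List.mem_cons_of_mem
    rw [List.mem_flatMap]
    refine ⟨e, ?_, ?_⟩
    · rw [List.mem_filter]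
      have hp := @List.find?_some _ _ _ _ hf
      exact ⟨List.mem_of_find?_eq_some hf, hp⟩
    · rw [List.mem_map]
      refine ⟨((k', N), 0), ?_, rfl⟩
      rw [List.mem_filter]
      refine ⟨?_, by simpa using hk⟩
      rw [List.mem_zipIdx_iff_getElem?]
      exact hkN

theorem rootChar : StRootChar.{u} := by
  intro D F _ z η hP hchain k hk
  have hT := hP.tab
  have hT2 := hP.tab2
  obtain ⟨χ0, h1, h2, h3, h4⟩ := hk
  have hneg : ∀ r < D.nroots, χ0 (D.neg r) = (χ0 r)⁻¹ := by
    intro r hr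
    have hmem : ((r, -1, 2) : ℕ × ℤ × ℕ) ∈ xEntries D r (D.neg r) := by
      unfold xEntries
      rw [if_pos (hT.neg_lt r hr), if_neg (hT2.neg_ne r hr),
        if_pos (show D.neg r = D.negIdx.getD r 0 from rfl)]
      simp
    have h1' := h2 r hr (D.neg r) _ hmem
    have h0 := h1 r
    simp only at h1'
    have e1 : χ0 (D.neg r) * χ0 r = 1 := by
      have e : χ0 r * 1 = χ0 r * (χ0 (D.neg r) * χ0 r) := by
        rw [mul_one]; nth_rewrite 1 [h1']; ring
      exact (mul_left_cancel₀ h0 e).symm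
    exact eq_inv_of_mul_eq_one_left e1
  refine ⟨fun r => Units.mk0 (χ0 r) (h1 r), ⟨?_, ?_⟩, ?_, ?_⟩
  · intro r hr
    apply Units.ext
    simp only [Units.val_mk0, Units.val_inv_eq_inv_val]
    exact hneg r hr
  · intro r s k' hr hs hk'
    obtain ⟨hkl, hsr, hsn⟩ := hchain r hr s hs k' hk'
    obtain ⟨N, hN⟩ := rootChar_mem_xEntries D r s k' hs hsr hsn hkl hk'
    have e := h2 r hr s _ hN
    apply Units.ext
    simp only [Units.val_mk0, Units.val_mul]
    simp only [pow_one] at e
    rw [e, mul_comm]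
  · rw [h4]
    unfold ChevalleyDatum.charDiag
    congr 1
    funext j
    rcases j with i | s
    · exact h3 i
    · rfl
  · have e : ((k : GL D.Idx F) : Matrix D.Idx D.Idx F) *
        D.charDiag F (fun r => (Units.mk0 (χ0 r) (h1 r))⁻¹) = 1 := by
      rw [h4]
      unfold ChevalleyDatum.charDiag
      rw [Matrix.diagonal_mul_diagonal, ← Matrix.diagonal_one]
      congr 1
      funext j
      rcases j with i | s
      · show χ0 (D.nroots + i.val) * 1 = 1
        rw [h3 i, mul_one]
      · show χ0 s.val * (((Units.mk0 (χ0 s.val) (h1 _))⁻¹ : Fˣ) : F) = 1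
        rw [Units.val_inv_eq_inv_val, Units.val_mk0]
        exact mul_inv_cancel₀ (h1 _)
    calc ((k⁻¹ : GL D.Idx F) : Matrix D.Idx D.Idx F)
        = ((k⁻¹ : GL D.Idx F) : Matrix D.Idx D.Idx F) *
            (((k : GL D.Idx F) : Matrix D.Idx D.Idx F) *
              D.charDiag F (fun r => (Units.mk0 (χ0 r) (h1 r))⁻¹)) := by rw [e, mul_one]
      _ = D.charDiag F (fun r => (Units.mk0 (χ0 r) (h1 r))⁻¹) := by
        rw [← mul_assoc, ← Units.val_mul, inv_mul_cancel, Units.val_one, one_mul]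

example : Cfsg.Agent.H23.StbD.StRootChar.{u} := rootChar

end Cfsg.Agent.H27.StbD
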