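import Mathlib
import Cfsg.Agent.H23.StbDefs

/-!
# S2125-GAL (helper23's team project S2125): a field with `p ^ f` elements has exactly `f`
automorphisms
-/

set_option autoImplicit false
set_option linter.style.haveILetI false

namespace Cfsg.Agent.H27.Stb

open Cfsg.Agent.H23.Stb

universe u

/-- Ring automorphisms of a field of characteristic `p` are the `ZMod p`-algebra automorphisms. -/
noncomputable def galEquiv (F : Type u) [Field F] (p : ℕ) [Fact p.Prime] [CharP F p] :
    letI := ZMod.algebra F p
    (F ≃+* F) ≃ (F ≃ₐ[ZMod p] F) :=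
  letI := ZMod.algebra F p
  { toFun := fun σ => AlgEquiv.ofRingEquiv (f := σ) (fun x => by
      have h : (σ : F →+* F).comp (algebraMap (ZMod p) F) = algebraMap (ZMod p) F :=
        Subsingleton.elim _ _
      exact congrArg (fun g : ZMod p →+* F => g x) h)
    invFun := fun τ => τ.toRingEquiv
    left_inv := fun σ => by ext; rfl
    right_inv := fun τ => by ext; rfl }

/-- **S2125-GAL**. -/
theorem gal : StGal.{u} := by
  intro F _ _ p f _ _ hcard
  letI := ZMod.algebra F p
  have h1 : Nat.card (F ≃+* F) = Nat.card (F ≃ₐ[ZMod p] F) := Nat.card_congr (galEquiv F p)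
  rw [h1, IsGalois.card_aut_eq_finrank]
  have h2 : Nat.card F = Nat.card (ZMod p) ^ Module.finrank (ZMod p) F :=
    Module.natCard_eq_pow_finrank
  rw [Nat.card_zmod, hcard] at h2
  exact (Nat.pow_right_injective (Fact.out : p.Prime).two_le h2).symm

example : Cfsg.Agent.H23.Stb.StGal.{u} := gal

end Cfsg.Agent.H27.Stb
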