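import Mathlib

/-!
# helper27: S5979 piece DIAG (`diag3_props`) for helper99
-/

set_option autoImplicit false

namespace Cfsg.Agent.H27.Ten

/-- **S5979-DIAG** -/
theorem diag3_props {F : Type*} [Field F] (n : ℕ) (hn : 2 ≤ n) (u v w : F) :
    ∃ M : Matrix (Fin n) (Fin n) F, M.det = u * v * w ^ (n - 2) ∧
      (∀ k : ℕ, M ^ k = Matrix.diagonal (fun i : Fin n =>
        if (i : ℕ) = 0 then u ^ k else if (i : ℕ) = 1 then v ^ k else w ^ k)) ∧
      (u ≠ v → ∀ z : F, M ≠ z • (1 : Matrix (Fin n) (Fin n) F)) ∧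
      (3 ≤ n → u ≠ w → ∀ z : F, M ≠ z • (1 : Matrix (Fin n) (Fin n) F)) ∧
      (∀ μ : F, w = μ → (M - μ • (1 : Matrix (Fin n) (Fin n) F)).rank ≤ 2) ∧
      (∀ μ : F, v = μ → w = μ → (M - μ • (1 : Matrix (Fin n) (Fin n) F)).rank ≤ 1) ∧
      (∀ μ : F, u = μ → v ≠ μ → w ≠ μ →
        (M - μ • (1 : Matrix (Fin n) (Fin n) F)).rank = n - 1) := by
  classical
  obtain ⟨m, rfl⟩ : ∃ m, n = m + 2 := ⟨n - 2, by omega⟩
  obtain ⟨d, hd⟩ : ∃ d : Fin (m + 2) → F,
      d = fun i : Fin (m + 2) => if (i : ℕ) = 0 then u else if (i : ℕ) = 1 then v else w :=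
    ⟨_, rfl⟩
  have hd0 : d 0 = u := by rw [hd]; simp
  have hd1 : d 1 = v := by rw [hd]; simp
  have hdw : ∀ i : Fin (m + 2), 2 ≤ (i : ℕ) → d i = w := by
    intro i hi
    rw [hd]
    have h0 : (i : ℕ) ≠ 0 := by omega
    have h1 : (i : ℕ) ≠ 1 := by omega
    simp [h0, h1]
  have hone : ∀ i : Fin (m + 2), (i : ℕ) = 1 → i = 1 := by
    intro i hi
    apply Fin.ext
    rw [hi]
    rfl
  have hsub : ∀ μ : F, Matrix.diagonal d - μ • (1 : Matrix (Fin (m + 2)) (Fin (m + 2)) F)
      = Matrix.diagonal (fun i => d i - μ) := by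
    intro μ
    rw [Matrix.smul_one_eq_diagonal, Matrix.diagonal_sub]
  refine ⟨Matrix.diagonal d, ?_, ?_, ?_, ?_, ?_, ?_, ?_⟩
  · rw [Matrix.det_diagonal, Fin.prod_univ_succ, Fin.prod_univ_succ]
    have h2 : d (Fin.succ 0) = v := hd1
    have h3 : ∀ i : Fin m, d i.succ.succ = w := fun i => hdw _ (by simp)
    rw [hd0, h2]
    simp only [h3, Finset.prod_const, Finset.card_univ, Fintype.card_fin]
    rw [Nat.add_sub_cancel, mul_assoc]
  · intro k
    rw [Matrix.diagonal_pow]
    congr 1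
    funext i
    rw [hd]
    simp only [Pi.pow_apply]
    split_ifs <;> rfl
  · intro huv z h
    have h0 := congrFun (congrFun h 0) 0
    have h1 := congrFun (congrFun h 1) 1
    simp only [Matrix.diagonal_apply_eq, Matrix.smul_apply, Matrix.one_apply_eq, smul_eq_mul,
      mul_one] at h0 h1
    rw [hd0] at h0
    rw [hd1] at h1
    exact huv (h0.trans h1.symm)
  · intro h3 huw z h
    have h0 := congrFun (congrFun h 0) 0
    have h2 := congrFun (congrFun h ⟨2, by omega⟩) ⟨2, by omega⟩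
    simp only [Matrix.diagonal_apply_eq, Matrix.smul_apply, Matrix.one_apply_eq, smul_eq_mul,
      mul_one] at h0 h2
    rw [hd0] at h0
    rw [hdw ⟨2, by omega⟩ le_rfl] at h2
    exact huw (h0.trans h2.symm)
  · intro μ hw
    rw [hsub, Matrix.rank_diagonal, Fintype.card_subtype]
    refine (Finset.card_le_card (?_ : _ ⊆ ({0, 1} : Finset (Fin (m + 2))))).trans
      Finset.card_le_two
    intro i hi
    rw [Finset.mem_filter] at hi
    by_contra hne
    simp only [Finset.mem_insert, Finset.mem_singleton, not_or] at hne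
    have h2 : 2 ≤ (i : ℕ) := by
      have h0 : (i : ℕ) ≠ 0 := fun h => hne.1 (Fin.ext h)
      have h1 : (i : ℕ) ≠ 1 := fun h => hne.2 (hone i h)
      omega
    apply hi.2
    rw [hdw i h2, hw, sub_self]
  · intro μ hv hw
    rw [hsub, Matrix.rank_diagonal, Fintype.card_subtype]
    refine (Finset.card_le_card (?_ : _ ⊆ ({0} : Finset (Fin (m + 2))))).trans
      (Finset.card_singleton _).le
    intro i hi
    rw [Finset.mem_filter] at hi
    by_contra hne
    rw [Finset.mem_singleton] at hne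
    have h0 : (i : ℕ) ≠ 0 := fun h => hne (Fin.ext h)
    apply hi.2
    by_cases h1 : (i : ℕ) = 1
    · rw [hone i h1, hd1, hv, sub_self]
    · rw [hdw i (by omega), hw, sub_self]
  · intro μ hu hv hw
    rw [hsub, Matrix.rank_diagonal, Fintype.card_subtype]
    have hfilter : ∀ s : Finset (Fin (m + 2)), (∀ i, i ∈ s ↔ d i - μ ≠ 0) →
        s.card = m + 2 - 1 := by
      intro s hs
      have h1 : s = Finset.univ.erase 0 := by
        ext i
        rw [hs, Finset.mem_erase]
        constructor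
        · intro h
          refine ⟨fun hi0 => h ?_, Finset.mem_univ _⟩
          rw [hi0, hd0, hu, sub_self]
        · rintro ⟨hi0, _⟩ h
          have h0 : (i : ℕ) ≠ 0 := fun h => hi0 (Fin.ext h)
          by_cases h1 : (i : ℕ) = 1
          · rw [hone i h1, hd1] at h
            exact hv (sub_eq_zero.1 h)
          · rw [hdw i (by omega)] at h
            exact hw (sub_eq_zero.1 h)
      rw [h1, Finset.card_erase_of_mem (Finset.mem_univ _), Finset.card_univ, Fintype.card_fin]
    apply hfilter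
    intro i
    rw [Finset.mem_filter]
    simp

end Cfsg.Agent.H27.Ten
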