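import Mathlib
import Cfsg.Agent.H61.TmExDefs
import Cfsg.Agent.H4.TqMinElEven
import Cfsg.Agent.H49.MinusForm
import Cfsg.Agent.H53.TenFIN
import Cfsg.Agent.S0288

/-!
# TMX-BLOCKONE (S5987-EXEVEN sub-project, helper61)

For `i = ii F r` even there is a quadratic space of dimension `i` with a fixed-point-free
isometry of order `r`: an element of order `r` of `O⁻_i(q)` (Cauchy and the order formula).
-/

set_option autoImplicit false
open scoped MatrixGroups
open scoped Matrix

namespace Cfsg.Agent.H27.Tm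

open Cfsg.Agent.H45 Cfsg.Agent.H42.Spd Cfsg.Agent.H42.Ti Cfsg.Agent.H77.Tq Cfsg.Agent.H77.Tm
  Cfsg.Agent.H61.Tm Module Polynomial

universe u

theorem blockOne : StBlockOne.{u} := by
  intro F _ _ p hp _ r hr hr2 hrp hev a b hab
  classical
  have hrF : Fact r.Prime := ⟨hr⟩
  -- `q` is a unit modulo `r`, so its order is positive
  obtain ⟨f, -, hf⟩ := FiniteField.card F p
  have hq0 : ((Fintype.card F : ℕ) : ZMod r) ≠ 0 := by
    rw [Ne, ZMod.natCast_eq_zero_iff, hf]
    intro hd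
    exact hrp ((Nat.prime_dvd_prime_iff_eq hr hp.out).mp (hr.dvd_of_dvd_pow hd))
  have hpos : 0 < orderOf ((Fintype.card F : ℕ) : ZMod r) := by
    rw [orderOf_pos_iff, isOfFinOrder_iff_pow_eq_one]
    exact ⟨r - 1, by have := hr.two_le; omega, ZMod.pow_card_sub_one_eq_one hq0⟩
  have hii : ii F r = orderOf ((Fintype.card F : ℕ) : ZMod r) := rfl
  rw [hii] at hev ⊢
  obtain ⟨k, hk⟩ : ∃ k, orderOf ((Fintype.card F : ℕ) : ZMod r) = 2 * (k + 1) := by
    obtain ⟨c, hc⟩ := hev
    exact ⟨c - 1, by omega⟩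
  -- Cauchy in the isometry group of dimension `2 k + 2`
  have hcard := Cfsg.Agent.S0288.key (F := F) rfl a b hab k
  have hdvd : r ∣ Nat.card ↥(Cfsg.isometryGroup F (Cfsg.quadFormMinus k F a b)) := by
    rw [hcard]
    exact Dvd.dvd.mul_right (Dvd.dvd.mul_left (Cfsg.Agent.H4.Tq.dvd_pow_add_one _ r k hr hk) _) _
  obtain ⟨x₀, hx₀⟩ := exists_prime_orderOf_dvd_card' r hdvd
  have hx₀r : ((x₀ : GL (MI k) F)) ^ r = 1 := by
    have h1 : x₀ ^ r = 1 := by rw [← hx₀]; exact pow_orderOf_eq_one x₀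
    have h3 := congrArg
      (fun g : ↥(Cfsg.isometryGroup F (Cfsg.quadFormMinus k F a b)) => (g : GL (MI k) F)) h1
    simpa using h3
  obtain ⟨A, hA⟩ : ∃ A : Matrix (MI k) (MI k) F, A = ((x₀ : GL (MI k) F) : Matrix (MI k) (MI k) F) :=
    ⟨_, rfl⟩
  have hAr : A ^ r = 1 := by
    have h3 := congrArg (fun g : GL (MI k) F => (g : Matrix (MI k) (MI k) F)) hx₀r
    rw [hA]
    simpa using h3
  have hA1 : A ≠ 1 := by
    intro h
    have h1 : x₀ = 1 := by
      apply Subtype.ext
      apply Units.ext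
      rw [← hA, h]
      rfl
    rw [h1, orderOf_one] at hx₀
    exact hr.one_lt.ne hx₀
  have hAiso : ∀ v : MI k → F,
      Cfsg.quadFormMinus k F a b (A *ᵥ v) = Cfsg.quadFormMinus k F a b v := by
    rw [hA]
    exact Cfsg.Agent.H49.mem_isometryGroup_iff.mp x₀.2
  -- the rank of `A - 1`
  have hrF' : (r : F) ≠ 0 := by
    intro h
    have h1 := (CharP.cast_eq_zero_iff F p r).mp h
    exact hrp ((Nat.prime_dvd_prime_iff_eq hp.out hr).mp h1).symm
  have hc : Fintype.card (MI k) = 2 * (k + 1) := by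
    simp only [Fintype.card_sum, Fintype.card_fin]
    ring
  have hrank : (A - 1).rank = 2 * (k + 1) := by
    have hY : (Matrix.reindexAlgEquiv F F (Fintype.equivFin (MI k)) A) ^ r = 1 := by
      rw [← map_pow, hAr, map_one]
    have h1 := Cfsg.Agent.H53.Ten.order_dvd_rank_sub_one r hr hrF' _ hY
    have h3 : Matrix.reindexAlgEquiv F F (Fintype.equivFin (MI k)) A - 1 =
        Matrix.reindexAlgEquiv F F (Fintype.equivFin (MI k)) (A - 1) := by
      rw [map_sub, map_one]
    rw [h3, Matrix.coe_reindexAlgEquiv, Matrix.rank_reindex, hk] at h1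
    have h4 : (A - 1).rank ≤ 2 * (k + 1) := by
      have h5 := Matrix.rank_le_card_width (A - 1)
      omega
    have h5 : (A - 1).rank ≠ 0 := by
      intro h
      exact hA1 (sub_eq_zero.mp (Cfsg.Agent.H4.Tq.eq_zero_of_rank_eq_zero _ h))
    have h6 := Nat.le_of_dvd (Nat.pos_of_ne_zero h5) h1
    omega
  -- the model
  have hfin : Module.finrank F (MI k → F) = 2 * (k + 1) := by
    rw [Module.finrank_fintype_fun_eq_card, hc]
  have hg1 : Matrix.toLinAlgEquiv' A - 1 = (A - 1).mulVecLin := by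
    rw [← map_one (Matrix.toLinAlgEquiv' (R := F) (n := MI k)), ← map_sub]
    rfl
  refine ⟨MI k → F, inferInstance, inferInstance, inferInstance, Cfsg.Agent.H49.QMin k F a b,
    Matrix.toLinAlgEquiv' A, ⟨hr, hr2, hrF', ?_, ?_, ?_⟩, ?_, ?_⟩
  · -- nondegenerate polar form
    intro x hx
    have hnd := Cfsg.Agent.H49.QMin_nondeg k a b (Cfsg.Agent.H49.disc_ne_zero_of_aniso a b hab)
    exact hnd.1 x hx
  · intro x
    rw [Cfsg.Agent.H49.QMin_coe]
    exact hAiso x
  · rw [← map_pow, hAr, map_one]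
  · rw [hfin, hk]
  · rw [hg1]
    have hrn := LinearMap.finrank_range_add_finrank_ker ((A - 1).mulVecLin)
    have hrank' : (A - 1).rank = Module.finrank F ↥(LinearMap.range ((A - 1).mulVecLin)) := rfl
    rw [← hrank', hrank, hfin] at hrn
    apply Submodule.finrank_eq_zero.mp
    omega

example : Cfsg.Agent.H61.Tm.StBlockOne.{u} := blockOne

end Cfsg.Agent.H27.Tm
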