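import Mathlib
import Cfsg.Agent.H77.TpDefs

/-!
# S5980-INTWLIN (helper77's team project S5980): the dimension of a space of intertwiners
-/

set_option autoImplicit false

namespace Cfsg.Agent.H27.Tp

open Cfsg.Agent.H77.Tp Module

universe u

section aux

variable {F : Type u} [Field F] {V U : Type u} [AddCommGroup V] [Module F V]
  [AddCommGroup U] [Module F U]

theorem pow_fix (T : Module.End F U) (v : U) (h : T v = v) (j : ℕ) : (T ^ j) v = v := by
  induction j with
  | zero => simp
  | succ j ih => rw [pow_succ, Module.End.mul_apply, h, ih]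

theorem comm_pow (S : Module.End F V) (T : Module.End F U) (M : U →ₗ[F] V)
    (hc : S ∘ₗ M = M ∘ₗ T) (j : ℕ) (x : U) : M ((T ^ j) x) = (S ^ j) (M x) := by
  induction j generalizing x with
  | zero => simp
  | succ j ih =>
    rw [pow_succ, Module.End.mul_apply, ih, pow_succ, Module.End.mul_apply]
    congr 1
    exact (LinearMap.congr_fun hc x).symm

theorem restr_pow (T : Module.End F U) (p : Submodule F U) (h : ∀ x ∈ p, T x ∈ p) (n : ℕ)
    (x : p) : (((T.restrict h : Module.End F p) ^ n) x : U) = (T ^ n) (x : U) := by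
  induction n generalizing x with
  | zero => simp
  | succ n ih =>
    rw [pow_succ, Module.End.mul_apply, ih, pow_succ, Module.End.mul_apply]
    rfl

theorem ker_inf_range (T : Module.End F U) (r : ℕ) (hr : (r : F) ≠ 0) (hT : T ^ r = 1) :
    LinearMap.ker (T - 1) ⊓ LinearMap.range (T - 1) = ⊥ := by
  rw [eq_bot_iff]
  rintro v ⟨hv1, w, rfl⟩
  have hfix : T ((T - 1) w) = (T - 1) w := by
    have h0 := LinearMap.mem_ker.mp hv1
    rw [LinearMap.sub_apply, Module.End.one_apply, sub_eq_zero] at h0
    exact h0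
  have h1 : (∑ j ∈ Finset.range r, T ^ j) ((T - 1) w) = 0 := by
    rw [← Module.End.mul_apply, geom_sum_mul, hT, sub_self, LinearMap.zero_apply]
  have h2 : (∑ j ∈ Finset.range r, T ^ j) ((T - 1) w) = (r : F) • ((T - 1) w) := by
    rw [LinearMap.sum_apply, Finset.sum_congr rfl (fun j _ => pow_fix T _ hfix j),
      Finset.sum_const, Finset.card_range, Nat.cast_smul_eq_nsmul]
  rw [h1] at h2
  have h3 := (smul_eq_zero.mp h2.symm).resolve_left hr
  rw [h3]
  exact Submodule.zero_mem _

end aux

/-- **S5980-INTWLIN**. -/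
theorem intwLin (hGen : StGen.{u}) : StIntwLin.{u} := by
  intro F _ _ V U _ _ _ _ _ _ S T r hr hrF hS hT W hW
  classical
  -- `range (T - 1)` is `T`-invariant
  have hRTinv : ∀ x ∈ LinearMap.range (T - 1), T x ∈ LinearMap.range (T - 1) := by
    rintro _ ⟨y, rfl⟩
    refine ⟨T y, ?_⟩
    simp only [LinearMap.sub_apply, Module.End.one_apply, map_sub]
  have hdisj : LinearMap.ker (T - 1) ⊓ LinearMap.range (T - 1) = ⊥ := ker_inf_range T r hrF hT
  have htop : LinearMap.ker (T - 1) ⊔ LinearMap.range (T - 1) = ⊤ := by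
    apply Submodule.eq_top_of_disjoint
    · rw [add_comm, LinearMap.finrank_range_add_finrank_ker]
    · rw [disjoint_iff]; exact hdisj
  -- the restriction of `T` to `range (T - 1)`
  obtain ⟨T', hT'⟩ : ∃ T' : Module.End F ↥(LinearMap.range (T - 1)),
      T' = T.restrict hRTinv := ⟨_, rfl⟩
  have hT'pow : ∀ (n : ℕ) (x : ↥(LinearMap.range (T - 1))), ((T' ^ n) x : U) = (T ^ n) (x : U) := by
    intro n x; rw [hT']; exact restr_pow T _ hRTinv n x
  have hT'r : T' ^ r = 1 := by
    ext x
    rw [hT'pow, hT]; rfl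
  have hker' : LinearMap.ker (T' - 1) = ⊥ := by
    rw [LinearMap.ker_eq_bot']
    intro x hx
    have h1 : (x : U) ∈ LinearMap.ker (T - 1) := by
      rw [LinearMap.mem_ker, LinearMap.sub_apply, Module.End.one_apply]
      have h2 := congrArg (fun y : ↥(LinearMap.range (T - 1)) => (y : U)) hx
      simp only [LinearMap.sub_apply, Module.End.one_apply, Submodule.coe_sub,
        Submodule.coe_zero] at h2
      rw [← h2, hT']; rfl
    have h3 : (x : U) ∈ LinearMap.ker (T - 1) ⊓ LinearMap.range (T - 1) := ⟨h1, x.2⟩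
    rw [hdisj] at h3
    exact Subtype.ext ((Submodule.mem_bot F).mp h3)
  obtain ⟨v, w, hv, hw⟩ := hGen F ↥(LinearMap.range (T - 1)) T' r hr hrF hT'r hker'
  -- elements of `W` respect the decompositions
  have hMK : ∀ M ∈ W, ∀ x ∈ LinearMap.ker (T - 1), M x ∈ LinearMap.ker (S - 1) := by
    intro M hM x hx
    have h0 := LinearMap.mem_ker.mp hx
    rw [LinearMap.sub_apply, Module.End.one_apply, sub_eq_zero] at h0
    rw [LinearMap.mem_ker, LinearMap.sub_apply, Module.End.one_apply, sub_eq_zero]
    have h1 := LinearMap.congr_fun (hW M hM) x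
    simp only [LinearMap.comp_apply] at h1
    rw [h1, h0]
  have hMR : ∀ M ∈ W, ∀ x ∈ LinearMap.range (T - 1), M x ∈ LinearMap.range (S - 1) := by
    rintro M hM _ ⟨y, rfl⟩
    refine ⟨M y, ?_⟩
    have h1 := LinearMap.congr_fun (hW M hM) y
    simp only [LinearMap.comp_apply] at h1
    simp only [LinearMap.sub_apply, Module.End.one_apply, map_sub]
    rw [h1]
  -- the two components of the embedding
  let Φ₁ : ↥W →ₗ[F] (↥(LinearMap.ker (T - 1)) →ₗ[F] ↥(LinearMap.ker (S - 1))) :=
    { toFun := fun M => LinearMap.codRestrict (LinearMap.ker (S - 1))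
        (M.1 ∘ₗ (LinearMap.ker (T - 1)).subtype) (fun x => hMK M.1 M.2 x.1 x.2)
      map_add' := fun M N => by ext x; rfl
      map_smul' := fun c M => by ext x; rfl }
  let Φ₂ : ↥W →ₗ[F] (Fin v → ↥(LinearMap.range (S - 1))) :=
    { toFun := fun M k => ⟨M.1 ((w k : ↥(LinearMap.range (T - 1))) : U),
        hMR M.1 M.2 _ (w k).2⟩
      map_add' := fun M N => by ext k; simp
      map_smul' := fun c M => by ext k; simp }
  have hinj : Function.Injective (Φ₁.prod Φ₂) := by
    rw [injective_iff_map_eq_zero]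
    intro M hM
    have h1 : Φ₁ M = 0 := congrArg Prod.fst hM
    have h2 : Φ₂ M = 0 := congrArg Prod.snd hM
    have hK : ∀ x ∈ LinearMap.ker (T - 1), M.1 x = 0 := by
      intro x hx
      have h3 := LinearMap.congr_fun h1 ⟨x, hx⟩
      exact congrArg Subtype.val h3
    have hwk : ∀ k, M.1 ((w k : ↥(LinearMap.range (T - 1))) : U) = 0 := by
      intro k
      exact congrArg Subtype.val (congrFun h2 k)
    have hle : (⊤ : Submodule F ↥(LinearMap.range (T - 1))) ≤
        LinearMap.ker (M.1 ∘ₗ (LinearMap.range (T - 1)).subtype) := by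
      rw [← hw, Submodule.span_le]
      rintro _ ⟨p, rfl⟩
      show (M.1 ∘ₗ (LinearMap.range (T - 1)).subtype) ((T' ^ p.1) (w p.2)) = 0
      rw [LinearMap.comp_apply, Submodule.subtype_apply, hT'pow,
        comm_pow S T M.1 (hW M.1 M.2), hwk, map_zero]
    have hR : ∀ x ∈ LinearMap.range (T - 1), M.1 x = 0 := by
      intro x hx
      exact LinearMap.mem_ker.mp
        (hle (Submodule.mem_top : (⟨x, hx⟩ : ↥(LinearMap.range (T - 1))) ∈ _))
    apply Subtype.ext
    apply LinearMap.ext
    intro x
    have hx : x ∈ LinearMap.ker (T - 1) ⊔ LinearMap.range (T - 1) := by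
      rw [htop]; exact Submodule.mem_top
    obtain ⟨y, hy, z, hz, rfl⟩ := Submodule.mem_sup.mp hx
    rw [map_add, hK y hy, hR z hz, add_zero]
    rfl
  have hdim := LinearMap.finrank_le_finrank_of_injective hinj
  rw [Module.finrank_prod, Module.finrank_linearMap, Module.finrank_pi_fintype,
    Finset.sum_const, Finset.card_univ, Fintype.card_fin, smul_eq_mul] at hdim
  calc orderOf (Fintype.card F : ZMod r) * Module.finrank F ↥W
      ≤ orderOf (Fintype.card F : ZMod r) *
          (Module.finrank F ↥(LinearMap.ker (T - 1)) * Module.finrank F ↥(LinearMap.ker (S - 1)) +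
            v * Module.finrank F ↥(LinearMap.range (S - 1))) := Nat.mul_le_mul_left _ hdim
    _ = orderOf (Fintype.card F : ZMod r) *
          (Module.finrank F ↥(LinearMap.ker (S - 1)) * Module.finrank F ↥(LinearMap.ker (T - 1))) +
          (orderOf (Fintype.card F : ZMod r) * v) *
            Module.finrank F ↥(LinearMap.range (S - 1)) := by ring
    _ ≤ orderOf (Fintype.card F : ZMod r) *
          (Module.finrank F ↥(LinearMap.ker (S - 1)) * Module.finrank F ↥(LinearMap.ker (T - 1))) +
          Module.finrank F ↥(LinearMap.range (S - 1)) *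
            Module.finrank F ↥(LinearMap.range (T - 1)) := by
        rw [Nat.mul_comm (Module.finrank F ↥(LinearMap.range (S - 1)))]
        exact Nat.add_le_add_left (Nat.mul_le_mul_right _ hv) _

example (hGen : Cfsg.Agent.H77.Tp.StGen.{u}) : Cfsg.Agent.H77.Tp.StIntwLin.{u} := intwLin hGen

end Cfsg.Agent.H27.Tp
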