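import Mathlib
import Cfsg.Agent.H77.TqDefs

/-!
# S5978-DIAG (helper77's team project S5978): diagonalisation of a nondegenerate symmetric
bilinear form over a finite field of odd characteristic, with prescribed norm `c` for all but
the last basis vector.
-/

set_option autoImplicit false
set_option linter.style.haveILetI false

namespace Cfsg.Agent.H27.Tq

open Cfsg.Agent.H77.Tq Polynomial

universe u

/-- Over a finite field of odd characteristic, `a₀ x² + a₁ y² = c` is solvable. -/
theorem diag_quad_solve (L : Type u) [Field L] [Fintype L] (h2 : (2 : L) ≠ 0)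
    (a₀ a₁ c : L) (ha₀ : a₀ ≠ 0) (ha₁ : a₁ ≠ 0) :
    ∃ x y : L, a₀ * x ^ 2 + a₁ * y ^ 2 = c := by
  classical
  have hchar : ringChar L ≠ 2 := by
    intro h
    apply h2
    have := ringChar.Nat.cast_ringChar (R := L)
    rw [h] at this
    exact_mod_cast this
  have hodd : Fintype.card L % 2 = 1 := FiniteField.odd_card_of_char_ne_two hchar
  have hf : (C a₀ * X ^ 2 : L[X]).degree = 2 := by
    rw [degree_C_mul_X_pow 2 ha₀]; rfl
  have hg : (C a₁ * X ^ 2 - C c : L[X]).degree = 2 := by
    rw [degree_sub_eq_left_of_degree_lt, degree_C_mul_X_pow 2 ha₁]; rfl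
    rw [degree_C_mul_X_pow 2 ha₁]
    exact lt_of_le_of_lt degree_C_le (by decide)
  obtain ⟨x, y, hxy⟩ := FiniteField.exists_root_sum_quadratic hf hg hodd
  refine ⟨x, y, ?_⟩
  simp only [eval_mul, eval_C, eval_pow, eval_X, eval_sub] at hxy
  linear_combination hxy

/-- From an orthogonal spanning family with nonzero norms, a coordinate system in which the form
is diagonal. -/
theorem diag_equiv_of_family (L : Type u) [Field L] (V : Type u) [AddCommGroup V]
    [Module L V] (B : V →ₗ[L] V →ₗ[L] L) (n : ℕ) (u : Fin n → V)
    (horth : ∀ i j, i ≠ j → B (u i) (u j) = 0) (hne : ∀ i, B (u i) (u i) ≠ 0)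
    (hspan : Submodule.span L (Set.range u) = ⊤) :
    ∃ e : (Fin n → L) ≃ₗ[L] V, ∀ w w' : Fin n → L,
      B (e w) (e w') = ∑ l, B (u l) (u l) * w l * w' l := by
  classical
  have hli : LinearIndependent L u := by
    rw [Fintype.linearIndependent_iff]
    intro g hg j
    have h1 : B (∑ i, g i • u i) (u j) = 0 := by rw [hg]; simp
    rw [map_sum, LinearMap.sum_apply] at h1
    rw [Finset.sum_eq_single j] at h1
    · simp only [map_smul, LinearMap.smul_apply, smul_eq_mul] at h1
      rcases mul_eq_zero.mp h1 with h | h
      · exact h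
      · exact absurd h (hne j)
    · intro i _ hij
      simp only [map_smul, LinearMap.smul_apply, smul_eq_mul]
      rw [horth i j hij, mul_zero]
    · intro h; exact absurd (Finset.mem_univ j) h
  let bas : Module.Basis (Fin n) L V := Module.Basis.mk hli (by rw [hspan])
  have hbas : ∀ i, bas i = u i := fun i => Module.Basis.mk_apply hli _ i
  refine ⟨bas.equivFun.symm, ?_⟩
  intro w w'
  rw [Module.Basis.equivFun_symm_apply, Module.Basis.equivFun_symm_apply]
  simp only [hbas]
  rw [map_sum]
  refine Finset.sum_congr rfl ?_
  intro l _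
  rw [map_sum, LinearMap.sum_apply]
  rw [Finset.sum_eq_single l]
  · simp only [map_smul, LinearMap.smul_apply, smul_eq_mul]
    ring
  · intro i _ hil
    simp only [map_smul, LinearMap.smul_apply, smul_eq_mul]
    rw [horth i l hil]; ring
  · intro h; exact absurd (Finset.mem_univ l) h

/-- Reshaping an orthogonal family `h, t 0, …, t (n-1)` with nonzero norms into one spanning the
same subspace, in which all the `t`-vectors have norm `c`. -/
theorem diag_reshape (L : Type u) [Field L] [Fintype L] (V : Type u) [AddCommGroup V]
    [Module L V] (B : V →ₗ[L] V →ₗ[L] L) (h2 : (2 : L) ≠ 0)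
    (hsym : ∀ u v, B u v = B v u) (c : L) (hc : c ≠ 0) :
    ∀ (n : ℕ) (h : V) (t : Fin n → V), B h h ≠ 0 → (∀ i, B (t i) (t i) ≠ 0) →
      (∀ i, B h (t i) = 0) → (∀ i j, i ≠ j → B (t i) (t j) = 0) →
      ∃ (h' : V) (t' : Fin n → V), B h' h' ≠ 0 ∧ (∀ i, B (t' i) (t' i) = c) ∧
        (∀ i, B h' (t' i) = 0) ∧ (∀ i j, i ≠ j → B (t' i) (t' j) = 0) ∧
        Submodule.span L {h'} ⊔ Submodule.span L (Set.range t') =
          Submodule.span L {h} ⊔ Submodule.span L (Set.range t) := by
  intro n
  induction n with
  | zero =>
    intro h t hh _ _ _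
    refine ⟨h, t, hh, fun i => i.elim0, fun i => i.elim0, fun i => i.elim0, rfl⟩
  | succ n ih =>
    intro h t hh ht hht htt
    obtain ⟨x, y, hxy⟩ := diag_quad_solve L h2 (B h h) (B (t 0) (t 0)) c hh (ht 0)
    obtain ⟨v, hv⟩ : ∃ v : V, v = x • h + y • t 0 := ⟨_, rfl⟩
    obtain ⟨v', hv'⟩ : ∃ v' : V, v' = (-(B (t 0) (t 0) * y)) • h + (B h h * x) • t 0 :=
      ⟨_, rfl⟩
    have hth : B (t 0) h = 0 := by rw [hsym]; exact hht 0
    have hvv : B v v = c := by
      rw [hv]
      simp only [map_add, map_smul, LinearMap.add_apply, LinearMap.smul_apply, smul_eq_mul,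
        hht 0, hth]
      linear_combination hxy
    have hvv' : B v v' = 0 := by
      rw [hv, hv']
      simp only [map_add, map_smul, LinearMap.add_apply, LinearMap.smul_apply, smul_eq_mul,
        hht 0, hth]
      ring
    have hv'v' : B v' v' = B h h * B (t 0) (t 0) * c := by
      rw [hv']
      simp only [map_add, map_smul, LinearMap.add_apply, LinearMap.smul_apply, smul_eq_mul,
        hht 0, hth]
      linear_combination (B h h * B (t 0) (t 0)) * hxy
    have hv'ne : B v' v' ≠ 0 := by
      rw [hv'v']; exact mul_ne_zero (mul_ne_zero hh (ht 0)) hc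
    -- the tail
    have hvt : ∀ j : Fin n, B v (t j.succ) = 0 := by
      intro j
      rw [hv]
      simp only [map_add, map_smul, LinearMap.add_apply, LinearMap.smul_apply, smul_eq_mul]
      rw [hht j.succ, htt 0 j.succ (Fin.succ_ne_zero j).symm]; ring
    have hv't : ∀ j : Fin n, B v' (t j.succ) = 0 := by
      intro j
      rw [hv']
      simp only [map_add, map_smul, LinearMap.add_apply, LinearMap.smul_apply, smul_eq_mul]
      rw [hht j.succ, htt 0 j.succ (Fin.succ_ne_zero j).symm]; ring
    obtain ⟨h'', t'', hh'', ht'', hh''t'', ht''t'', hspan⟩ :=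
      ih v' (fun j => t j.succ) hv'ne (fun j => ht j.succ) hv't
        (fun i j hij => htt i.succ j.succ (fun hh => hij (Fin.succ_injective _ hh)))
    -- `v` is orthogonal to the span of `v'` and the tail, hence to `h''` and `t''`
    have hker : Submodule.span L {h''} ⊔ Submodule.span L (Set.range t'') ≤
        LinearMap.ker (B v) := by
      rw [hspan]
      refine sup_le ?_ ?_
      · rw [Submodule.span_le]
        intro z hz
        rw [Set.mem_singleton_iff] at hz
        rw [hz]
        exact hvv'
      · rw [Submodule.span_le]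
        rintro z ⟨j, rfl⟩
        exact hvt j
    have hvh'' : B v h'' = 0 :=
      hker (Submodule.mem_sup_left (Submodule.subset_span (Set.mem_singleton _)))
    have hvt'' : ∀ j, B v (t'' j) = 0 := fun j =>
      hker (Submodule.mem_sup_right (Submodule.subset_span ⟨j, rfl⟩))
    refine ⟨h'', Fin.cons v t'', hh'', ?_, ?_, ?_, ?_⟩
    · intro i
      induction i using Fin.cases with
      | zero => simpa using hvv
      | succ j => simpa using ht'' j
    · intro i
      induction i using Fin.cases with
      | zero => simp only [Fin.cons_zero]; rw [hsym]; exact hvh''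
      | succ j => simpa using hh''t'' j
    · intro i j hij
      induction i using Fin.cases with
      | zero =>
        induction j using Fin.cases with
        | zero => exact absurd rfl hij
        | succ j => simpa using hvt'' j
      | succ i =>
        induction j using Fin.cases with
        | zero => simp only [Fin.cons_zero, Fin.cons_succ]; rw [hsym]; exact hvt'' i
        | succ j =>
          simp only [Fin.cons_succ]
          exact ht''t'' i j (fun hh => hij (by rw [hh]))
    · -- span equality
      have hch : c • h = (B h h * x) • v - y • v' := by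
        rw [← hxy, hv, hv']; module
      have hct : c • t 0 = (B (t 0) (t 0) * y) • v + x • v' := by
        rw [← hxy, hv, hv']; module
      have hhe : h = c⁻¹ • ((B h h * x) • v - y • v') := by
        rw [← hch, inv_smul_smul₀ hc]
      have hte : t 0 = c⁻¹ • ((B (t 0) (t 0) * y) • v + x • v') := by
        rw [← hct, inv_smul_smul₀ hc]
      obtain ⟨W, hW⟩ : ∃ W, W = Submodule.span L {h} ⊔ Submodule.span L (Set.range t) :=
        ⟨_, rfl⟩
      obtain ⟨W', hW'⟩ : ∃ W', W' = Submodule.span L {h''} ⊔
          Submodule.span L (Set.range (Fin.cons v t'' : Fin (n + 1) → V)) := ⟨_, rfl⟩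
      rw [← hW, ← hW']
      have hhW : h ∈ W := by
        rw [hW]; exact Submodule.mem_sup_left (Submodule.subset_span (Set.mem_singleton _))
      have htW : ∀ i, t i ∈ W := by
        intro i
        rw [hW]; exact Submodule.mem_sup_right (Submodule.subset_span ⟨i, rfl⟩)
      have hvW : v ∈ W := by
        rw [hv]; exact W.add_mem (W.smul_mem _ hhW) (W.smul_mem _ (htW 0))
      have hv'W : v' ∈ W := by
        rw [hv']; exact W.add_mem (W.smul_mem _ hhW) (W.smul_mem _ (htW 0))
      have hh''W' : h'' ∈ W' := by
        rw [hW']; exact Submodule.mem_sup_left (Submodule.subset_span (Set.mem_singleton _))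
      have hcW' : ∀ i, (Fin.cons v t'' : Fin (n + 1) → V) i ∈ W' := by
        intro i
        rw [hW']; exact Submodule.mem_sup_right (Submodule.subset_span ⟨i, rfl⟩)
      have hvW' : v ∈ W' := by simpa using hcW' 0
      have ht''W' : ∀ j, t'' j ∈ W' := by
        intro j; simpa using hcW' j.succ
      -- the IH span, inside both
      have hS1 : Submodule.span L {h''} ⊔ Submodule.span L (Set.range t'') ≤ W' := by
        refine sup_le ?_ ?_
        · rw [Submodule.span_le]
          intro z hz
          rw [Set.mem_singleton_iff] at hz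
          rw [hz]; exact hh''W'
        · rw [Submodule.span_le]
          rintro z ⟨j, rfl⟩
          exact ht''W' j
      have hS2 : Submodule.span L {v'} ⊔
          Submodule.span L (Set.range fun j : Fin n => t j.succ) ≤ W := by
        refine sup_le ?_ ?_
        · rw [Submodule.span_le]
          intro z hz
          rw [Set.mem_singleton_iff] at hz
          rw [hz]; exact hv'W
        · rw [Submodule.span_le]
          rintro z ⟨j, rfl⟩
          exact htW j.succ
      have hv'W' : v' ∈ W' := by
        apply hS1
        rw [hspan]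
        exact Submodule.mem_sup_left (Submodule.subset_span (Set.mem_singleton _))
      have htsW' : ∀ j : Fin n, t j.succ ∈ W' := by
        intro j
        apply hS1
        rw [hspan]
        exact Submodule.mem_sup_right (Submodule.subset_span ⟨j, rfl⟩)
      have hh''W : h'' ∈ W := by
        apply hS2
        rw [← hspan]
        exact Submodule.mem_sup_left (Submodule.subset_span (Set.mem_singleton _))
      have ht''W : ∀ j, t'' j ∈ W := by
        intro j
        apply hS2
        rw [← hspan]
        exact Submodule.mem_sup_right (Submodule.subset_span ⟨j, rfl⟩)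
      apply le_antisymm
      · rw [hW']
        refine sup_le ?_ ?_
        · rw [Submodule.span_le]
          intro z hz
          rw [Set.mem_singleton_iff] at hz
          rw [hz]; exact hh''W
        · rw [Submodule.span_le]
          rintro z ⟨i, rfl⟩
          induction i using Fin.cases with
          | zero => simpa using hvW
          | succ j => simpa using ht''W j
      · rw [hW]
        refine sup_le ?_ ?_
        · rw [Submodule.span_le]
          intro z hz
          rw [Set.mem_singleton_iff] at hz
          rw [hz, hhe]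
          exact W'.smul_mem _ (W'.sub_mem (W'.smul_mem _ hvW') (W'.smul_mem _ hv'W'))
        · rw [Submodule.span_le]
          rintro z ⟨i, rfl⟩
          induction i using Fin.cases with
          | zero =>
            show t 0 ∈ W'
            rw [hte]
            exact W'.smul_mem _ (W'.add_mem (W'.smul_mem _ hvW') (W'.smul_mem _ hv'W'))
          | succ j => exact htsW' j

/-- From an orthogonal spanning family with nonzero norms to the diagonal form with prescribed
norms. -/
theorem diag_of_family (L : Type u) [Field L] [Fintype L] (V : Type u) [AddCommGroup V]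
    [Module L V] (B : V →ₗ[L] V →ₗ[L] L) (h2 : (2 : L) ≠ 0)
    (hsym : ∀ u v, B u v = B v u) (c : L) (hc : c ≠ 0) (m : ℕ) (b : Fin m → V)
    (horth : ∀ i j, i ≠ j → B (b i) (b j) = 0) (hne : ∀ i, B (b i) (b i) ≠ 0)
    (hspan : Submodule.span L (Set.range b) = ⊤) :
    ∃ (n : ℕ) (e : (Fin n → L) ≃ₗ[L] V) (α : Fin n → L), (∀ l, α l ≠ 0) ∧
      (∀ l : Fin n, (l : ℕ) + 1 < n → α l = c) ∧
      ∀ w w' : Fin n → L, B (e w) (e w') = ∑ l, α l * w l * w' l := by
  classical
  cases m with
  | zero =>
    obtain ⟨e, he⟩ := diag_equiv_of_family L V B 0 b horth hne hspan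
    exact ⟨0, e, fun l => B (b l) (b l), fun l => l.elim0, fun l => l.elim0, he⟩
  | succ k =>
    obtain ⟨h', t', hh', ht', hh't', ht't', hsp⟩ :=
      diag_reshape L V B h2 hsym c hc k (b 0) (fun j => b j.succ) (hne 0)
        (fun j => hne j.succ) (fun j => horth 0 j.succ (Fin.succ_ne_zero j).symm)
        (fun i j hij => horth i.succ j.succ (fun hh => hij (Fin.succ_injective _ hh)))
    obtain ⟨u, hu⟩ : ∃ u : Fin (k + 1) → V,
        u = fun l : Fin (k + 1) => if hl : (l : ℕ) < k then t' ⟨(l : ℕ), hl⟩ else h' :=
      ⟨_, rfl⟩
    have hu1 : ∀ (l : Fin (k + 1)) (hl : (l : ℕ) < k), u l = t' ⟨l, hl⟩ := by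
      intro l hl
      rw [hu]; simp only [dif_pos hl]
    have hu2 : ∀ (l : Fin (k + 1)), ¬ (l : ℕ) < k → u l = h' := by
      intro l hl
      rw [hu]; simp only [dif_neg hl]
    have hunorm : ∀ l : Fin (k + 1), (l : ℕ) + 1 < k + 1 → B (u l) (u l) = c := by
      intro l hl
      have hl' : (l : ℕ) < k := by omega
      rw [hu1 l hl']; exact ht' _
    have hune : ∀ l, B (u l) (u l) ≠ 0 := by
      intro l
      by_cases hl : (l : ℕ) < k
      · rw [hunorm l (by omega)]; exact hc
      · rw [hu2 l hl]; exact hh'
    have huorth : ∀ i j, i ≠ j → B (u i) (u j) = 0 := by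
      intro i j hij
      by_cases hi : (i : ℕ) < k
      · by_cases hj : (j : ℕ) < k
        · rw [hu1 i hi, hu1 j hj]
          apply ht't'
          intro hh
          apply hij
          apply Fin.ext
          simpa using congrArg Fin.val hh
        · rw [hu1 i hi, hu2 j hj, hsym]; exact hh't' _
      · by_cases hj : (j : ℕ) < k
        · rw [hu2 i hi, hu1 j hj]; exact hh't' _
        · exfalso
          apply hij
          apply Fin.ext
          have := i.isLt
          have := j.isLt
          omega
    have huspan : Submodule.span L (Set.range u) = ⊤ := by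
      rw [eq_top_iff]
      have hb : (⊤ : Submodule L V) ≤
          Submodule.span L {b 0} ⊔ Submodule.span L (Set.range fun j : Fin k => b j.succ) := by
        rw [← hspan, Submodule.span_le]
        rintro z ⟨i, rfl⟩
        induction i using Fin.cases with
        | zero => exact Submodule.mem_sup_left (Submodule.subset_span (Set.mem_singleton _))
        | succ j => exact Submodule.mem_sup_right (Submodule.subset_span ⟨j, rfl⟩)
      refine le_trans hb ?_
      rw [← hsp]
      refine sup_le ?_ ?_
      · rw [Submodule.span_le]
        intro z hz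
        rw [Set.mem_singleton_iff] at hz
        rw [hz]
        apply Submodule.subset_span
        refine ⟨Fin.last k, ?_⟩
        exact hu2 _ (by simp)
      · rw [Submodule.span_le]
        rintro z ⟨j, rfl⟩
        apply Submodule.subset_span
        refine ⟨Fin.castSucc j, ?_⟩
        rw [hu1 _ (by simp)]
        congr 1
    obtain ⟨e, he⟩ := diag_equiv_of_family L V B (k + 1) u huorth hune huspan
    exact ⟨k + 1, e, fun l => B (u l) (u l), hune, hunorm, he⟩

/-- **S5978-DIAG**. -/
theorem diag : StDiag.{u} := by
  intro L _ _ V _ _ _ B h2 hsym hnd c hc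
  classical
  haveI : Invertible (2 : L) := invertibleOfNonzero h2
  obtain ⟨b, hb⟩ := LinearMap.BilinForm.exists_orthogonal_basis (B := B) ⟨hsym⟩
  have horth : ∀ i j, i ≠ j → B (b i) (b j) = 0 := by
    intro i j hij
    exact hb hij
  have hne : ∀ i, B (b i) (b i) ≠ 0 := by
    intro i h0
    apply b.ne_zero i
    apply hnd
    intro v
    have hz : B (b i) = 0 := by
      apply b.ext
      intro j
      by_cases hij : i = j
      · rw [← hij, h0]; rfl
      · rw [horth i j hij]; rfl
    rw [hz]; rfl
  exact diag_of_family L V B h2 hsym c hc _ (fun i => b i) horth hne b.span_eq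

example : Cfsg.Agent.H77.Tq.StDiag.{u} := diag

end Cfsg.Agent.H27.Tq
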