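import Mathlib
import Cfsg.Agent.H77.TqDefs

/-!
# S5978-NORMSQ (helper77's team project S5978): squares and norms in a quadratic extension of
finite fields of odd characteristic
-/

set_option autoImplicit false

namespace Cfsg.Agent.H27.Tq

open Cfsg.Agent.H77.Tq

universe u

/-- **S5978-NORMSQ**. -/
theorem normSq : StNormSq.{u} := by
  intro F _ _ L _ _ _ h2 hcard c hc
  classical
  have hF2 : ringChar F ≠ 2 := by
    intro h
    have h1 := ringChar.Nat.cast_ringChar (R := F)
    rw [h] at h1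
    exact h2 (by exact_mod_cast h1)
  have hinj : Function.Injective (algebraMap F L) := (algebraMap F L).injective
  have h2L : (2 : L) ≠ 0 := by
    intro h
    apply h2
    apply hinj
    rw [map_ofNat, h, map_zero]
  have hL2 : ringChar L ≠ 2 := by
    intro h
    have h1 := ringChar.Nat.cast_ringChar (R := L)
    rw [h] at h1
    exact h2L (by exact_mod_cast h1)
  obtain ⟨q, hq⟩ : ∃ q, q = Fintype.card F := ⟨_, rfl⟩
  have hqodd : q % 2 = 1 := by rw [hq]; exact FiniteField.odd_card_of_char_ne_two hF2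
  have hq1 : 1 < q := by rw [hq]; exact Fintype.one_lt_card
  have hnorm : algebraMap F L (Algebra.norm F c) = c ^ (q + 1) := by
    rw [FiniteField.algebraMap_norm_eq_pow, Nat.card_eq_fintype_card, Nat.card_eq_fintype_card,
      hcard, ← hq]
    congr 1
    have h3 : q ^ 2 - 1 = (q + 1) * (q - 1) := by
      obtain ⟨k, rfl⟩ : ∃ k, q = k + 1 := ⟨q - 1, by omega⟩
      have h4 : (k + 1) ^ 2 = (k + 1 + 1) * k + 1 := by ring
      rw [h4]; simp
    rw [h3, Nat.mul_div_cancel _ (by omega)]
  have hN0 : Algebra.norm F c ≠ 0 := by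
    intro h
    rw [h, map_zero] at hnorm
    exact pow_ne_zero _ hc hnorm.symm
  rw [FiniteField.isSquare_iff hL2 hc, FiniteField.isSquare_iff hF2 hN0, hcard, ← hq]
  have hexp : q ^ 2 / 2 = (q + 1) * (q / 2) := by
    obtain ⟨k, rfl⟩ : ∃ k, q = 2 * k + 1 := ⟨q / 2, by omega⟩
    have h1 : (2 * k + 1) ^ 2 = 2 * ((2 * k + 1 + 1) * k) + 1 := by ring
    have h2' : (2 * k + 1) / 2 = k := by omega
    have h3 : ∀ m : ℕ, (2 * m + 1) / 2 = m := fun m => by omega
    rw [h1, h2', h3]
  rw [hexp, pow_mul, ← hnorm, ← map_pow]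
  constructor
  · intro h; exact hinj (by rw [h, map_one])
  · intro h; rw [h, map_one]

example : Cfsg.Agent.H77.Tq.StNormSq.{u} := normSq

end Cfsg.Agent.H27.Tq
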